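/- S5304 tower: the Steinberg endomorphism of a Ree group over the algebraic closure. -/
import Cfsg.Agent.H12.ABSpec
import Cfsg.Agent.H68.ReeF

set_option autoImplicit false
set_option linter.unusedSectionVars false

namespace H13.ABF4

open Cfsg Cfsg.Lie H63 H64 H65 H46 H12.AB

section gen

variable {D : ChevalleyDatum} [RS D] [Tab D] [Comm D] {Ω : Type} {τ : H68.Tw (H68.rd D) Ω}

theorem ρ_lt {k : Type} [Field k] (S : H68.SM (H68.mat D k) τ) (r : Rt D) :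
    S.ρN r < D.nroots := S.ρ_val r ▸ (τ.ρ r).2

theorem σ_mem {k : Type} [Field k] (S : H68.SM (H68.mat D k) τ) {g : GL D.Idx k}
    (hg : g ∈ D.group k) : S.σ g ∈ D.group k := by
  have hg' := hg
  rw [group_eq_closure] at hg'
  induction hg' using Subgroup.closure_induction'' with
  | one => rw [S.map_one]; exact one_mem _
  | mem x hx =>
    obtain ⟨r, t, rfl⟩ := hx
    have := S.map_x r r.2 t
    rw [H68.mat_x] at this
    rw [this]
    exact xU_mem_group _ _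
  | inv_mem x hx =>
    obtain ⟨r, t, rfl⟩ := hx
    have := S.map_x r r.2 (-t)
    rw [H68.mat_x] at this
    rw [xU_inv, this]
    exact xU_mem_group _ _
  | mul x y hx hy ihx ihy =>
    rw [← group_eq_closure] at hx hy
    rw [S.map_mul _ (H68.mat_Gp.ge hx) _ (H68.mat_Gp.ge hy)]
    exact mul_mem (ihx hx) (ihy hy)

/-- The endomorphism restricted to the Chevalley group. -/
noncomputable def gam {k : Type} [Field k] (S : H68.SM (H68.mat D k) τ) : GK D k →* GK D k :=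
  MonoidHom.mk' (fun g => ⟨S.σ g, σ_mem S g.2⟩) fun a b =>
    Subtype.ext (S.map_mul _ (H68.mat_Gp.ge a.2) _ (H68.mat_Gp.ge b.2))

theorem gam_val {k : Type} [Field k] (S : H68.SM (H68.mat D k) τ) (g : GK D k) :
    (gam S g : GL D.Idx k) = S.σ g := rfl

theorem gam_xG {k : Type} [Field k] (S : H68.SM (H68.mat D k) τ) (r : Rt D) (t : k) :
    gam S (xG D k r t) = xG D k (S.ρN r) (S.γ r * t ^ S.e r) :=
  Subtype.ext (S.map_x r r.2 t)

theorem gam_H {k : Type} [Field k] (S : H68.SM (H68.mat D k) τ) {h : GK D k} (hh : h ∈ HK D k) :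
    gam S h ∈ HK D k := by
  rw [mem_HH_xG] at hh ⊢
  obtain ⟨c, hc⟩ := (H68.mat D k).exists_tor (h := h) hh
  rw [gam_val, hc, S.map_tor]
  exact (H68.mat D k).tor_mem _

theorem gam_N {k : Type} [Field k] (S : H68.SM (H68.mat D k) τ) {n : GK D k} (hn : n ∈ NK D k) :
    gam S n ∈ NK D k := by
  have : NK D k ≤ (NK D k).comap (gam S) := by
    refine sup_le (fun h hh => ?_) ((Subgroup.closure_le _).2 ?_)
    · exact (H67.stBG (D := D) (k := k)).rgd.H_le_N (gam_H S hh)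
    · rintro _ ⟨i, rfl⟩
      have h1 : ∀ j : Fin D.rank, (((H67.stBG (D := D) (k := k)).rgd.n j : GK D k) : GL D.Idx k) =
          (H68.mat D k).T.n j := fun j => map_nn_eq (x := xG D k) (D.group k).subtype _ _
      have h2 : gam S ((H67.stBG (D := D) (k := k)).rgd.n i) =
          (H67.stBG (D := D) (k := k)).rgd.n (τ.π i) :=
        Subtype.ext (by rw [gam_val, h1, h1, S.map_n])
      rw [SetLike.mem_coe, Subgroup.mem_comap, h2]
      exact (H67.stBG (D := D) (k := k)).rgd.n_mem_N _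
  exact this hn

/-- Points fixed by a field endomorphism are rational when the torus is faithful. -/
theorem mem_range_of_fix {F k : Type} [Field F] [Field k] {ι : F →+* k} {φ : k →+* k}
    (hfix : ∀ t, φ t = t ↔ t ∈ ι.range) (hinj : Function.Injective (tor D k)) {g : GK D k}
    (hg : mapG D φ g = g) : g ∈ (mapG D ι).range := by
  obtain ⟨a, ha, b, hb, a', ha', e1, e2⟩ := exists_of_fix (θ := Matrix.GeneralLinearGroup.map φ)
    (σ := φ) (fun r t => map_xU φ r t) (stB_xU D k) (K := G0 D ι) (fun r t ht => by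
      obtain ⟨s, rfl⟩ := (hfix t).1 ht
      exact xU_mem_G0 ι r s) (group_eq (D := D) (F := k) ▸ g.2) (congrArg Subtype.val hg)
  obtain ⟨d, rfl⟩ := exists_tor_of_mem_HH hb
  rw [map_tor'] at e1
  obtain ⟨d', rfl⟩ := exists_frT_eq hfix (hinj e1)
  obtain ⟨y, hy, e⟩ := mul_mem (mul_mem ha (tor_mem_G0 ι d')) ha'
  exact ⟨⟨y, hy⟩, Subtype.ext (e.trans e2.symm)⟩

theorem gam_gam {k : Type} [Field k] (S : H68.SM (H68.mat D k) τ) (hγ : ∀ r, S.γ r = 1) {q : ℕ}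
    (h2 : ∀ r < D.nroots, S.ρN (S.ρN r) = r ∧ S.e r * S.e (S.ρN r) = q) {φ : k →+* k}
    (h3 : ∀ t, φ t = t ^ q) (g : GK D k) : gam S (gam S g) = mapG D φ g := by
  refine hom_ext_GG (φ := (gam S).comp (gam S)) (ψ := mapG D φ) (x := xG D k) (fun r t => ?_)
    (GG_xG.ge (Subgroup.mem_top g))
  have := gam_xG S ⟨_, ρ_lt S r⟩ (t ^ S.e r)
  rw [MonoidHom.comp_apply, gam_xG, hγ, one_mul, this, hγ, one_mul, (h2 r r.2).1, ← pow_mul,
    (h2 r r.2).2, mapG_xG, h3]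

theorem gam_mapG {K k : Type} [Field K] [Field k] (S : H68.SM (H68.mat D k) τ)
    (S₀ : H68.SM (H68.mat D K) τ) (hρ : S₀.ρN = S.ρN) (hγ : ∀ r, S.γ r = 1)
    (hγ₀ : ∀ r, S₀.γ r = 1) (he : ∀ r, S₀.e r = S.e r) (ι : K →+* k) (g : GK D K) :
    gam S (mapG D ι g) = mapG D ι (gam S₀ g) := by
  refine hom_ext_GG (φ := (gam S).comp (mapG D ι)) (ψ := (mapG D ι).comp (gam S₀)) (x := xG D K)
    (fun r t => ?_) (GG_xG.ge (Subgroup.mem_top g))
  rw [MonoidHom.comp_apply, MonoidHom.comp_apply, mapG_xG, gam_xG, gam_xG, mapG_xG, hγ, hγ₀,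
    one_mul, one_mul, hρ, he, map_pow]

theorem exists_fr' {K k : Type} [Field K] [Field k] (S : H68.SM (H68.mat D k) τ)
    (S₀ : H68.SM (H68.mat D K) τ) (hρ : S₀.ρN = S.ρN) (hγ : ∀ r, S.γ r = 1)
    (hγ₀ : ∀ r, S₀.γ r = 1) (he : ∀ r, S₀.e r = S.e r) {q : ℕ}
    (h2 : ∀ r < D.nroots, S.ρN (S.ρN r) = r ∧ S.e r * S.e (S.ρN r) = q) {ι : K →+* k}
    {φ : k →+* k} (h3 : ∀ t, φ t = t ^ q) (h4 : ∀ t, φ t = t ↔ t ∈ ι.range)
    (hinj : Function.Injective (tor D k)) (Y : Subgroup (GL D.Idx K))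
    (hY : ∀ g, g ∈ Y ↔ g ∈ D.group K ∧ S₀.σ g = g) (p : ℕ) :
    ∃ (γ : _) (f : Y →* GK D k), Fr D k p γ f := by
  have hle : Y ≤ D.group K := fun g hg => ((hY g).1 hg).1
  have hsq := gam_gam S hγ h2 h3
  have hc := gam_mapG S S₀ hρ hγ hγ₀ he ι
  refine ⟨gam S, (mapG D ι).comp (Subgroup.inclusion hle),
    fun a b e => mapG_injective φ (by rw [← hsq, ← hsq, e]), fun _ => gam_H S,
    fun _ => gam_N S, (mapG_injective _).comp (Subgroup.inclusion_injective hle), fun y => ?_,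
    fun x _ _ e => ?_⟩
  · rw [MonoidHom.comp_apply, hc]
    exact congrArg _ (Subtype.ext ((hY y).1 y.2).2)
  · obtain ⟨y, rfl⟩ := mem_range_of_fix h4 hinj (g := x) (by rw [← hsq, e, e])
    rw [hc] at e
    exact ⟨⟨y, (hY y).2 ⟨y.2, congrArg Subtype.val (mapG_injective _ e)⟩⟩, rfl⟩

/-- Frobenius glue for an endomorphism whose square is the Frobenius map. -/
theorem exists_fr {K : Type} [Field K] [Fintype K] (S : H68.SM (H68.mat D (AlgebraicClosure K)) τ)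
    (S₀ : H68.SM (H68.mat D K) τ) (hρ : S₀.ρN = S.ρN) (hγ : ∀ r, S.γ r = 1)
    (hγ₀ : ∀ r, S₀.γ r = 1) (he : ∀ r, S₀.e r = S.e r)
    (h2 : ∀ r < D.nroots, S.ρN (S.ρN r) = r ∧ S.e r * S.e (S.ρN r) = Fintype.card K)
    (hinj : Function.Injective (tor D (AlgebraicClosure K))) (Y : Subgroup (GL D.Idx K))
    (hY : ∀ g, g ∈ Y ↔ g ∈ D.group K ∧ S₀.σ g = g) (p : ℕ) :
    ∃ (γ : _) (f : Y →* GK D (AlgebraicClosure K)), Fr D (AlgebraicClosure K) p γ f := by
  obtain ⟨φ, h3, h4, -⟩ := H67.exists_frobAut K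
  exact exists_fr' S S₀ hρ hγ hγ₀ he h2 (φ := φ.toRingHom) h3 h4 hinj Y hY p

end gen

theorem jobGl2F4 : JobGl2F4 := by
  intro K _ _ m p _ hK
  haveI := H68.charP_two hK
  obtain ⟨S, h1, h2, h3⟩ : ∃ S : H68.SM (H68.mat chevF4 (AlgebraicClosure K)) H68.twF4,
      S.ρN = H68.rhoF4 ∧ (∀ r, S.γ r = 1) ∧ ∀ r, S.e r = 2 ^ m * H68.expF4 r :=
    H68.isogF4.exists_sm (fun _ _ _ _ _ _ => by rw [H68.eta_char_two, H68.eta_char_two]) H68.twF4
      (fun _ => rfl) m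
  refine exists_fr S (H68.smF4 hK) (by rw [H68.smF4_ρ, h1]) h2 (H68.smF4_γ hK)
    (fun r => by rw [H68.smF4_e, h3]) (fun r hr => ?_) H68.torF4_inj _ (fun g => ?_) p
  · have : ∀ r < 48, H68.rhoF4 (H68.rhoF4 r) = r ∧ H68.expF4 r * H68.expF4 (H68.rhoF4 r) = 2 := by
      decide
    rw [h1, h3, h3, mul_mul_mul_comm, (this r hr).2, hK]
    exact ⟨(this r hr).1, by ring⟩
  · rw [H68.twistedF4_eq_Fix hK, H68.TwG.mem_Fix, H68.mat_Gp]
    rfl

end H13.ABF4
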