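import Cfsg.Agent.H53.C6Spec
import Cfsg.Agent.H57.SLGen

/-! Tower C6P, job EL: a transvection with centre a basis vector generates `SL`. -/

set_option autoImplicit false
set_option linter.unusedSectionVars false

namespace H13.C6

open Matrix Cfsg.Geo H25 Equiv H53.C6

universe u

variable {F : Type u} [Field F]

section gen

variable {ι : Type} [Fintype ι] [DecidableEq ι] {G : Subgroup (GL ι F)} {i : ι} {φ ψ : ι → F}

theorem row_mul (h0 : φ i = 0) :
    (1 + vecMulVec (Pi.single i 1) φ) * (1 + vecMulVec (Pi.single i (1 : F)) ψ) =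
      1 + vecMulVec (Pi.single i 1) (φ + ψ) := by
  simp only [mul_add, add_mul, mul_one, one_mul, vecMulVec_mul_vecMulVec, dotProduct_single, h0,
    zero_smul, vecMulVec_zero, vecMulVec_add, add_zero]
  abel

/-- the forms of the transvections with centre `eᵢ` -/
def rows (G : Subgroup (GL ι F)) (i : ι) : AddSubgroup (ι → F) where
  carrier := {φ | φ i = 0 ∧ Row G i φ}
  zero_mem' := ⟨rfl, 1, G.one_mem, by simp⟩
  add_mem' := by
    rintro φ ψ ⟨a, g, hg, e⟩ ⟨b, h, hh, f⟩
    exact ⟨by simp [a, b], g * h, G.mul_mem hg hh, by rw [Units.val_mul, e, f, row_mul a]⟩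
  neg_mem' := by
    rintro φ ⟨a, g, hg, e⟩
    refine ⟨by simp [a], g⁻¹, G.inv_mem hg, ?_⟩
    exact Units.inv_eq_of_mul_eq_one_right (by rw [e, row_mul a]; simp)

theorem rows_dg {v : ι → Fˣ} (hv : dg v ∈ G) (h : φ ∈ rows G i) :
    (fun j => (v i : F) * (v j : F)⁻¹ * φ j) ∈ rows G i := by
  obtain ⟨a, g, hg, e⟩ := h
  refine ⟨by simp [a], _, G.mul_mem (G.mul_mem hv hg) (G.inv_mem hv), ?_⟩
  ext k l
  rw [dg_conj_apply, e]
  by_cases h1 : k = i <;> by_cases h2 : k = l <;>
    simp [h1, h2, vecMulVec_apply, one_apply, Pi.single_apply, a] <;> (simp_all; try ring)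

theorem rows_pm {σ : Perm ι} (hσ : pm σ ∈ G) (h : φ ∈ rows G i) :
    (fun j => φ (σ⁻¹ j)) ∈ rows G (σ i) := by
  obtain ⟨a, g, hg, e⟩ := h
  refine ⟨by simp [a], _, G.mul_mem (G.mul_mem hσ hg) (G.inv_mem hσ), ?_⟩
  ext k l
  rw [pm_conj_apply, e]
  simp [vecMulVec_apply, one_apply, Pi.single_apply, Equiv.symm_apply_eq]

theorem big_of_rows (h : ∀ i j, i ≠ j → ∀ c, Pi.single j c ∈ rows G i) : specialLinear ι F ≤ G := by
  intro g hg
  have := H57.sl_transvection_induction (fun A : SpecialLinearGroup ι F => A.toGL ∈ G)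
    (by simpa using G.one_mem) (fun i j hij c => by
      obtain ⟨-, k, hk, e⟩ := h i j hij c
      convert hk using 1
      refine Units.ext ?_
      rw [e]
      ext a b
      simp [SpecialLinearGroup.transvection_coe, vecMulVec_apply, single_apply, Pi.single_apply,
        ite_and, eq_comm]
      split_ifs <;> rfl)
    (fun A B a b => by simpa using G.mul_mem a b) ⟨g.val, by simpa using congrArg Units.val hg⟩
  convert this using 1
  exact Units.ext rfl

end gen

/-- the multipliers of an additive subgroup of a finite field -/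
def mulK [Finite F] (A : AddSubgroup F) : Subfield F where
  carrier := {s | ∀ t ∈ A, s * t ∈ A}
  mul_mem' a b t ht := by rw [mul_assoc]; exact a _ (b t ht)
  one_mem' t ht := by simpa using ht
  add_mem' a b t ht := by rw [add_mul]; exact A.add_mem (a t ht) (b t ht)
  zero_mem' t _ := by simp
  neg_mem' a t ht := by rw [neg_mul]; exact A.neg_mem (a t ht)
  inv_mem' x a t ht := by
    have h1 : ∀ n : ℕ, x ^ n * t ∈ A := fun n => by
      induction n with
      | zero => simpa using ht
      | succ n ih => rw [pow_succ', mul_assoc]; exact a _ ih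
    by_cases h : x = 0
    · simp [h]
    obtain ⟨n, hn, e⟩ := (isOfFinOrder_of_finite (Units.mk0 x h)).exists_pow_eq_one
    obtain ⟨n, rfl⟩ := Nat.exists_eq_add_one_of_ne_zero hn.ne'
    rw [inv_eq_of_mul_eq_one_left (by simpa [pow_succ] using congrArg Units.val e : x ^ n * x = 1)]
    exact h1 n

theorem jobEL : JobEL.{u} := by
  intro F _ _ r _ ω G hf hb i φ h0 h1 h2
  have := Fact.mk hf.prime
  have h := hf.ord
  obtain ⟨j, hj⟩ := Function.ne_iff.1 h1
  have hij : i - j ≠ 0 := sub_ne_zero.2 fun e => hj (e ▸ h0)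
  have hd : ∀ a : ZMod r, (dg fun k => w ω (a * k)) ∈ G := fun a => by
    simpa [dp_pow h] using G.pow_mem hb.d a.val
  have k1 : ∀ s : Finset (ZMod r), ∃ ψ ∈ rows G i, ψ j ≠ 0 ∧ ∀ k ∈ s, k ≠ j → ψ k = 0 := fun s => by
    induction s using Finset.induction_on with
    | empty => exact ⟨φ, ⟨h0, h2⟩, hj, by simp⟩
    | insert l s _ ih =>
      obtain ⟨ψ, a1, a2, a3⟩ := ih
      by_cases e : l = j
      · exact ⟨ψ, a1, a2, by simpa [e] using a3⟩
      have h3 : (dg fun k => w ω (-(i + l) * k + k ^ 2)) ∈ G := by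
        convert G.mul_mem (hd (-(i + l))) hb.p using 1
        rw [dp, ← map_mul]
        exact congrArg dg (funext fun k => w_add h _ _)
      have h4 : ∀ k, (w ω (-(i + l) * i + i ^ 2) : F) * (w ω (-(i + l) * k + k ^ 2) : F)⁻¹ =
          w ω ((i - k) * (k - l)) := fun k => by
        rw [← Units.val_inv_eq_inv_val, ← Units.val_mul, ← w_sub h]
        congr 2; ring
      refine ⟨_, sub_mem (rows_dg h3 a1) a1, ?_, fun k hk c => ?_⟩
      · rw [Pi.sub_apply, h4, ← sub_one_mul]
        exact mul_ne_zero (sub_ne_zero.2 fun c => mul_ne_zero hij (sub_ne_zero.2 (Ne.symm e))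
          ((w_eq_one_iff h).1 (Units.ext c))) a2
      · rw [Pi.sub_apply, h4]
        rcases Finset.mem_insert.1 hk with rfl | hk
        · simp
        · simp [a3 k hk c]
  obtain ⟨ψ, a1, a2, a3⟩ := k1 Finset.univ
  let A := (rows G i).comap (AddMonoidHom.single (fun _ : ZMod r => F) j)
  have k2 : mulK A = ⊤ := hf.gen _ fun t ht => by
    have := rows_dg (hd (i - j)⁻¹) ht
    change Pi.single j _ ∈ rows G i
    convert this using 1
    ext k
    by_cases c : k = j
    · rw [c, ← Units.val_inv_eq_inv_val, ← Units.val_mul, ← w_sub h, ← mul_sub,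
        inv_mul_cancel₀ hij, w_one h]
      simp
    · simp [c]
  have k3 : ∀ c, Pi.single j c ∈ rows G i := fun c => by
    have h5 : ψ j ∈ A := by
      change Pi.single j _ ∈ rows G i
      convert a1 using 1
      ext k
      by_cases c : k = j
      · simp [c]
      · simp [c, a3 k]
    have := (k2 ▸ Subfield.mem_top (c / ψ j) : c / ψ j ∈ mulK A) _ h5
    rwa [div_mul_cancel₀ _ a2] at this
  refine big_of_rows fun a b hab c => ?_
  have hu : (a - b) / (i - j) ≠ 0 := div_ne_zero (sub_ne_zero.2 hab) hij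
  have := rows_pm (hb.af (Units.mk0 _ hu) (a - (a - b) / (i - j) * i)) (k3 c)
  convert this using 1
  · simp
  · ext k
    have e : af (Units.mk0 _ hu) (a - (a - b) / (i - j) * i) j = b := by
      simp only [af_apply, Units.val_mk0]; field_simp; ring
    simp only [Pi.single_apply, Perm.inv_eq_iff_eq, e]

end H13.C6
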