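import Cfsg.Agent.H53.C6Spec

/-! Tower C6P, job HOM: a homology of odd prime order forces `SL`. -/

set_option autoImplicit false
set_option linter.unusedSectionVars false

namespace H13.C6

open Matrix hiding mul_inv_rev
open Cfsg.Geo H25 Equiv H53.C6

universe u

variable {F : Type u} [Field F]

theorem hom_ok {y : GL (Fin 2) F} {z a ρ : F} (hy : y.val = !![z, z * (ρ - 1); 1, -1]) (h0 : z ≠ 0)
    (h1 : z ≠ 1) (e : (z - 1) ^ 2 = -z * a) (a1 : a ≠ ρ) (a2 : a ≠ 2 * ρ)
    (a3 : a ^ 2 - 3 * a * ρ + ρ ^ 2 ≠ 0) : ∀ m, 1 ≤ m → m ≤ 5 → y ^ m ∉ scalars (Fin 2) F :=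
  pow_not_scalar (T := z - 1) (D := -z * ρ) (.inr (by simp [hy])) (by simp [hy, sub_eq_add_neg])
    (by simp [hy]; ring) (sub_ne_zero.2 h1)
    (fun c => a1 (mul_left_cancel₀ h0 (by linear_combination e - c)))
    (fun c => a2 (mul_left_cancel₀ h0 (by linear_combination e - c)))
    fun c => mul_ne_zero (pow_ne_zero 2 h0) a3 (by
      linear_combination c - ((z - 1) ^ 2 - z * a + 3 * z * ρ) * e)

theorem hom_num (ho : OddF F) {ρ ζ : F} (hρ : ρ = 5 ∨ ρ = 7) (h1 : ζ ≠ 1)
    (h : ζ ^ 3 = 1 ∨ ζ ^ 5 = 1) : ∃ (j : ℕ) (a : F), ζ ^ j ≠ 1 ∧ (ζ ^ j - 1) ^ 2 = -ζ ^ j * a ∧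
      a ≠ ρ ∧ a ≠ 2 * ρ ∧ a ^ 2 - 3 * a * ρ + ρ ^ 2 ≠ 0 := by
  obtain ⟨h2, h3, h5, h7, -, h19, h11⟩ := ho
  have h1' := sub_ne_zero.2 h1
  have h4 : (4 : F) ≠ 0 := fun c => mul_ne_zero h2 h2 (by linear_combination c)
  rcases h with h | h
  · have h11' : (11 : F) ≠ 0 := fun c => h1 (h11 c ζ h)
    refine ⟨1, 3, by simpa, mul_left_cancel₀ h1' (by linear_combination h), ?_⟩
    rcases hρ with rfl | rfl
    · exact ⟨fun c => h2 (by linear_combination -c), fun c => h7 (by linear_combination -c),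
        fun c => h11' (by linear_combination -c)⟩
    · exact ⟨fun c => h4 (by linear_combination -c), fun c => h11' (by linear_combination -c),
        fun c => h5 (by linear_combination -c)⟩
  have e : ζ ^ 4 + ζ ^ 3 + ζ ^ 2 + ζ + 1 = 0 := mul_left_cancel₀ h1' (by linear_combination h)
  have k : ∀ a : F, a ^ 2 - 5 * a + 5 = 0 → a ≠ ρ ∧ a ^ 2 - 3 * a * ρ + ρ ^ 2 ≠ 0 := fun a ha => by
    rcases hρ with rfl | rfl
    · refine ⟨fun c => h5 (by linear_combination ha - a * c), fun c => ?_⟩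
      have : a = 2 := mul_left_cancel₀ (mul_ne_zero h2 h5) (by linear_combination ha - c)
      exact one_ne_zero (α := F) (by linear_combination -ha + (a - 3) * this)
    · refine ⟨fun c => h19 (by linear_combination ha - (a + 2) * c), fun c => ?_⟩
      have : 4 * a = 11 := mul_left_cancel₀ h4 (by linear_combination ha - c)
      exact h19 (by linear_combination -16 * ha + (4 * a - 9) * this)
  have q1 : (2 - ζ - ζ ^ 4) ^ 2 - 5 * (2 - ζ - ζ ^ 4) + 5 = 0 := by
    linear_combination e + (ζ ^ 3 + 2) * h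
  have q2 : (2 - ζ ^ 2 - ζ ^ 3) ^ 2 - 5 * (2 - ζ ^ 2 - ζ ^ 3) + 5 = 0 := by
    linear_combination e + (ζ + 2) * h
  by_cases c : 2 - ζ - ζ ^ 4 = 2 * ρ
  · refine ⟨2, _, fun c => h1 (by linear_combination h - (ζ ^ 3 + ζ) * c), by linear_combination -h,
      (k _ q2).1, fun c' => ?_, (k _ q2).2⟩
    rcases hρ with rfl | rfl
    · exact mul_ne_zero h3 h5 (by linear_combination -c - c' - e)
    · rw [c] at q1
      exact mul_ne_zero h4 h4 (by linear_combination q1 + 5 * c + 5 * c' + 5 * e)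
  · exact ⟨1, _, by simpa, by linear_combination -h, (k _ q1).1, c, (k _ q1).2⟩

theorem jobHOM : JobHOM.{u} := by
  intro dk el F _ _ r _ ω G hf hb ho ζ l hl h2 hζ hG
  have h := hf.ord
  have hρ : (r : F) = 5 ∨ (r : F) = 7 := by rcases hf.hr with rfl | rfl <;> simp
  have z1 : ∀ m, 1 ≤ m → m < l → (ζ : F) ^ m ≠ 1 := fun m a b c =>
    pow_ne_one_of_lt_orderOf (by omega) (hζ ▸ b) (Units.ext (by simpa using c) : ζ ^ m = 1)
  have l3 : 2 < l := lt_of_le_of_ne hl.two_le h2.symm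
  have zl : (ζ : F) ^ l = 1 := by simpa [hζ] using congrArg Units.val (pow_orderOf_eq_one ζ)
  let B : Matrix (ZMod r) (Fin 2) F := of fun i => if i = 0 then ![1, 0] else ![0, 1]
  let δ : GL (Fin 2) F := dg ![ζ, 1]
  have d1 : ∀ j : ℕ, (δ ^ j).val = !![(ζ : F) ^ j, 0; 0, 1] := fun j => by
    rw [← map_pow, dg_val]
    ext a b; fin_cases a <;> fin_cases b <;> simp
  have d2 : δ ∈ sec G B := ⟨_, hG, by
    rw [← pow_one δ, d1, hm, dg_val]
    ext i j
    by_cases c : i = 0 <;> fin_cases j <;> simp [B, c, mul_apply, diagonal_apply]⟩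
  let A : GL (Fin 2) F := GeneralLinearGroup.mkOfDetNeZero !![1, (r : F) - 1; 1, -1] (by
    simpa [det_fin_two] using fun c => cast_ne_zero h (by linear_combination -c))
  have a1 : A.val = !![1, (r : F) - 1; 1, -1] := rfl
  have a2 : A ∈ sec G B := ⟨_, hb.ph, by
    have s : ∀ f : ZMod r → F, ∑ k, f k * (if k = 0 then 0 else 1) = ∑ k, f k - f 0 := fun f => by
      rw [eq_sub_iff_add_eq, ← Finset.sum_ite_eq_of_mem' Finset.univ 0 f (Finset.mem_univ _),
        ← Finset.sum_add_distrib]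
      exact Finset.sum_congr rfl fun k _ => by split_ifs <;> simp
    ext i j
    rw [a1, mul_apply]
    fin_cases j
    · by_cases c : i = 0 <;> simp [B, c, mul_apply, Ph_apply h, ite_apply]
    · simp only [B, of_apply, ite_apply, Fin.mk_one, cons_val, s, Ph_apply h]
      by_cases c : i = 0
      · simp [c, mul_apply]
      · simp [c, mul_apply, sum_w h c]⟩
  obtain ⟨y, y1, y2⟩ : ∃ y ∈ sec G B, ∀ m, 1 ≤ m → m ≤ 5 → y ^ m ∉ scalars (Fin 2) F := by
    by_cases c : 5 < l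
    · refine ⟨δ, d2, fun m a b e => ?_⟩
      obtain ⟨k, hk⟩ := (mem_scalars_iff _).1 e
      rw [d1] at hk
      have e0 : (ζ : F) ^ m = k := by simpa using congrFun (congrFun hk 0) 0
      have e1 : 1 = (k : F) := by simpa using congrFun (congrFun hk 1) 1
      exact z1 m a (by omega) (e0.trans e1.symm)
    obtain ⟨j, a, b1, b2, b3, b4, b5⟩ := hom_num ho hρ (by simpa using z1 1 le_rfl (by omega))
      (show (ζ : F) ^ 3 = 1 ∨ (ζ : F) ^ 5 = 1 by
        have : l ≠ 4 := by rintro rfl; exact absurd hl (by norm_num)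
        rcases (by omega : l = 3 ∨ l = 5) with rfl | rfl <;> simp [zl])
    exact ⟨δ ^ j * A, mul_mem (pow_mem d2 j) a2, hom_ok (by simp [d1, a1]) (by simp) b1 b2 b3 b4 b5⟩
  obtain ⟨c, c0, u, ⟨g, g1, g2⟩, hu⟩ := dk F _ ζ 1 δ A y hf.nsq d2 (by simpa using d1 1)
    (by simpa only [one_pow] using z1 2 (by omega) l3) a2 (by
      rcases hρ with e | e <;> simp only [a1, e, of_apply, cons_val]
      · exact fun c => mul_ne_zero ho.h2 ho.h2 (by linear_combination c)
      · exact fun c => mul_ne_zero ho.h2 ho.h3 (by linear_combination c))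
    (by simp [a1]) (by simp [a1]) y1 y2
  obtain ⟨φ, p1, p2, p3⟩ := row_of_fix (κ := 1) (i := 0) (ζ := ζ) g1 (by simpa using hG)
    (.one_left _) (.one_left _) (fun e => z1 1 le_rfl (by omega) (by simp [e]))
    (by
      ext i
      have := congrFun (congrFun g2 i) 0
      by_cases c : i = 0 <;> simpa [hu, B, mul_apply, ite_apply, c] using this)
    (v := fun i => B i 1) (by
      have := congrFun (congrFun g2 0) 1
      rw [show (g.val *ᵥ fun i => B i 1) 0 = _ from this]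
      simpa [hu, B, mul_apply] using c0)
  exact el F r ω G hf hb 0 φ p1 p2 p3

end H13.C6
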