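import Cfsg.Agent.H53.C6Spec
import Cfsg.Agent.H25.RowC6
import Cfsg.Agent.H25.Cert

/-! Tower C6P, job MOD: an extraspecial group `r^{1+2}` in `GL_r` is conjugate to the model. -/

set_option autoImplicit false
set_option linter.unusedSectionVars false

namespace H13.C6

open Matrix hiding mul_inv_rev
open Cfsg.Geo H25 Equiv H53.C6
open scoped commutatorElement

universe u

variable {F : Type u} [Field F] {r : ℕ} [NeZero r] {ω : Fˣ}

theorem conj_pow_sc {ι : Type} [Fintype ι] [DecidableEq ι] {a b : GL ι F} {c : Fˣ}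
    (h : b * a * b⁻¹ = sc ι c * a) (n : ℕ) : b ^ n * a * (b ^ n)⁻¹ = sc ι (c ^ n) * a := by
  induction n with
  | zero => simp
  | succ n ih =>
    calc _ = b * (b ^ n * a * (b ^ n)⁻¹) * b⁻¹ := by group
      _ = sc ι (c ^ n) * (b * a * b⁻¹) := by rw [ih, ← mul_assoc, ← sc_comm]; group
      _ = _ := by rw [h, ← mul_assoc, ← map_mul, pow_succ]

theorem xx_mem_R6 : xx F r ∈ R6 r ω := Subgroup.subset_closure (by simp)

theorem dp_mem_R6 : dp r ω 1 ∈ R6 r ω := Subgroup.subset_closure (by simp)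

theorem sc_mem_R6 (h : orderOf ω = r) {c : Fˣ} (hc : c ^ r = 1) : sc _ c ∈ R6 r ω := by
  obtain ⟨k, rfl⟩ := exists_w h hc
  have h1 := mul_mem (mul_mem (mul_mem (xx_mem_R6 (r := r) (ω := ω)) dp_mem_R6) (inv_mem xx_mem_R6))
    (inv_mem dp_mem_R6)
  rw [xx_conj_dp h, mul_inv_cancel_right, map_inv, inv_mem_iff] at h1
  rw [w, map_pow]
  exact pow_mem h1 _

theorem sc_pow_eq_one {c : Fˣ} (h : sc (ZMod r) c ^ r = 1) : c ^ r = 1 := by
  rw [← map_pow, ← dg_const, ← map_one dg] at h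
  exact congrFun (dg_inj h) 0

theorem eq_R6 (h : orderOf ω = r) {R : Subgroup (GL (ZMod r) F)} (hx : xx F r ∈ R)
    (hd : dp r ω 1 ∈ R) (hc : ∀ x ∈ R, ∀ y ∈ R, ⁅x, y⁆ ∈ scalars (ZMod r) F)
    (he : ∀ x ∈ R, x ^ r = 1) : R = R6 r ω := by
  refine le_antisymm (fun g hg => ?_) ((Subgroup.closure_le _).2 (by
    rintro _ (rfl | rfl) <;> assumption))
  have k : ∀ x ∈ R, ∀ y ∈ R, ∃ s : ZMod r, x * y * x⁻¹ = sc _ (w ω s) * y := fun x a y b => by
    obtain ⟨c, e⟩ := mem_scalars_iff'.1 (hc x a y b)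
    obtain ⟨s, rfl⟩ := exists_w h (c := c) (sc_pow_eq_one (e ▸ he ⁅x, y⁆
      (mul_mem (mul_mem (mul_mem a b) (inv_mem a)) (inv_mem b))))
    exact ⟨s, by rw [← e, commutatorElement_def, inv_mul_cancel_right]⟩
  obtain ⟨s, hs⟩ := k g hg _ hd
  obtain ⟨v, hv⟩ : ∃ v, g * xx F r ^ s.val = dg v := exists_dg fun i j hij =>
    eq_zero_of_comm_dg (v := fun i => w ω (i ^ 1)) (by
      change Commute _ (dp r ω 1)
      rw [commute_iff_eq, ← mul_inv_eq_iff_eq_mul]
      calc _ = g * (xx F r ^ s.val * dp r ω 1 * (xx F r ^ s.val)⁻¹) * g⁻¹ := by group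
        _ = sc _ (ω⁻¹ ^ s.val) * (g * dp r ω 1 * g⁻¹) := by
          rw [conj_pow_sc (xx_conj_dp h), ← mul_assoc, ← sc_comm]; group
        _ = _ := by rw [hs, ← mul_assoc, ← map_mul]; simp [w])
      (by simpa [w_inj h] using hij)
  have h1 : dg v ∈ R := hv ▸ mul_mem hg (pow_mem hx _)
  obtain ⟨t, ht⟩ := k _ h1 _ hx
  have h2 : ∀ i, v (i + 1) = w ω t * v i := fun i => Units.ext (by
    have := congrArg (fun g : GL (ZMod r) F => g.val (i + 1) i) ht
    simp only [dg_conj_apply, Units.val_mul, coe_sc, xx, pm_apply, smul_mul_assoc, one_mul,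
      Matrix.smul_apply, af_apply, Units.val_one, if_true, mul_one, smul_eq_mul] at this
    rw [Units.val_mul, ← this, inv_mul_cancel_right₀ (v i).ne_zero])
  have h3 : ∀ n : ℕ, v n = v 0 * w ω (t * (n : ZMod r)) := fun n => by
    induction n with
    | zero => simp
    | succ n ih => rw [Nat.cast_succ, h2, ih, mul_add, w_add h, mul_one]; simp [mul_comm, mul_left_comm]
  have h4 : dg v = sc _ (v 0) * dp r ω 1 ^ t.val := by
    rw [dp_pow h, ← dg_const, ← map_mul]
    exact congrArg dg (funext fun i => by simpa using h3 i.val)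
  have h5 : sc _ (v 0) ∈ R6 r ω := sc_mem_R6 h (sc_pow_eq_one (he _ (by
    simpa [h4] using mul_mem h1 (inv_mem (pow_mem hd t.val)))))
  have := mul_mem (mul_mem h5 (pow_mem dp_mem_R6 t.val)) (inv_mem (pow_mem xx_mem_R6 s.val))
  rwa [← h4, ← hv, mul_inv_cancel_right] at this

theorem exists_std (h : orderOf ω = r) {a b : GL (ZMod r) F} (ha : a ^ r = 1) (hb : b ^ r = 1)
    (hab : b * a * b⁻¹ = sc _ ω⁻¹ * a) :
    ∃ B : GL (ZMod r) F, B * dp r ω 1 * B⁻¹ = a ∧ B * xx F r * B⁻¹ = b := by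
  have p1 : ∀ {g : GL (ZMod r) F}, g ^ r = 1 → ∀ i : ZMod r, g ^ (i + 1).val = g * g ^ i.val :=
    fun {g} hg i => by
      rw [← pow_succ', pow_eq_pow_iff_modEq]
      refine .of_dvd (orderOf_dvd_of_pow_eq_one hg) ((ZMod.natCast_eq_natCast_iff _ _ _).1 ?_)
      simp
  obtain ⟨j, v, v0, hv⟩ : ∃ (j : ZMod r) (v : ZMod r → F), v ≠ 0 ∧ a.val *ᵥ v = (w ω j : F) • v := by
    let E : ZMod r → ZMod r → F := fun j => ∑ i : ZMod r,
      (w ω (-i * j) : F) • (a ^ i.val).val *ᵥ Pi.single 0 1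
    obtain ⟨j, hj⟩ : ∃ j, E j ≠ 0 := by
      by_contra! c
      have e : ∑ j, E j = (r : F) • (Pi.single 0 1 : ZMod r → F) := by
        rw [Finset.sum_comm, Finset.sum_eq_single 0]
        · simp [Nat.cast_smul_eq_nsmul, -mulVec_single]
        · exact fun i _ hi => by rw [← Finset.sum_smul, sum_w h (neg_ne_zero.2 hi), zero_smul]
        · simp
      exact cast_ne_zero h (by simpa [c] using (congrFun e 0).symm)
    refine ⟨j, E j, hj, ?_⟩
    simp only [E]
    conv_rhs => rw [← Equiv.sum_comp (Equiv.addRight (1 : ZMod r))]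
    simp only [mulVec_sum, Finset.smul_sum, mulVec_smul, Equiv.coe_addRight, p1 ha, Units.val_mul,
      mulVec_mulVec, smul_smul, ← Units.val_mul (w ω j), ← w_add h]
    exact Finset.sum_congr rfl fun i _ => by congr 3; ring
  let c : ZMod r → ZMod r → F := fun i => (b ^ (i - j).val).val *ᵥ v
  have c1 : ∀ i, a.val *ᵥ c i = (w ω i : F) • c i := fun i => by
    have e := mul_inv_eq_iff_eq_mul.1 (conj_pow_sc hab (i - j).val)
    have e' : a * b ^ (i - j).val = sc _ (w ω (i - j)) * (b ^ (i - j).val * a) := by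
      rw [e, ← mul_assoc, ← mul_assoc, ← map_mul]; simp [w]
    simp only [c]
    rw [mulVec_mulVec, ← Units.val_mul, e', Units.val_mul, Units.val_mul, ← mulVec_mulVec,
      ← mulVec_mulVec, sc_mulVec, hv, mulVec_smul, smul_smul, ← Units.val_mul, ← w_add h,
      sub_add_cancel]
  have c2 : ∀ i, b.val *ᵥ c i = c (i + 1) := fun i => by
    simp only [c]
    rw [add_sub_right_comm, p1 hb, Units.val_mul, mulVec_mulVec]
  have c3 : IsUnit (of c)ᵀ := linearIndependent_cols_iff_isUnit.1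
    (Module.End.eigenvectors_linearIndependent' (toLin' a.val) (fun i => (w ω i : F))
      (fun i k e => (w_inj h).1 (Units.ext e)) c fun i =>
        ⟨Module.End.mem_eigenspace_iff.2 (c1 i), mt gl_mulVec_eq_zero v0⟩)
  refine ⟨c3.unit, ?_, ?_⟩ <;> rw [mul_inv_eq_iff_eq_mul] <;> refine Units.ext ?_ <;> ext k i
  · have := congrFun (c1 i) k
    simp only [Units.val_mul, dp, dg_val, mul_diagonal, IsUnit.unit_spec, pow_one]
    rw [mul_comm]; exact this.symm
  · have := congrFun (c2 i) k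
    simp only [Units.val_mul, xx, mul_pm_apply, IsUnit.unit_spec, af_apply, Units.val_one, one_mul]
    exact this.symm

theorem jobMOD : JobMOD.{u} := by
  intro F _ _ r _ ω h2 h R hR hM
  have hp := Fact.mk hR.symplecticType.prime
  obtain ⟨p, e, -, -, h1 | h1 | h1⟩ := hR.field
  rotate_left
  · exact absurd h1.1 h2
  · exact absurd h1.1 h2
  obtain ⟨a1, a2, -, -⟩ := sympType_struct hR.symplecticType hR.absIrred (Or.inl ⟨h1.1, h1.2.2.1⟩)
  have a3 : ∀ x ∈ R, x ^ r = 1 := fun x hx => by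
    have := Monoid.pow_exponent_eq_one (⟨x, hx⟩ : R)
    rw [hR.symplecticType.exponent_eq, (Nat.coprime_two_left.2 h1.1).gcd_eq_one, mul_one] at this
    exact congrArg Subtype.val this
  obtain ⟨b, hb, a, ha, hab⟩ : ∃ b ∈ R, ∃ a ∈ R, b * a ≠ a * b := by
    by_contra! c
    have h3 := alg_eq_bot_iff.2 fun b hb => (a1.exists_smul_one (b := b.val) fun a ha => by
      rw [← Units.val_mul, c b hb a ha, Units.val_mul]).elim fun _ => mem_scalars_of_eq_smul
    rw [spans_iff.1 a1] at h3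
    obtain ⟨c, hc⟩ := mem_bot_iff_smul.1 (h3 ▸ Algebra.mem_top : (xx F r).val ∈ _)
    simpa [xx, pm_apply] using congrFun (congrFun hc 1) 0
  obtain ⟨c, hc⟩ := mem_scalars_iff'.1 (a2 b hb a ha)
  obtain ⟨k, rfl⟩ := exists_w h (c := c) (sc_pow_eq_one (hc ▸ a3 ⁅b, a⁆
    (mul_mem (mul_mem (mul_mem hb ha) (inv_mem hb)) (inv_mem ha))))
  have k0 : k ≠ 0 := by
    rintro rfl
    exact hab (commutatorElement_eq_one_iff_mul_comm.1 (by simpa using hc))
  have h3 := conj_pow_sc (a := a) (b := b) (c := w ω k)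
    (by rw [← hc, commutatorElement_def, inv_mul_cancel_right]) (-k⁻¹).val
  rw [w_pow h, ZMod.natCast_zmod_val, neg_mul, inv_mul_cancel₀ k0, w_neg h, w_one h] at h3
  obtain ⟨B, b1, b2⟩ := exists_std h (a3 a ha) (a3 _ (pow_mem hb _)) h3
  have h4 : R.comap (MulAut.conj B).toMonoidHom = R6 r ω := eq_R6 h
    (show B * _ * B⁻¹ ∈ R from b2 ▸ pow_mem hb _) (show B * _ * B⁻¹ ∈ R from b1 ▸ ha)
    (fun x hx y hy => by
      have h5 := a2 _ hx _ hy
      rw [← map_commutatorElement] at h5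
      have h6 : B * ⁅x, y⁆ * B⁻¹ * B = B * (B * ⁅x, y⁆ * B⁻¹) := comm_of_mem_scalars h5 B
      rw [inv_mul_cancel_right, mul_right_inj] at h6
      exact h6 ▸ h5)
    fun x hx => (MulAut.conj B).injective (by rw [map_pow, map_one]; exact a3 _ hx)
  have h5 := isMaximalIn_comap (MulAut.conj B).symm hM
  have h6 : (specialLinear (ZMod r) F).comap (MulAut.conj B).symm.toMonoidHom =
      specialLinear (ZMod r) F := by
    ext g
    simp [specialLinear, mul_right_comm]
  rwa [Subgroup.comap_inf, h6, subgroupNormalizer, Subgroup.comap_normalizer_eq_of_surjective _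
    (MulAut.conj B).symm.surjective, ← h4, Subgroup.comap_comap, show
      (MulAut.conj B).toMonoidHom.comp (MulAut.conj B).symm.toMonoidHom = MonoidHom.id _ from
        MonoidHom.ext fun g => (MulAut.conj B).apply_symm_apply g, Subgroup.comap_id] at h5

end H13.C6
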