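import Cfsg.Agent.H13.C6Mod
import Cfsg.Agent.H60.Full

/-! Tower C6P, job WR: from the dichotomy for overgroups to maximality. -/

set_option autoImplicit false
set_option linter.unusedSectionVars false

namespace H13.C6

open Matrix hiding mul_inv_rev
open Cfsg.Geo H25 Equiv H53.C6

universe u

variable {F : Type u} [Field F] {r : ℕ} [NeZero r] {ω : Fˣ}

theorem mem_N6 [Finite F] {g : GL (ZMod r) F} (h1 : g * xx F r * g⁻¹ ∈ R6 r ω)
    (h2 : g * dp r ω 1 * g⁻¹ ∈ R6 r ω) : g ∈ subgroupNormalizer (R6 r ω) :=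
  Subgroup.mem_normalizer_fintype fun n hn => (Subgroup.closure_le
    ((R6 r ω).comap (MulAut.conj g).toMonoidHom)).2 (by rintro _ (rfl | rfl) <;> assumption) hn

theorem sc_mem_N6 [Finite F] (c : Fˣ) : sc _ c ∈ subgroupNormalizer (R6 r ω) :=
  mem_N6 (by rw [sc_comm, mul_inv_cancel_right]; exact xx_mem_R6)
    (by rw [sc_comm, mul_inv_cancel_right]; exact dp_mem_R6)

theorem sc_w_mem (h : orderOf ω = r) (i : ZMod r) : sc _ (w ω i) ∈ R6 r ω :=
  sc_mem_R6 h (by simp [w_pow h])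

theorem pm_mem_N6 [Finite F] (h : orderOf ω = r) (a : (ZMod r)ˣ) (b : ZMod r) :
    pm (af a b) ∈ subgroupNormalizer (R6 r ω) := by
  refine mem_N6 ?_ ?_
  · convert pow_mem (xx_mem_R6 (r := r) (ω := ω)) (a : ZMod r).val using 1
    rw [xx_pow, xx, mul_inv_eq_iff_eq_mul, ← map_mul, ← map_mul, af_mul, af_mul]
    simp [add_comm]
  · convert mul_mem (sc_w_mem h (-((a⁻¹ : (ZMod r)ˣ) * b)))
      (pow_mem dp_mem_R6 ((a⁻¹ : (ZMod r)ˣ) : ZMod r).val) using 1
    rw [dp_pow h, dp, pm_conj_dg, ← dg_const, ← map_mul]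
    refine congrArg dg (funext fun i => ?_)
    rw [Pi.mul_apply, ← w_add h, af_inv_apply, ZMod.natCast_zmod_val]
    congr 1; ring

theorem p_mem_N6 [Finite F] (h : orderOf ω = r) : dp r ω 2 ∈ subgroupNormalizer (R6 r ω) := by
  refine mem_N6 ?_ ?_
  · convert mul_mem (mul_mem (sc_w_mem h (-1)) (pow_mem dp_mem_R6 2)) xx_mem_R6 using 1
    rw [dp_pow h, ← dg_const, ← map_mul, xx, dp]
    refine Units.ext ?_
    ext i j
    rw [dg_conj_apply, dg_pm_apply, pm_apply]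
    split_ifs with c
    · rw [mul_one, ← Units.val_inv_eq_inv_val, ← Units.val_mul, ← w_sub h, Pi.mul_apply, ← w_add h, c]
      congr 2; simp; ring
    · simp
  · rw [dp, dp, ← map_mul, mul_comm, map_mul, mul_inv_cancel_right]; exact dp_mem_R6

theorem ph_mem_N6 [Finite F] (h : orderOf ω = r) : Ph r ω ∈ subgroupNormalizer (R6 r ω) :=
  mem_N6 (by rw [Ph_xx h, mul_inv_cancel_right]; exact dp_mem_R6)
    (by rw [Ph_dp h, mul_inv_cancel_right]; exact inv_mem xx_mem_R6)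

theorem det_dp (h : orderOf ω = r) {k : ℕ} (hk : ∑ i : ZMod r, i ^ k = 0) :
    GeneralLinearGroup.det (dp r ω k) = 1 := by
  have : ∀ s : Finset (ZMod r), ∏ i ∈ s, w ω (i ^ k) = w ω (∑ i ∈ s, i ^ k) := fun s => by
    induction s using Finset.induction_on with
    | empty => simp
    | insert a s ha ih => rw [Finset.prod_insert ha, Finset.sum_insert ha, ih, w_add h]
  refine Units.ext ?_
  rw [GeneralLinearGroup.val_det_apply, dp, det_dg, ← Units.coe_prod, this, hk, w_zero]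

theorem sum_pow5 : ∑ i : ZMod 5, i ^ 1 = 0 ∧ ∑ i : ZMod 5, i ^ 2 = 0 := by decide

theorem sum_pow7 : ∑ i : ZMod 7, i ^ 1 = 0 ∧ ∑ i : ZMod 7, i ^ 2 = 0 := by decide

theorem sum_pow12 (h : r = 5 ∨ r = 7) : ∑ i : ZMod r, i ^ 1 = 0 ∧ ∑ i : ZMod r, i ^ 2 = 0 := by
  rcases h with rfl | rfl
  exacts [sum_pow5, sum_pow7]

theorem det_sc (c : Fˣ) : GeneralLinearGroup.det (sc (ZMod r) c) = c ^ r :=
  Units.ext (by simp [coe_sc])

theorem det_pm_sq (σ : Perm (ZMod r)) : GeneralLinearGroup.det (pm σ : GL _ F) ^ 2 = 1 :=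
  Units.ext (by
    rw [Units.val_pow_eq_pow_val, GeneralLinearGroup.val_det_apply, det_pm, ← Int.cast_pow,
      ← Units.val_pow_eq_pow_val, Int.units_sq]; simp)

theorem mono_of_mem {g : GL (ZMod r) F} (hg : g ∈ R6 r ω) : ∃ v σ, g = dg v * pm σ := by
  induction hg using Subgroup.closure_induction with
  | mem x hx =>
    rcases hx with rfl | rfl
    · exact ⟨1, _, by rw [map_one, one_mul, xx]⟩
    · exact ⟨_, 1, by rw [map_one pm, mul_one, dp]⟩
  | one => exact ⟨1, 1, by simp⟩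
  | mul x y _ _ a b =>
    obtain ⟨v, σ, rfl⟩ := a
    obtain ⟨v', σ', rfl⟩ := b
    exact ⟨_, σ * σ', by
      rw [mul_assoc, ← mul_assoc (pm σ), pm_mul_dg, mul_assoc, ← map_mul, ← mul_assoc, ← map_mul]⟩
  | inv x _ a =>
    obtain ⟨v, σ, rfl⟩ := a
    exact ⟨_, σ⁻¹, by rw [mul_inv_rev, ← map_inv, ← map_inv, pm_mul_dg]⟩

theorem jobWR : JobWR.{u} := by
  intro F _ _ r _ ω hf H
  have := Fact.mk hf.prime
  have h := hf.ord
  refine H60.isMaximalIn_of ⟨(SpecialLinearGroup.transvection (zero_ne_one' (ZMod r)) 1).toGL,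
    Units.ext (by simp), fun c => ?_⟩ fun M m1 m2 g hg hg' => ?_
  · obtain ⟨v, σ, e⟩ := mono_of_mem ((Subgroup.mem_normalizer_iff.1 c _).1 dp_mem_R6)
    rw [mul_inv_eq_iff_eq_mul, mul_assoc] at e
    have e0 := congrArg (fun g : GL (ZMod r) F => g.val 0 0) e
    have e1 := congrArg (fun g : GL (ZMod r) F => g.val 0 1) e
    simp only [Units.val_mul, dp, dg_val, mul_diagonal, diagonal_mul, pm_mul_apply,
      SpecialLinearGroup.coe_GL_coe_matrix, SpecialLinearGroup.transvection_coe] at e0 e1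
    by_cases c : σ⁻¹ 0 = 0
    · simp [c, w_one h] at e0 e1
      exact one_ne_zero ((w_eq_one_iff h).1 ((w_one h).trans (Units.ext (e1.trans e0.symm))))
    · simp only [Matrix.add_apply, one_apply_ne c] at e0
      simp at e0
  have k : ∀ g ∈ subgroupNormalizer (R6 r ω), ∀ c : Fˣ, GeneralLinearGroup.det g ^ 2 = c ^ r →
      g ∈ M ⊔ scalars (ZMod r) F := fun g a c e => by
    obtain ⟨m, hm⟩ : ∃ m, r + 1 = 2 * m := by rcases hf.hr with rfl | rfl <;> [use 3; use 4]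
    have h1 : sc _ (GeneralLinearGroup.det g * (c ^ m)⁻¹) * g ∈ M := m1 ⟨mul_mem (sc_mem_N6 _) a, by
      change GeneralLinearGroup.det _ = 1
      rw [map_mul, det_sc, mul_pow, mul_right_comm, ← pow_succ, hm, pow_mul, e, inv_pow,
        ← pow_mul, ← pow_mul, mul_comm r, mul_inv_cancel]⟩
    exact (mul_mem_cancel_left (Subgroup.mem_sup_right (sc_mem _))).1 (Subgroup.mem_sup_left h1)
  have hb : Base ω (M ⊔ scalars (ZMod r) F) := by
    refine ⟨fun c => Subgroup.mem_sup_right (sc_mem c), fun a b => k _ (pm_mem_N6 h a b) 1 ?_,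
      k _ (Subgroup.le_normalizer dp_mem_R6) 1 ?_, k _ (p_mem_N6 h) 1 ?_,
      k _ (ph_mem_N6 h) (Units.mk0 _ (cast_ne_zero h) * GeneralLinearGroup.det (tt F r)) ?_⟩
    · rw [det_pm_sq, one_pow]
    · rw [det_dp h (sum_pow12 hf.hr).1, one_pow, one_pow]
    · rw [det_dp h (sum_pow12 hf.hr).2, one_pow, one_pow]
    · obtain ⟨m, hm⟩ : ∃ m, r = 2 * m + 1 := by rcases hf.hr with rfl | rfl <;> [use 2; use 3]
      rw [sq, ← map_mul, Ph_sq h, map_mul, det_sc, mul_pow, mul_right_inj]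
      conv_rhs => enter [2]; rw [hm]
      rw [pow_succ, pow_mul, tt, hh, det_pm_sq, one_pow, one_mul]
  rcases H _ hb with c | c
  · exact absurd (c (Subgroup.mem_sup_left hg)) hg'
  intro s hs
  have : (scalars (ZMod r) F).Normal := ⟨fun n hn g => by
    rwa [← comm_of_mem_scalars hn, mul_inv_cancel_right]⟩
  obtain ⟨m, a, z, b, rfl⟩ := Subgroup.mem_sup_of_normal_right.1 (c hs)
  obtain ⟨μ, rfl⟩ := mem_scalars_iff'.1 b
  exact mul_mem a (m1 ⟨sc_mem_N6 μ, (mul_mem_cancel_left (m2 a)).1 hs⟩)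

end H13.C6
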