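/- S4202 tower KP: the refined count for an open cycle pattern when blocks are points. -/
import Cfsg.Agent.H2.KpSpec

set_option autoImplicit false
set_option linter.unusedSectionVars false

namespace H13.KPO

open Equiv H2.Ln H2.Kp

theorem fix_of_one {Γ α β : Type} [Group Γ] [Fintype α] [Fintype β] [DecidableEq β]
    (S : Sys Γ α β 1) {y : Γ} {p : α} (h : S.φ y (S.π p) = S.π p) : S.ρ y p = p := by
  refine Finset.card_le_one.1 (S.fib (S.π p)).le _ ?_ _ ?_ <;>
    simp only [Finset.mem_filter, Finset.mem_univ, true_and]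
  rw [S.eqv, h]

theorem jobPO1 (hPA : PA2) : PO1 := by
  intro Γ α β _ _ _ _ _ w S t m a σ hw ht ha hσ hm
  subst hw
  set T := (Finset.range t).image a with hT
  have hmem : ∀ i < t, a i ∈ T := fun i hi => Finset.mem_image_of_mem a (Finset.mem_range.2 hi)
  have hTc : T.card = t := by
    rw [hT, Finset.card_image_of_injOn (by simpa using ha), Finset.card_range]
  have hH : ∀ y, (∀ i < t, S.φ y (a i) = a i) → y ∈ S.fb ⊤ T := fun y hy =>
    Sys.mem_fb.2 ⟨Subgroup.mem_top y, fun p hp => fix_of_one S (by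
      obtain ⟨i, hi, e⟩ := Finset.mem_image.1 hp
      rw [← e]
      exact hy i (Finset.mem_range.1 hi))⟩
  have hc : (Tᶜ).card = Fintype.card β - t := by rw [Finset.card_compl, hTc]
  rw [← hc]
  refine hPA Γ β (S.fb ⊤ T) _ Tᶜ (fun d => {x | ((∀ i, i + 1 < t → S.φ x (a i) = a (σ i)) ∧
    ∀ i < t, S.φ x (a (t - 1)) ≠ a i) ∧ S.φ x (a (t - 1)) = d}) _ ?_ ?_ ?_ ?_
  · rintro x ⟨h1, h2⟩ h hh
    have h3 : ∀ i < t, S.φ h (a i) = a i := fun i hi => Sys.fb_fix hh (hmem i hi)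
    have h4 : ∀ i < t, S.φ h⁻¹ (a i) = a i := fun i hi => Sys.fb_fix (inv_mem hh) (hmem i hi)
    refine ⟨fun i hi => ?_, fun i hi e => h2 i hi ?_⟩
    · rw [map_mul, map_mul, Perm.mul_apply, Perm.mul_apply, h4 i (by omega), h1 i hi,
        h3 _ (hσ i (by omega))]
    · rw [map_mul, map_mul, Perm.mul_apply, Perm.mul_apply, h4 _ (by omega), ← h3 i hi] at e
      exact (S.φ h).injective e
  · intro x hx
    refine ⟨_, Finset.mem_compl.2 fun h => ?_, hx, rfl⟩
    obtain ⟨i, hi, e⟩ := Finset.mem_image.1 h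
    exact hx.2 i (Finset.mem_range.1 hi) e.symm
  · rintro d - x ⟨⟨h1, -⟩, h2⟩ x' ⟨⟨h3, -⟩, h4⟩
    refine hH _ fun i hi => ?_
    rw [map_mul, map_inv, Perm.mul_apply, Perm.inv_eq_iff_eq]
    by_cases h : i + 1 < t
    · rw [h1 i h, h3 i h]
    · obtain rfl : i = t - 1 := by omega
      rw [h2, h4]
  · intro y hy hy1
    have h3 : ∀ b ∈ T, S.φ y b = b := fun b hb => Sys.fb_fix hy hb
    have h4 : S.φ y ≠ 1 := fun e => hy1 (S.inj (by
      rw [map_one]
      exact Equiv.ext fun p => fix_of_one S (by rw [e]; rfl)))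
    have h5 := hm (S.φ y) (mem_fx.2 ⟨⟨y, Subgroup.mem_top y, rfl⟩, h3⟩) h4
    have h6 : (S.φ y).support ⊆ Tᶜ := fun b hb =>
      Finset.mem_compl.2 fun h => Perm.mem_support.1 hb (h3 b h)
    refine ⟨Tᶜ \ (S.φ y).support, by rw [Finset.card_sdiff_of_subset h6]; omega, ?_⟩
    rintro d hd x ⟨-, rfl⟩ e
    refine Finset.mem_sdiff.2 ⟨hd, Perm.notMem_support.2 ?_⟩
    rw [← Perm.mul_apply, ← map_mul, ← e, map_mul, Perm.mul_apply, h3 _ (hmem _ (by omega))]

end H13.KPO
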