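import Cfsg.Agent.H24.KbSpec

/-! KB tower (blueprints/KB.md), job G9: integer matrices. -/

set_option autoImplicit false

namespace H13.KB

open Finset

universe u

theorem cnt4 {X : Type*} [DecidableEq X] (g : Fin 4 → X) (h : ∃ r r', g r ≠ g r') :
    6 ≤ ∑ r, ∑ r', (if g r = g r' then 0 else 1 : ℤ) := by
  have h' : ¬ (g 0 = g 1 ∧ g 0 = g 2 ∧ g 0 = g 3) := by
    rintro ⟨a, b, c⟩
    obtain ⟨r, r', h⟩ := h
    have : ∀ r, g r = g 0 := fun r => by fin_cases r <;> simp [← a, ← b, ← c]
    exact h (by rw [this r, this r'])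
  simp only [Fin.sum_univ_four]
  generalize g 0 = a, g 1 = b, g 2 = c, g 3 = d at h' ⊢
  by_cases h1 : a = b <;> by_cases h2 : a = c <;> by_cases h3 : a = d <;> by_cases h4 : b = c <;>
    by_cases h5 : b = d <;> by_cases h6 : c = d <;> simp_all [eq_comm]

theorem six_mul {X : Type*} (g : Fin 4 → X) (f : Fin 4 → Fin 4 → ℤ) (c : ℤ) (hc : 0 ≤ c)
    (h0 : ∀ r r', 0 ≤ f r r') (h1 : ∀ r r', g r ≠ g r' → c ≤ f r r') (h : ∃ r r', g r ≠ g r') :
    6 * c ≤ ∑ r, ∑ r', f r r' := by
  classical
  calc 6 * c ≤ (∑ r, ∑ r', (if g r = g r' then 0 else 1 : ℤ)) * c :=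
        mul_le_mul_of_nonneg_right (cnt4 g h) hc
    _ ≤ ∑ r, ∑ r', f r r' := by
      rw [sum_mul]
      refine sum_le_sum fun r _ => ?_
      rw [sum_mul]
      refine sum_le_sum fun r' _ => ?_
      split_ifs with e
      · simpa using h0 r r'
      · simpa using h1 r r' e

theorem num (z : Fin 4 → Fin 4 → ℤ) (n : ℤ)
    (hn : n = 16 * ∑ r, ∑ c, z r c ^ 2 - 4 * ∑ r, (∑ c, z r c) ^ 2 - 4 * ∑ c, (∑ r, z r c) ^ 2 +
      (∑ r, ∑ c, z r c) ^ 2) (h0 : n ≠ 0) : 9 ≤ n := by
  have e : 4 * n = ∑ r, ∑ r', ∑ c, ∑ c', ((z r c - z r' c) - (z r c' - z r' c')) ^ 2 := by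
    rw [hn]
    simp only [Fin.sum_univ_four]
    ring
  have := six_mul (fun r c => z r c - z r 0)
    (fun r r' => ∑ c, ∑ c', ((z r c - z r' c) - (z r c' - z r' c')) ^ 2) 6 (by norm_num)
    (fun r r' => by positivity) (fun r r' h => by
      have := six_mul (fun c => z r c - z r' c)
        (fun c c' => ((z r c - z r' c) - (z r c' - z r' c')) ^ 2) 1 (by norm_num)
        (fun c c' => by positivity) (fun c c' h => by
          have : 0 < ((z r c - z r' c) - (z r c' - z r' c')) ^ 2 := by
            have := sub_ne_zero.2 h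
            positivity
          omega) (by
          by_contra k
          push Not at k
          exact h (funext fun c => by have := k c 0; omega))
      simpa using this) (by
      by_contra k
      push Not at k
      apply h0
      have : 4 * n = 0 := by
        rw [e]
        refine sum_eq_zero fun r _ => sum_eq_zero fun r' _ => sum_eq_zero fun c _ =>
          sum_eq_zero fun c' _ => ?_
        have a := congrFun (k r r') c
        have b := congrFun (k r r') c'
        rw [show z r c - z r' c - (z r c' - z r' c') = 0 by omega]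
        simp
      omega)
  omega

variable {κ : Type*} [Fintype κ]

/-- Two equivalence relations with classes of size four meeting in single points. -/
theorem grid (a b : κ → κ → Prop) [DecidableRel a] [DecidableRel b] (hk : Fintype.card κ = 16)
    (ea : Equivalence a) (eb : Equivalence b) (ca : ∀ i, (univ.filter (a i)).card = 4)
    (cb : ∀ i, (univ.filter (b i)).card = 4) (m : ∀ i j, ∃! k, a i k ∧ b k j) :
    ∃ e : Fin 4 × Fin 4 ≃ κ, ∀ p q, (a (e p) (e q) ↔ p.1 = q.1) ∧ (b (e p) (e q) ↔ p.2 = q.2) := by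
  obtain ⟨o⟩ : Nonempty κ := Fintype.card_pos_iff.1 (by omega)
  choose μ hμ hu using m
  obtain ⟨e1⟩ : Nonempty (Fin 4 ≃ {r // b o r}) :=
    ⟨(Fintype.equivFinOfCardEq (by rw [Fintype.card_subtype, cb])).symm⟩
  obtain ⟨e2⟩ : Nonempty (Fin 4 ≃ {c // a o c}) :=
    ⟨(Fintype.equivFinOfCardEq (by rw [Fintype.card_subtype, ca])).symm⟩
  let f : Fin 4 × Fin 4 → κ := fun p => μ (e1 p.1) (e2 p.2)
  have fa : ∀ p q, a (f p) (f q) ↔ p.1 = q.1 := fun p q => ⟨fun h => by
    have h1 : a (e1 p.1) (e1 q.1) := ea.trans (hμ _ _).1 (ea.trans h (ea.symm (hμ _ _).1))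
    have := (hu (e1 p.1) o _ ⟨ea.refl _, eb.symm (e1 p.1).2⟩).trans
      (hu (e1 p.1) o _ ⟨h1, eb.symm (e1 q.1).2⟩).symm
    exact e1.injective (Subtype.ext this), fun h => by
    refine ea.trans (ea.symm (hμ _ _).1) ?_
    rw [h]
    exact (hμ _ _).1⟩
  have fb : ∀ p q, b (f p) (f q) ↔ p.2 = q.2 := fun p q => ⟨fun h => by
    have h1 : b (e2 p.2) (e2 q.2) := eb.trans (eb.symm (hμ _ _).2) (eb.trans h (hμ _ _).2)
    have := (hu o (e2 q.2) _ ⟨(e2 p.2).2, h1⟩).trans (hu o (e2 q.2) _ ⟨(e2 q.2).2, eb.refl _⟩).symm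
    exact e2.injective (Subtype.ext this), fun h => by
    refine eb.trans (hμ _ _).2 ?_
    rw [h]
    exact eb.symm (hμ _ _).2⟩
  have fi : Function.Injective f := fun p q h =>
    Prod.ext ((fa p q).1 (h ▸ ea.refl _)) ((fb p q).1 (h ▸ eb.refl _))
  exact ⟨Equiv.ofBijective f ((Fintype.bijective_iff_injective_and_card f).2 ⟨fi, by simp [hk]⟩),
    fun p q => ⟨fa p q, fb p q⟩⟩

theorem mul_sub_nonneg {x t : ℤ} (h : t ^ 2 = 1) : 0 ≤ x * (x - t) := by
  rcases sq_eq_one_iff.1 h with rfl | rfl
  · rcases le_or_gt x 0 with k | k <;> nlinarith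
  · rcases le_or_gt 0 x with k | k <;> nlinarith

/-- The case of sixteen characters. -/
theorem c16 (R : Bool → κ → κ → ℤ) (d : κ → ℤ) (sy : ∀ b i j, R b i j = R b j i)
    (id : ∀ b i j, ∑ k, R b i k * R b k j = 4 * R b i j)
    (mx : ∀ i j, ∑ k, R true i k * R false k j = d i * d j)
    (ev : ∀ b i, ∑ k, R b i k * d k = 4 * d i) (d1 : ∀ i, d i ^ 2 = 1) (r1 : ∀ b i, R b i i = 1)
    (hk : Fintype.card κ = 16) (y : κ → ℤ) (n : ℤ)
    (hn : n = 16 * ∑ i, y i ^ 2 - 4 * ∑ i, ∑ j, y i * R true i j * y j -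
      4 * ∑ i, ∑ j, y i * R false i j * y j + (∑ i, d i * y i) ^ 2) (h0 : n ≠ 0) : 9 ≤ n := by
  classical
  have dd : ∀ i j, (d i * d j) ^ 2 = 1 := fun i j => by rw [mul_pow, d1, d1, one_mul]
  have dn : ∀ i j, d i * d j ≠ 0 := fun i j e => by simpa [e] using dd i j
  have z : ∀ b i j, R b i j = 0 ∨ R b i j = d i * d j := fun b i j => by
    have h : ∑ k, R b i k * (R b i k - d i * d k) = 0 := by
      have : ∀ k, R b i k * (R b i k - d i * d k) = R b i k * R b k i - d i * (R b i k * d k) :=
        fun k => by rw [← sy b i k]; ring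
      simp only [this, sum_sub_distrib, ← mul_sum, id, ev, r1]
      linear_combination -4 * d1 i
    have := (sum_eq_zero_iff_of_nonneg fun k _ => mul_sub_nonneg (dd i k)).1 h j (mem_univ j)
    exact (mul_eq_zero.1 this).imp_right sub_eq_zero.1
  obtain ⟨a, ha⟩ : ∃ a : Bool → κ → κ → Prop, ∀ b i j, a b i j ↔ R b i j ≠ 0 :=
    ⟨_, fun _ _ _ => Iff.rfl⟩
  have val : ∀ b i j, R b i j = if a b i j then d i * d j else 0 := fun b i j => by
    split_ifs with e
    · exact (z b i j).resolve_left ((ha _ _ _).1 e)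
    · exact not_not.1 ((ha _ _ _).not.1 e)
  have cnt : ∀ b b' i j, ∑ k, R b i k * R b' k j =
      d i * d j * (univ.filter fun k => a b i k ∧ a b' k j).card := fun b b' i j => by
    rw [card_filter]
    push_cast
    rw [mul_sum]
    refine sum_congr rfl fun k _ => ?_
    rw [val b i k, val b' k j]
    by_cases e : a b i k <;> by_cases e' : a b' k j <;> simp only [e, e', ite_true, ite_false,
      and_self, and_false, false_and, mul_zero, zero_mul, mul_one]
    linear_combination d i * d j * d1 k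
  have eq : ∀ b, Equivalence (a b) := fun b => ⟨fun i => by simp [ha, r1], fun {i j} h => by
    simpa only [ha, sy b j i] using h, fun {i k j} h h' => (ha _ _ _).2 fun e => by
    have := cnt b b i j
    rw [id, e, mul_zero] at this
    have := (mul_eq_zero.1 this.symm).resolve_left (dn i j)
    rw [Nat.cast_eq_zero, card_eq_zero, filter_eq_empty_iff] at this
    exact this (mem_univ k) ⟨h, h'⟩⟩
  have c4 : ∀ b i, (univ.filter (a b i)).card = 4 := fun b i => by
    have := cnt b b i i
    rw [id, r1, ← sq, d1, one_mul, filter_congr (q := a b i) fun k _ =>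
      ⟨fun h => h.1, fun h => ⟨h, (eq b).symm h⟩⟩] at this
    exact_mod_cast this.symm
  have un : ∀ i j, ∃! k, a true i k ∧ a false k j := fun i j => by
    have := cnt true false i j
    rw [mx] at this
    have h1 : (univ.filter fun k => a true i k ∧ a false k j).card = 1 := by
      have := mul_left_cancel₀ (dn i j) ((mul_one _).trans this)
      exact_mod_cast this.symm
    obtain ⟨k, hk⟩ := card_eq_one.1 h1
    have m : ∀ l, a true i l ∧ a false l j ↔ l = k := fun l => by
      rw [← mem_singleton, ← hk, mem_filter]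
      simp
    exact ⟨k, (m k).2 rfl, fun l => (m l).1⟩
  obtain ⟨e, he⟩ := grid (a true) (a false) hk (eq _) (eq _) (c4 _) (c4 _) un
  refine num (fun r c => d (e (r, c)) * y (e (r, c))) n ?_ h0
  have q : ∀ b, ∑ i, ∑ j, y i * R b i j * y j = ∑ p, ∑ q, if a b (e p) (e q) then
      d (e p) * y (e p) * (d (e q) * y (e q)) else 0 := fun b => by
    rw [← e.sum_comp]
    refine sum_congr rfl fun p _ => ?_
    rw [← e.sum_comp]
    refine sum_congr rfl fun q _ => ?_
    rw [val]
    split_ifs <;> ring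
  rw [hn, q, q, ← e.sum_comp fun i => y i ^ 2, ← e.sum_comp fun i => d i * y i]
  simp only [(he _ _).1, (he _ _).2, Fintype.sum_prod_type, mul_pow, d1, one_mul]
  simp only [Fin.sum_univ_four, Fin.reduceEq, ite_true, ite_false]
  ring

/-- The case of thirteen characters: the exceptional row is diagonal. -/
theorem c13 [DecidableEq κ] (R : κ → κ → ℤ) (d : κ → ℤ) (sy : ∀ i j, R i j = R j i)
    (id : ∀ i, ∑ k, R i k * R k i = 4 * R i i) (ev : ∀ i, ∑ k, R i k * d k = 4 * d i)
    (tr : ∑ i, R i i = 16) (lt : ∀ i, d i ^ 2 < 4 * R i i) (p : κ) (dp : d p ^ 2 = 4)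
    (d1 : ∀ i, i ≠ p → d i ^ 2 = 1) (hk : Fintype.card κ = 13) : ∀ j, j ≠ p → R p j = 0 := by
  have sq : ∀ i, ∑ k ∈ univ.erase i, R i k ^ 2 = R i i * (4 - R i i) := fun i => by
    have := id i
    simp only [fun k => sy k i, ← pow_two] at this
    rw [← add_sum_erase _ _ (mem_univ i)] at this
    linear_combination this
  have le : ∀ i j, j ≠ i → R i j ^ 2 ≤ R i i * (4 - R i i) := fun i j h => by
    rw [← sq]
    exact single_le_sum (f := fun k => R i k ^ 2) (fun _ _ => sq_nonneg _)
      (mem_erase.2 ⟨h, mem_univ j⟩)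
  have r1 : ∀ i, 1 ≤ R i i := fun i => by
    have := lt i
    have := sq_nonneg (d i)
    omega
  have rp : 2 ≤ R p p := by
    have := lt p
    omega
  have z : ∀ i, i ≠ p → R i i = 1 → R p i = 0 := fun i hi h => by
    have e : ∑ k, R i k * (R i k - d i * d k) = 0 := by
      have : ∀ k, R i k * (R i k - d i * d k) = R i k * R k i - d i * (R i k * d k) :=
        fun k => by rw [← sy i k]; ring
      simp only [this, sum_sub_distrib, ← mul_sum, id, ev, h]
      linear_combination -4 * d1 i hi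
    rw [← add_sum_erase _ _ (mem_univ p)] at e
    have ev : Even (∑ k ∈ univ.erase p, R i k * (R i k - d i * d k)) := by
      refine even_sum _ fun k hk => ?_
      have : (d i * d k) ^ 2 = 1 := by rw [mul_pow, d1 i hi, d1 k (ne_of_mem_erase hk), one_mul]
      rcases sq_eq_one_iff.1 this with e | e <;> rw [e]
      · exact Int.even_mul_pred_self _
      · rw [sub_neg_eq_add]
        exact Int.even_mul_succ_self _
    have h3 := le i p hi.symm
    rw [h] at h3
    rw [sy]
    have dp' : d p = 2 ∨ d p = -2 := sq_eq_sq_iff_eq_or_eq_neg.1 (by rw [dp]; norm_num)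
    obtain ⟨t, ht⟩ := ev
    rw [ht] at e
    have a : R i p ≤ 1 := by nlinarith
    have b : -1 ≤ R i p := by nlinarith
    rcases dp' with c | c <;> rw [c] at e <;> interval_cases R i p <;> omega
  have key : (∀ j, j ≠ p → R p j ^ 2 ≤ 1) → R p p * (4 - R p p) ≤ 4 - R p p := fun h => by
    have : ∑ k ∈ univ.erase p, (R k k - 1) = 4 - R p p := by
      rw [sum_sub_distrib, sum_const, card_erase_of_mem (mem_univ p), card_univ, hk]
      rw [← add_sum_erase _ _ (mem_univ p)] at tr
      simp only [Nat.reduceSub, nsmul_eq_mul, Nat.cast_ofNat, mul_one]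
      omega
    rw [← sq]
    refine le_trans (sum_le_sum fun k hk => ?_) this.le
    have := r1 k
    by_cases e : R k k = 1
    · rw [z k (ne_of_mem_erase hk) e, e]
      simp
    · have := h k (ne_of_mem_erase hk)
      omega
  have r4 : R p p ≤ 4 := by
    have : 0 ≤ R p p * (4 - R p p) := by
      rw [← sq]
      positivity
    nlinarith
  intro j hj
  have : R p p = 2 ∨ R p p = 3 ∨ R p p = 4 := by omega
  rcases this with e | e | e
  · exfalso
    obtain ⟨t, ht, ht'⟩ : ∃ t, t ^ 2 = 1 ∧ d p = 2 * t := by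
      rcases sq_eq_sq_iff_eq_or_eq_neg.1 (show d p ^ 2 = 2 ^ 2 by rw [dp]; norm_num) with c | c
      · exact ⟨1, by norm_num, by rw [c]; norm_num⟩
      · exact ⟨-1, by norm_num, by rw [c]; norm_num⟩
    have tt : ∀ k ∈ univ.erase p, (t * d k) ^ 2 = 1 := fun k hk => by
      rw [mul_pow, ht, d1 k (ne_of_mem_erase hk), one_mul]
    have s0 : ∑ k ∈ univ.erase p, R p k * (R p k - t * d k) = 0 := by
      have : ∀ k, R p k * (R p k - t * d k) = R p k ^ 2 - t * (R p k * d k) := fun k => by ring
      have h := ev p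
      rw [← add_sum_erase _ _ (mem_univ p), e, ht'] at h
      simp only [this, sum_sub_distrib, ← mul_sum, sq, e]
      linear_combination -t * h - 4 * ht
    have := key fun k hk => by
      have hk' := mem_erase.2 ⟨hk, mem_univ k⟩
      rcases mul_eq_zero.1 ((sum_eq_zero_iff_of_nonneg fun k hk => mul_sub_nonneg (tt k hk)).1
        s0 k hk') with c | c
      · simp [c]
      · rw [sub_eq_zero.1 c, tt k hk']
    rw [e] at this
    omega
  · exfalso
    have := key fun k hk => by
      have := le p k hk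
      rw [e] at this
      have a : R p k ≤ 1 := by nlinarith
      have b : -1 ≤ R p k := by nlinarith
      nlinarith
    rw [e] at this
    omega
  · have := le p j hj
    rw [e] at this
    nlinarith

theorem core (R : Bool → κ → κ → ℤ) (d : κ → ℤ) (sy : ∀ b i j, R b i j = R b j i)
    (id : ∀ b i j, ∑ k, R b i k * R b k j = 4 * R b i j)
    (mx : ∀ i j, ∑ k, R true i k * R false k j = d i * d j)
    (ev : ∀ b i, ∑ k, R b i k * d k = 4 * d i) (tr : ∀ b, ∑ i, R b i i = 16)
    (lt : ∀ b i, d i ^ 2 < 4 * R b i i) (d0 : ∀ i, d i ≠ 0) (sd : ∑ i, d i ^ 2 = 16)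
    (hk : 10 < Fintype.card κ) : Fintype.card κ = 16 ∧ (∀ i, d i ^ 2 = 1) ∧ ∀ b i, R b i i = 1 := by
  classical
  have pos : ∀ i, 1 ≤ d i ^ 2 := fun i => by
    have := d0 i
    have : 0 < d i ^ 2 := by positivity
    omega
  have big : ∀ i, d i ^ 2 ≠ 1 → 4 ≤ d i ^ 2 := fun i h => by
    have := d0 i
    by_contra k
    have a : d i ≤ 1 := by nlinarith
    have b : -1 ≤ d i := by nlinarith
    interval_cases d i <;> simp_all
  have s1 : ∑ i, (d i ^ 2 - 1) = 16 - (Fintype.card κ : ℤ) := by
    rw [sum_sub_distrib, sd]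
    simp
  by_cases h : ∀ i, d i ^ 2 = 1
  · have k : Fintype.card κ = 16 := by
      simp only [h, sub_self, sum_const_zero] at s1
      omega
    refine ⟨k, h, fun b i => ?_⟩
    have r1 : ∀ i ∈ (univ : Finset κ), 0 ≤ R b i i - 1 := fun i _ => by
      have := lt b i
      rw [h] at this
      omega
    have : ∑ i, (R b i i - 1) = 0 := by
      rw [sum_sub_distrib, tr]
      simp [k]
    exact sub_eq_zero.1 ((sum_eq_zero_iff_of_nonneg r1).1 this i (mem_univ i))
  · exfalso
    push Not at h
    obtain ⟨p, hp⟩ := h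
    have nn : ∀ i, 0 ≤ d i ^ 2 - 1 := fun i => by have := pos i; omega
    rw [← add_sum_erase _ _ (mem_univ p)] at s1
    have d1 : ∀ i, i ≠ p → d i ^ 2 = 1 := fun i hi => by
      by_contra k
      have := single_le_sum (f := fun i => d i ^ 2 - 1) (fun i _ => nn i)
        (mem_erase.2 ⟨hi, mem_univ i⟩)
      have := big i k
      have := big p hp
      omega
    rw [sum_eq_zero fun i hi => by rw [d1 i (ne_of_mem_erase hi), sub_self]] at s1
    have dp : d p ^ 2 = 4 := by
      have := big p hp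
      have h6 : d p ^ 2 ≤ 6 := by omega
      have a : d p ≤ 2 := by nlinarith
      have b : -2 ≤ d p := by nlinarith
      interval_cases d p <;> simp_all
    have k : Fintype.card κ = 13 := by omega
    have z := fun b => c13 (R b) d (sy b) (fun i => id b i i) (ev b) (tr b) (lt b) p dp d1 k
    obtain ⟨j, hj⟩ := Fintype.exists_ne_of_one_lt_card (by omega) p
    have := mx p j
    rw [sum_eq_single p (fun l _ hl => by rw [z true l hl, zero_mul]) (by simp), z false j hj,
      mul_zero] at this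
    exact mul_ne_zero (d0 p) (d0 j) this.symm

theorem jobG9 : H24.KB.JobG9.{u} := by
  intro ι s R d sy id mx ev tr lt d0 sd
  rcases le_or_gt s.card 10 with h | h
  · exact .inl h
  have c : ∀ f : ι → ℤ, ∑ i : s, f i = ∑ i ∈ s, f i := fun f => sum_coe_sort s f
  have sy' : ∀ b (i j : s), R b i j = R b j i := fun b i j => sy b i i.2 j j.2
  have id' : ∀ b (i j : s), ∑ k : s, R b i k * R b k j = 4 * R b i j := fun b i j =>
    (c fun k => R b i k * R b k j).trans (id b i i.2 j j.2)
  have mx' : ∀ i j : s, ∑ k : s, R true i k * R false k j = d i * d j := fun i j =>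
    (c fun k => R true i k * R false k j).trans (mx i i.2 j j.2)
  have ev' : ∀ b (i : s), ∑ k : s, R b i k * d k = 4 * d i := fun b i =>
    (c fun k => R b i k * d k).trans (ev b i i.2)
  obtain ⟨k, d1, r1⟩ := core (κ := s) (fun b i j => R b i j) (fun i => d i) sy' id' mx' ev'
    (fun b => (c fun i => R b i i).trans (tr b)) (fun b i => lt b i i.2) (fun i => d0 i i.2)
    ((c fun i => d i ^ 2).trans sd) (by simpa using h)
  refine .inr ⟨by simpa using k, fun y n hn h0 => ?_⟩
  refine c16 (κ := s) (fun b i j => R b i j) (fun i => d i) sy' id' mx' ev' d1 r1 k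
    (fun i => y i) n ?_ h0
  have q : ∀ b, ∑ i : s, ∑ j : s, y i * R b i j * y j = H24.KB.qf s (R b) y := fun b => by
    rw [H24.KB.qf, ← c]
    exact sum_congr rfl fun i _ => c fun j => y i * R b i j * y j
  rw [q, q, c fun i => y i ^ 2, c fun i => d i * y i, hn]

end H13.KB
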