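import Cfsg.Agent.H13.LD4WT

/-! Tower LD4, job HEIS: Heisenberg groups in dimension four. -/

set_option autoImplicit false

namespace H13.L4W

open Cfsg Matrix H20.LD
open scoped commutatorElement

universe u v

variable {k : Type u} [Field k] {X : Type u} [Group X] {Γ : Type v} [Group Γ] {p : ℕ}
  {ρ : X →* G4 k} {π : X →* Γ}

/-- A Heisenberg triple. -/
structure HX (r : ℕ) (a b c : X) : Prop where
  ar : a ^ r = 1
  br : b ^ r = 1
  cr : c ^ r = 1
  ca : Commute c a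
  cb : Commute c b
  e : c * (b * a) = a * b
  ne : c ≠ 1

theorem exists_hx (h : R4 p ρ π) {r : ℕ} (ro : Odd r) {a b : Γ} (H : Heis r a b) :
    ∃ x y z : X, HX r x y z ∧ π z = ⁅a, b⁆ := by
  obtain ⟨x, rfl, hx⟩ := h.lift ro H.ar
  obtain ⟨y, rfl, hy⟩ := h.lift ro H.br
  have e := map_commutatorElement π x y
  have c1 := (h.commute_of_odd ro hx (e ▸ H.ca.symm)).symm
  have c2 := (h.commute_of_odd ro hy (e ▸ H.cb.symm)).symm
  refine ⟨x, y, ⁅x, y⁆, ⟨hx, hy, ?_, c1, c2, by rw [commutatorElement_def]; group,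
    fun z => H.ne (by rw [← e, z, map_one])⟩, e⟩
  have := c2.mul_pow r
  rwa [hy, mul_one, commutatorElement_def, inv_mul_cancel_right, conj_pow, hy, mul_one,
    mul_inv_cancel, eq_comm] at this

theorem pg_zpowers {a : X} (h : a ^ p = 1) : IsPGroup p (Subgroup.zpowers a) := by
  rintro ⟨_, i, rfl⟩
  exact ⟨1, Subtype.ext (by
    change (a ^ i) ^ p ^ 1 = 1
    rw [pow_one, ← zpow_natCast, ← _root_.zpow_mul, mul_comm, _root_.zpow_mul, zpow_natCast, h,
      _root_.one_zpow])⟩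

theorem nor_of [Finite X] {K : Subgroup X} {a : X} (h : K ≤ K.comap (MulAut.conj a).toMonoidHom) :
    Subgroup.zpowers a ≤ Subgroup.normalizer (K : Set X) :=
  Subgroup.zpowers_le.2 (Subgroup.mem_normalizer_fintype fun _ hn => h hn)

theorem hx_char [Finite X] (h : R4 p ρ π) (h2 : p ≠ 2) {a b c : X} (H : HX p a b c) :
    ¬ NoTv ρ := fun hT => by
  have m1 : b ∈ Subgroup.zpowers b ⊔ Subgroup.zpowers c :=
    Subgroup.mem_sup_left (Subgroup.mem_zpowers _)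
  have m2 : c ∈ Subgroup.zpowers b ⊔ Subgroup.zpowers c :=
    Subgroup.mem_sup_right (Subgroup.mem_zpowers _)
  obtain ⟨B, hB⟩ := h.ut _ ((pg_zpowers H.ar).to_sup_of_normal_right'
    ((pg_zpowers H.br).to_sup_of_normal_right' (pg_zpowers H.cr) (nor_of (Subgroup.zpowers_le.2 (by
      change b * c * b⁻¹ ∈ Subgroup.zpowers c
      rw [← H.cb.eq, mul_inv_cancel_right]; exact Subgroup.mem_zpowers _))))
    (nor_of (sup_le (Subgroup.zpowers_le.2 (by
      change a * b * a⁻¹ ∈ Subgroup.zpowers b ⊔ Subgroup.zpowers c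
      rw [← H.e, ← mul_assoc, mul_inv_cancel_right]; exact mul_mem m2 m1))
      (Subgroup.zpowers_le.2 (by
        change a * c * a⁻¹ ∈ Subgroup.zpowers b ⊔ Subgroup.zpowers c
        rw [← H.ca.eq, mul_inv_cancel_right]; exact m2)))))
  have ha : cb ρ B a ∈ _ := hB a (Subgroup.mem_sup_left (Subgroup.mem_zpowers _))
  have hb : cb ρ B b ∈ _ := hB b (Subgroup.mem_sup_right m1)
  have hc : cb ρ B c ∈ _ := hB c (Subgroup.mem_sup_right m2)
  have two := h.two_ne h2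
  replace h := h.cb B
  rw [← noTv_cb B] at hT
  generalize cb ρ B = τ at h hT ha hb hc
  have e1 := congrArg (fun x => (τ x).val) H.e
  have e2 := congrArg (fun x => (τ x).val) H.ca.eq
  have e3 := congrArg (fun x => (τ x).val) H.cb.eq
  simp only [val_mul'] at e1 e2 e3
  obtain ⟨z1, z2, z3⟩ := (uni_comm ha hb hc (by rw [← map_mul, ← map_mul, H.e, map_mul])).1
  have ec := uni_eq hc
  rw [z1, z2, z3] at ec
  rw [uni_eq ha, ec] at e1 e2
  rw [uni_eq hb] at e1 e3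
  rw [ec] at e3
  have f1 := congrFun₂ e1 0 2
  have f2 := congrFun₂ e1 1 3
  have f3 := congrFun₂ e2 0 3
  have f4 := congrFun₂ e3 0 3
  simp [mul_apply, Fin.sum_univ_four] at f1 f2 f3 f4
  have : 2 * ((τ c).val 0 2 * (τ c).val 1 3) = 0 := by grind
  refine hT c ⟨fun e => H.ne (h.inj (e.trans (map_one τ).symm)), ?_⟩
  rcases mul_eq_zero.1 ((mul_eq_zero.1 this).resolve_left two) with z | z <;> rw [z] at ec
  · refine ⟨![(τ c).val 0 3, (τ c).val 1 3, 0, 0], ![0, 0, 0, 1], by simp, ec.trans ?_⟩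
    ext i j; fin_cases i <;> fin_cases j <;> simp [vecMulVec_apply]
  · refine ⟨![1, 0, 0, 0], ![0, 0, (τ c).val 0 2, (τ c).val 0 3], by simp, ec.trans ?_⟩
    ext i j; fin_cases i <;> fin_cases j <;> simp [vecMulVec_apply]

theorem perm_four' : ∀ (σ : Equiv.Perm (Fin 4)) (i : Fin 4), σ i = i ∨ σ (σ i) = i ∨
    σ (σ (σ (σ i))) = i ∨ σ (σ (σ i)) = i ∧
      ∃ l, σ l = l ∧ ∀ j, j = l ∨ j = i ∨ j = σ i ∨ j = σ (σ i) := by
  decide

theorem hx_cross [IsAlgClosed k] (h : R4 p ρ π) {r : ℕ} (hr : r.Prime) (h2 : r ≠ 2) (hp : r ≠ p)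
    {a b c : X} (H : HX r a b c) : r = 3 ∧ ∃ ω : k, Hom3 (ρ c) ω := by
  obtain ⟨B, hB⟩ := exists_diag ρ {a, c} (by
    have := H.ca.eq
    rintro _ (rfl | rfl) _ (rfl | rfl) <;> simp [this]) (by
    rintro _ (rfl | rfl)
    exacts [⟨r, h.cast_prime_ne hr hp, H.ar⟩, ⟨r, h.cast_prime_ne hr hp, H.cr⟩])
  simp only [← hom3_conj (g := ρ c) B]
  change _ ∧ ∃ ω, Hom3 (cb ρ B c) ω
  replace h := h.cb B
  generalize cb ρ B = τ at h hB
  obtain ⟨d, hd⟩ := hB a (.inl rfl)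
  obtain ⟨e, he⟩ := hB c (.inr rfl)
  obtain ⟨σ, -, hσ⟩ := exists_perm τ b
  have p1 := hσ (diag_mul he hd) hd (by rw [← mul_assoc, ← H.cb.eq, mul_assoc, H.e])
  have p2 := hσ he he H.cb.eq.symm
  obtain ⟨i, hi⟩ : ∃ i, e i ≠ 1 := by_contra fun n => H.ne (h.eq_one (he.trans
    ((diagonal_eq_diagonal_iff.2 fun i => by_contra fun z => n ⟨i, z⟩).trans diagonal_one)))
  have d0 : ∀ j, d j ≠ 0 := fun j z => by simpa [z, hr.ne_zero] using diag_one hd H.ar j
  have cp : ∀ n, e i ^ n = 1 → r ∣ n := fun n hn => by_contra fun z => hi (by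
    have := pow_gcd_eq_one.2 ⟨diag_one he H.cr i, hn⟩
    rwa [(hr.coprime_iff_not_dvd.2 z).gcd_eq_one, pow_one] at this)
  have q1 := p1 i
  have q2 := p1 (σ i)
  have q3 := p1 (σ (σ i))
  have q4 := p1 (σ (σ (σ i)))
  simp only [p2] at q2 q3 q4
  have n4 : ¬ e i ^ 4 = 1 := fun z => h2 ((Nat.prime_dvd_prime_iff_eq hr Nat.prime_two).1
    (hr.dvd_of_dvd_pow (n := 2) (cp 4 z)))
  have := d0 i
  rcases perm_four' σ i with z | z | z | ⟨z, l, hl, z'⟩
  · rw [z] at q1; exact (n4 (by grind)).elim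
  · rw [z] at q2; exact (n4 (by grind)).elim
  · rw [z] at q4; exact (n4 (by grind)).elim
  rw [z] at q3
  have e3 : e i ^ 3 = 1 := by grind
  have el : e l = 1 := by
    have := p1 l
    rw [hl] at this
    exact mul_right_cancel₀ (d0 l) (this.symm.trans (one_mul _).symm)
  refine ⟨(Nat.prime_dvd_prime_iff_eq hr Nat.prime_three).1 (cp 3 e3), e i,
    mul_left_cancel₀ (sub_ne_zero.2 hi) (by linear_combination e3), Pi.single l 1, Pi.single l 1,
    by simp, he.trans ?_⟩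
  ext x y
  by_cases xy : x = y
  · subst xy
    by_cases xl : x = l
    · subst xl
      simp [vecMulVec_apply, el]
      linear_combination -e3
    · have : e x = e i := by
        rcases z' x with w | w | w | w
        · exact (xl w).elim
        all_goals simp only [w, p2]
      simp [vecMulVec_apply, xl, this]
  · by_cases xl : x = l
    · subst xl; simp [vecMulVec_apply, xy, Ne.symm xy]
    · simp [vecMulVec_apply, xy, xl]

theorem hom3_diag {g : G4 k} {ω : k} {d : Fin 4 → k} (h : Hom3 g ω) (h3 : (3 : k) ≠ 0)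
    (hd : g.val = diagonal d) : ω ≠ 1 ∧ ∃ l, d l = 1 ∧ ∀ j, j ≠ l → d j = ω := by
  obtain ⟨w, u, φ, e1, e2⟩ := h
  have w1 : ω ≠ 1 := fun e => h3 (by rw [e] at w; linear_combination w)
  have w2 : ω * (ω ^ 2 - 1) ≠ 0 := fun e => h3 (by grind)
  obtain ⟨l, hl⟩ : ∃ l, φ l * u l ≠ 0 := by_contra fun n => one_ne_zero (e1.symm.trans
    (Finset.sum_eq_zero fun l _ => by_contra fun z => n ⟨l, z⟩))
  have z : ∀ j, j ≠ l → u j = 0 := fun j hj => by
    have := congrFun₂ (hd.symm.trans e2) j l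
    simp only [diagonal_apply_ne _ hj, Matrix.smul_apply, Matrix.add_apply, one_apply_ne hj,
      vecMulVec_apply, smul_eq_mul, zero_add, ← mul_assoc] at this
    exact (mul_eq_zero.1 ((mul_eq_zero.1 this.symm).resolve_right
      (left_ne_zero_of_mul hl))).resolve_left w2
  have f : ∀ j, d j = ω * (1 + (ω ^ 2 - 1) * (u j * φ j)) := fun j => by
    simpa [vecMulVec_apply] using congrFun₂ (hd.symm.trans e2) j j
  rw [dotProduct, Finset.sum_eq_single l (fun j _ hj => by rw [z j hj, mul_zero]) (by simp)] at e1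
  exact ⟨w1, l, by rw [f, mul_comm (u l), e1]; linear_combination (ω - 1) * w,
    fun j hj => by rw [f, z j hj]; ring⟩

theorem heis_one [IsAlgClosed k] [Finite X] (h : R4 p ρ π) (r : ℕ) (a b : Γ) (hr : r.Prime)
    (h2 : r ≠ 2) (H : Heis r a b) : (r = p → ¬ NoTv ρ) ∧
      (r ≠ p → r = 3 ∧ ∃ x, ∃ ω : k, π x = ⁅a, b⁆ ∧ x ^ 3 = 1 ∧ Hom3 (ρ x) ω) := by
  obtain ⟨x, y, z, hx, e⟩ := exists_hx h (hr.odd_of_ne_two h2) H
  refine ⟨by rintro rfl; exact hx_char h h2 hx, fun hp => ?_⟩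
  obtain ⟨rfl, ω, w⟩ := hx_cross h hr h2 hp hx
  exact ⟨rfl, z, ω, e, hx.cr, w⟩

theorem ex_four : ∀ a b c : Fin 4, ∃ j, j ≠ a ∧ j ≠ b ∧ j ≠ c := by decide

theorem not_heisR [IsAlgClosed k] [Finite X] (h : R4 p ρ π) (hT : NoTv ρ) : ¬ HeisR Γ := by
  rintro ⟨r, a, b, hr, h2, H, hc⟩
  have hp : r ≠ p := fun e => (heis_one h r a b hr h2 H).1 e hT
  obtain ⟨rfl, x, ω, e, x3, w⟩ := (heis_one h r a b hr h2 H).2 hp
  have o3 : Odd 3 := by decide
  have h3 : ((3 : ℕ) : k) ≠ 0 := h.cast_prime_ne hr hp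
  rcases hc rfl with c | ⟨a', b', a'', b'', H', H'', cm, e', ne⟩
  · obtain ⟨g, hg⟩ := isConj_iff.1 (h.isConj_of_odd o3 x3 (g' := x ^ 2)
      (by rw [← pow_mul, mul_comm, pow_mul, x3, one_pow]) (by
        rwa [show x ^ 2 = x⁻¹ from eq_inv_of_mul_eq_one_left (by rw [← pow_succ, x3]), map_inv, e]))
    obtain ⟨B, hB⟩ := exists_diag ρ {x} (by rintro _ rfl _ rfl; rfl)
      (by rintro _ rfl; exact ⟨3, h3, x3⟩)
    obtain ⟨d, hd⟩ := hB x rfl
    obtain ⟨w1, l, l1, l2⟩ := hom3_diag (w.conj B) (by exact_mod_cast h3) hd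
    obtain ⟨σ, -, hσ⟩ := exists_perm (cb ρ B) g
    obtain ⟨j, j1, j2, -⟩ := ex_four l (σ⁻¹ l) l
    have := hσ hd (diag_pow hd 2) (by rw [← hg, inv_mul_cancel_right]) j
    rw [l2 j j1, l2 (σ j) fun z => j2 (by rw [← z]; simp)] at this
    have w0 := w.1
    grind
  obtain ⟨-, y, ω', f, y3, w'⟩ := (heis_one h 3 a' b' hr h2 H').2 hp
  obtain ⟨-, z, ω'', f', z3, w''⟩ := (heis_one h 3 a'' b'' hr h2 H'').2 hp
  have c : Commute x y := h.commute_of_odd o3 x3 (by rwa [e, f])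
  obtain rfl : z = x * y := h.eq_of_pow (by rw [map_mul, e, f, f', e']) o3
    (by rw [c.mul_pow, x3, y3, z3, one_mul])
  obtain ⟨B, hB⟩ := exists_diag ρ {x, y} (by
    have := c.eq
    rintro _ (rfl | rfl) _ (rfl | rfl) <;> simp [this]) (by
    rintro _ (rfl | rfl)
    exacts [⟨3, h3, x3⟩, ⟨3, h3, y3⟩])
  obtain ⟨d, hd⟩ := hB x (.inl rfl)
  obtain ⟨d', hd'⟩ := hB y (.inr rfl)
  obtain ⟨w1, l, l1, l2⟩ := hom3_diag (w.conj B) (by exact_mod_cast h3) hd
  obtain ⟨w2, m, m1, m2⟩ := hom3_diag (w'.conj B) (by exact_mod_cast h3) hd'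
  obtain ⟨w3, n, n1, n2⟩ := hom3_diag (w''.conj B) (by exact_mod_cast h3) (diag_mul hd hd')
  obtain ⟨j, j1, j2, j3⟩ := ex_four l m n
  have q := n2 j j3
  rw [l2 j j1, m2 j j2] at q
  by_cases nl : n = l <;> by_cases nm : n = m
  · subst nl nm
    have v1 := w.1
    have v2 := w'.1
    have v3 := w''.1
    have : ω' = ω := by grind
    have H : ∀ i, d' i = d i := fun i => by
      by_cases hi : i = n
      · rw [hi, l1, ← hi, hi, m1]
      · rw [l2 i hi, m2 i hi, this]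
    exact ne (by
      rw [← e, ← f, (h.cb B).ext (hd'.trans ((diagonal_eq_diagonal_iff.2 H).trans hd.symm))])
  · exact w2 (by rwa [m2 n nm, nl, l1, one_mul] at n1)
  · exact w1 (by rwa [l2 n nl, nm, m1, mul_one] at n1)
  · exact w3 (by rwa [l2 n nl, m2 n nm, q] at n1)

theorem jobHeis : JobHeis.{u, v} := fun _ _ _ _ _ _ _ _ _ _ _ h =>
  ⟨heis_one h, not_heisR h⟩

end H13.L4W
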