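import Cfsg.Agent.H13.LD4WT
import Cfsg.Agent.H20.LD4Mon

/-! Tower LD4, job RF5: the full Weyl group. -/

set_option autoImplicit false

namespace H13.L4W

open Cfsg Matrix H20.LD

universe u v

variable {k : Type u} [Field k] {X : Type u} [Group X] {Γ : Type v} [Group Γ] {p : ℕ}
  {ρ : X →* G4 k} {π : X →* Γ}

/-- A monomial reflection. -/
def MRf (ρ : X →* G4 k) (π : X →* Γ) (x : X) (σ : Equiv.Perm (Fin 4)) : Prop :=
  Mon (ρ x) σ ∧ π x * π x = 1 ∧ tr ρ x ≠ 0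

theorem MRf.conj {x y : X} {σ τ : Equiv.Perm (Fin 4)} (h : MRf ρ π x σ) (hy : Mon (ρ y) τ) :
    MRf ρ π (y * x * y⁻¹) (τ * σ * τ⁻¹) :=
  ⟨(hy.map_mul h.1).map_mul hy.map_inv, by
    rw [← map_mul, conj_mul, map_mul, map_mul, map_mul, h.2.1, mul_one, ← map_mul, mul_inv_cancel,
      map_one], by rw [tr_conj]; exact h.2.2⟩

theorem two_fix : ∀ a b : Fin 4, a ≠ b → ∃ c d, c ≠ a ∧ c ≠ b ∧ d ≠ a ∧ d ≠ b ∧ c ≠ d ∧
    ∀ j, j = a ∨ j = b ∨ j = c ∨ j = d := by decide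

theorem MRf.std (h : R4 p ρ π) {x : X} {a b : Fin 4} (ab : a ≠ b)
    (H : MRf ρ π x (Equiv.swap a b)) : ∃ r : k, r ≠ 0 ∧ ∀ (B : G4 k) (e : Fin 4 → k),
      B.val = diagonal e → e b = e a * r → HasIn (cb ρ B) π ⊤ ((Equiv.swap a b).permMatrix k) := by
  obtain ⟨c, d, ca, cb', da, db, cd, u⟩ := two_fix a b ab
  obtain ⟨m, t2, t0⟩ := H
  obtain ⟨s, -, hs⟩ := h.sc (z := x * x) (by rw [map_mul, t2])
  have q : ∀ j, (ρ x).val j (Equiv.swap a b j) * (ρ x).val (Equiv.swap a b j) j = s := fun j => by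
    rw [← m.mul_apply, ← val_mul', hs]; simp
  have sc := Equiv.swap_apply_of_ne_of_ne ca cb'
  have sd := Equiv.swap_apply_of_ne_of_ne da db
  have q1 := q a
  have q2 := q c
  have q3 := q d
  have n1 := m.ne b
  have n2 := m.ne c
  rw [Equiv.swap_apply_left] at q1
  rw [Equiv.swap_apply_right] at n1
  rw [sc] at q2 n2
  rw [sd] at q3
  have t : tr ρ x = (ρ x).val c c + (ρ x).val d d :=
    Finset.sum_eq_add_of_mem (f := fun j => (ρ x).val j j) c d (Finset.mem_univ _)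
      (Finset.mem_univ _) cd fun j _ hj => by
      rcases u j with rfl | rfl | rfl | rfl
      exacts [m _ _ (by simp [ab]), m _ _ (by simp [ab.symm]), (hj.1 rfl).elim, (hj.2 rfl).elim]
  have q4 : (ρ x).val d d = (ρ x).val c c := by grind
  refine ⟨(ρ x).val c c / (ρ x).val a b, div_ne_zero n2 n1, fun B e he eb =>
    ⟨x, trivial, (ρ x).val c c, ?_⟩⟩
  have mB := mon_of_diagonal he
  have e0 : ∀ j, e j ≠ 0 := fun j => by simpa [he] using mB.ne j
  have := e0 a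
  have := e0 b
  ext i j
  have k1 : ((B⁻¹).val * (ρ x).val) i j = (B⁻¹).val i i * (ρ x).val i j := mB.inv.apply_mul _ i j
  have k2 : (B⁻¹).val i i = (B.val i i)⁻¹ := mB.inv_apply i
  rw [cb_val, mB.mul_apply, Equiv.Perm.one_apply, k1, k2]
  simp only [he, diagonal_apply_eq, Matrix.smul_apply, Equiv.Perm.permMatrix,
    PEquiv.toMatrix_apply, Equiv.toPEquiv_apply, Option.mem_def, Option.some.injEq, smul_eq_mul]
  by_cases ij : i = Equiv.swap a b j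
  · subst ij
    rw [if_pos (by simp), mul_one]
    have := e0 j
    rcases u j with rfl | rfl | rfl | rfl
    · rw [Equiv.swap_apply_left, eb]; field_simp; grind
    · rw [Equiv.swap_apply_right, eb]; field_simp
    · rw [sc]; field_simp
    · rw [sd, q4]; field_simp
  · rw [m i j ij, if_neg fun z => ij (by rw [← z]; simp)]; simp

theorem weyl : ∀ σ τ : Equiv.Perm (Fin 4), τ * bl = bl * τ → τ 0 = 2 → σ * bl ≠ bl * σ →
    ∀ a b c : Equiv.Perm (Fin 4), a = Equiv.swap 0 1 → b = Equiv.swap 2 3 → c = Equiv.swap 1 2 →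
      τ * a * τ⁻¹ = b ∧ (σ * a * σ⁻¹ = c ∨ a * (σ * a * σ⁻¹) * a⁻¹ = c ∨ b * (σ * a * σ⁻¹) * b⁻¹ = c ∨
        b * (a * (σ * a * σ⁻¹) * a⁻¹) * b⁻¹ = c) := by
  rintro σ τ h1 h2 h3 _ _ _ rfl rfl rfl
  revert σ τ
  decide +kernel

theorem jobRF5 : JobRF5.{u, v} := fun p k _ _ X _ _ Γ _ ρ π h _ S i H ⟨y, σ, y1, y2⟩ => by
  obtain ⟨s, -, hs⟩ := H.s
  obtain ⟨w, τ, w1, w2, w3⟩ := H.tra 2
  obtain ⟨τ', w4, w5⟩ := H.ms w w1
  obtain rfl := w2.unique w5
  obtain ⟨e1, e2⟩ := weyl σ τ w4 w3 y2 _ _ _ rfl rfl rfl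
  have s2 := MRf.conj hs w2
  rw [e1] at s2
  have s3 := MRf.conj hs y1
  obtain ⟨s', s1⟩ : ∃ s', MRf ρ π s' (Equiv.swap 1 2) := by
    rcases e2 with e | e | e | e <;> rw [← e]
    exacts [⟨_, s3⟩, ⟨_, s3.conj hs.1⟩, ⟨_, s3.conj s2.1⟩, ⟨_, (s3.conj hs.1).conj s2.1⟩]
  obtain ⟨a, a0, ha⟩ := MRf.std h (by decide) hs
  obtain ⟨b, b0, hb⟩ := s1.std h (by decide)
  obtain ⟨c, c0, hc⟩ := s2.std h (by decide)
  let B : G4 k := GeneralLinearGroup.mkOfDetNeZero (diagonal ![1, a, a * b, a * b * c])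
    (by simp [Fin.prod_univ_four, a0, b0, c0])
  have hB : B.val = diagonal ![1, a, a * b, a * b * c] := rfl
  have mB := mon_of_diagonal hB
  have dg : ∀ d, HasIn ρ π S (diagonal d) → HasIn (cb ρ B) π ⊤ (diagonal d) :=
    fun d ⟨x, _, c, e⟩ => ⟨x, trivial, c, by
      have := mB.inv.conj_diagonal (c • d)
      rw [inv_inv] at this
      rw [cb_val, e, ← diagonal_smul, this]; rfl⟩
  refine ⟨B, fun σ => ?_, dg _ (H.rf 0), H.ii, dg _ H.z, S, fun x hx => ?_⟩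
  · induction (Equiv.Perm.mclosure_swap_castSucc_succ 3 ▸ Submonoid.mem_top σ :
      σ ∈ Submonoid.closure _) using Submonoid.closure_induction with
    | mem x hx =>
      obtain ⟨j, rfl⟩ := hx
      fin_cases j
      exacts [ha B _ hB (by simp), hb B _ hB (by simp), hc B _ hB (by simp)]
    | one => exact ⟨1, trivial, 1, by simp⟩
    | mul x y _ _ hx hy =>
      obtain ⟨x', -, c, e⟩ := hx
      obtain ⟨y', -, c', e'⟩ := hy
      exact ⟨y' * x', trivial, c' * c, by rw [val_mul', e, e', permMatrix_mul, smul_mul_smul_comm]⟩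
  · obtain ⟨σ, -, e⟩ := H.ms x hx
    exact ⟨_, (mB.inv.mul e).mul mB⟩

end H13.L4W
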