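import Cfsg.Agent.H20.LD4Kit
import Cfsg.Agent.H20.LD4Mon
import Cfsg.Agent.H57.Transv

/-! Tower LD4, job WT: weight arguments in dimension four. -/

set_option autoImplicit false

namespace H13.L4W

open Cfsg Matrix H20.LD Module
open scoped commutatorElement

universe u v

variable {k : Type u} [Field k] {X : Type u} [Group X] {Γ : Type v} [Group Γ] {p : ℕ}
  {ρ : X →* G4 k} {π : X →* Γ}

theorem exists_perm (ρ : X →* G4 k) (g : X) : ∃ σ : Equiv.Perm (Fin 4),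
    (∀ i, (ρ g).val (σ i) i ≠ 0) ∧ ∀ {a b : X} {da db : Fin 4 → k}, (ρ a).val = diagonal da →
      (ρ b).val = diagonal db → g * a = b * g → ∀ i, db (σ i) = da i := by
  obtain ⟨σ, h⟩ := exists_perm_ne_zero (val_det_ne_zero (ρ g))
  refine ⟨σ, h, fun ha hb e i => by_contra fun n => h i (eq_zero_of_mul_diagonal ?_ (Ne.symm n))⟩
  rw [← ha, ← hb, ← val_mul', e, val_mul']

theorem diag_mul {a b : X} {da db : Fin 4 → k} (ha : (ρ a).val = diagonal da)
    (hb : (ρ b).val = diagonal db) : (ρ (a * b)).val = diagonal fun i => da i * db i := by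
  rw [val_mul', ha, hb, diagonal_mul_diagonal]

theorem diag_pow {a : X} {da : Fin 4 → k} (ha : (ρ a).val = diagonal da) (n : ℕ) :
    (ρ (a ^ n)).val = diagonal fun i => da i ^ n := by
  rw [val_pow', ha, diagonal_pow]; rfl

theorem diag_one {a : X} {da : Fin 4 → k} (ha : (ρ a).val = diagonal da) {n : ℕ} (e : a ^ n = 1)
    (i : Fin 4) : da i ^ n = 1 := by
  have := diag_pow ha n
  rw [e, map_one, Units.val_one, ← diagonal_one, diagonal_eq_diagonal_iff] at this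
  exact (this i).symm

theorem diag_det (h : R4 p ρ π) {a : X} {da : Fin 4 → k} (ha : (ρ a).val = diagonal da) :
    da 0 * da 1 * da 2 * da 3 = 1 := by
  rw [← h.det a, ha, det_diagonal, Fin.prod_univ_four]

theorem diag_tr {a : X} {da : Fin 4 → k} (ha : (ρ a).val = diagonal da) :
    tr ρ a = da 0 + da 1 + da 2 + da 3 := by
  rw [tr, ha, trace_diagonal, Fin.sum_univ_four]

theorem not_w5 [IsAlgClosed k] (h : R4 p ρ π) {r : ℕ} (hr : r.Prime) (h2 : r ≠ 2) (hp : r ≠ p) :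
    ¬ W5 Γ r := by
  rintro ⟨A, hA, ar, ac, n, hn, hd⟩
  have ro := hr.odd_of_ne_two h2
  choose l l1 l2 using fun a : A => h.lift ro (ar a a.2)
  have lc : ∀ a b, Commute (l a) (l b) := fun a b =>
    h.commute_of_odd ro (l2 a) (by rw [l1, l1]; exact ac _ a.2 _ b.2)
  obtain ⟨B, hB⟩ := exists_diag ρ (Set.range l) (by rintro _ ⟨a, rfl⟩ _ ⟨b, rfl⟩; exact lc a b)
    (by rintro _ ⟨a, rfl⟩; exact ⟨r, h.cast_prime_ne hr hp, l2 a⟩)
  replace h := h.cb B
  generalize cb ρ B = τ at h hB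
  choose d hd' using fun a => hB _ ⟨a, rfl⟩
  choose N hN using fun j => h.surj (n j)
  choose σ _ hσ using fun j => exists_perm τ (N j)⁻¹
  obtain ⟨a, a1⟩ := Subgroup.ne_bot_iff_exists_ne_one.1 hA
  suffices H : ∀ i, d a i = 1 from a1 (Subtype.ext ((l1 a).symm.trans (by
    rw [h.eq_one ((hd' a).trans ((diagonal_eq_diagonal_iff.2 H).trans
      diagonal_one)), map_one]; rfl)))
  intro i
  obtain ⟨j, j', hj, e⟩ := Fintype.exists_ne_map_eq_of_card_lt (fun j => σ j i) (by simp)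
  obtain ⟨b, hb, ab⟩ := hd j j' hj a a.2
  have key : ∀ j, d ⟨b, hb⟩ (σ j i) = d ⟨_, hn j b hb⟩ i := fun j => hσ j (hd' _) (hd' _) (by
    rw [← h.conj_of_odd ro (l2 ⟨b, hb⟩) (l2 ⟨_, hn j b hb⟩) (a := N j) (by rw [hN, l1, l1])]
    group) i
  have e1 : l ⟨_, hn j b hb⟩ = l a * l ⟨_, hn j' b hb⟩ := h.eq_of_pow
    (by rw [map_mul, l1, l1, l1, ab, inv_mul_cancel_right]) ro
    (by rw [(lc _ _).mul_pow, l2, l2, l2, one_mul])
  have e2 := diag_mul (hd' a) (hd' ⟨_, hn j' b hb⟩)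
  rw [← e1, hd'] at e2
  replace e2 := diagonal_eq_diagonal_iff.1 e2 i
  rw [← key j, show σ j i = σ j' i from e, key j'] at e2
  have n0 : d ⟨_, hn j' b hb⟩ i ≠ 0 := fun z => by
    simpa [z, hr.ne_zero] using diag_one (hd' ⟨_, hn j' b hb⟩) (l2 _) i
  exact mul_right_cancel₀ n0 (e2.symm.trans (one_mul _).symm)

theorem exists_homotopy {N : M4 k} (h2 : N * N = 0) (hr : 2 ≤ N.rank) :
    ∃ M : M4 k, N * M + M * N = 1 := by
  let n := Matrix.toLin' N
  have nn : ∀ v, n (n v) = 0 := fun v => by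
    rw [← LinearMap.comp_apply, ← toLin'_mul, h2, map_zero, LinearMap.zero_apply]
  have e : LinearMap.range n = LinearMap.ker n := by
    refine Submodule.eq_of_le_of_finrank_le (by rintro _ ⟨v, rfl⟩; exact nn v) ?_
    have h1 := n.finrank_range_add_finrank_ker
    have h3 : 2 ≤ finrank k (LinearMap.range n) := hr
    simp only [finrank_fin_fun] at h1
    omega
  obtain ⟨g, hg⟩ := n.rangeRestrict.exists_rightInverse_of_surjective n.range_rangeRestrict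
  have ng : ∀ w, n (g w) = w := fun w => congrArg Subtype.val (LinearMap.congr_fun hg w)
  let m := g ∘ₗ (LinearMap.id - g ∘ₗ n.rangeRestrict).codRestrict (LinearMap.range n) fun v => by
    refine e.ge ?_
    rw [LinearMap.mem_ker, LinearMap.sub_apply, map_sub, LinearMap.comp_apply, ng]
    exact sub_self _
  refine ⟨LinearMap.toMatrix' m, toLin'.injective (LinearMap.ext fun v => ?_)⟩
  rw [map_add, toLin'_mul, toLin'_mul, toLin'_toMatrix', toLin'_one]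
  change n (g _) + g _ = v
  rw [ng]
  refine Eq.trans (congrArg _ (congrArg g (Subtype.ext ?_))) (sub_add_cancel _ _)
  change n v - g (n.rangeRestrict (n v)) = n v
  rw [show n.rangeRestrict (n v) = 0 from Subtype.ext (nn v), map_zero, sub_zero]

theorem tr_zero (h : R4 2 ρ π) (hT : NoTv ρ) {s x : X} (s1 : s ≠ 1) (s2 : s * s = 1)
    (c : Commute s x) : tr ρ x = 0 := by
  have h2 := h.two_eq rfl
  have nn : ((ρ s).val - 1) * ((ρ s).val - 1) = 0 := by
    rw [sub_mul, mul_sub, mul_sub, ← val_mul', s2, map_one, Units.val_one, mul_one, one_mul,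
      mul_one, show (1 : M4 k) - (ρ s).val - ((ρ s).val - 1) = (2 : k) • (1 - (ρ s).val) by module,
      h2, zero_smul]
  obtain ⟨M, hM⟩ := exists_homotopy nn (by
    by_contra hr
    obtain ⟨u, φ, e⟩ := H57.exists_vecMulVec_of_rank_le_one (M := (ρ s).val - 1) (by omega)
    refine hT s ⟨fun e => s1 (h.inj (e.trans (map_one ρ).symm)), u, φ, ?_, by rw [← e]; abel⟩
    rw [e, vecMulVec_mul_vecMulVec, vecMulVec_smul, smul_eq_zero] at nn
    exact nn.resolve_right fun z => s1 (h.eq_one (sub_eq_zero.1 (e.trans z))))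
  have cm : (ρ x).val * ((ρ s).val - 1) = ((ρ s).val - 1) * (ρ x).val := by
    rw [mul_sub, sub_mul, ← val_mul', ← c.eq, val_mul', mul_one, one_mul]
  rw [tr, ← mul_one (ρ x).val, ← hM, mul_add, trace_add, ← mul_assoc, ← mul_assoc,
    trace_mul_comm _ ((ρ s).val - 1), ← mul_assoc, ← cm, ← two_mul, h2, zero_mul]

theorem pat {a b c d : k} (h2 : (2 : k) = 0) (h1 : a + b + c + d = 0)
    (h3 : a ^ 3 + b ^ 3 + c ^ 3 + d ^ 3 = 0) (h : a * b * c * d = 1) :
    (b = a ∧ d = c ∧ a * c = 1) ∨ (c = a ∧ d = b ∧ a * b = 1) ∨ (d = a ∧ c = b ∧ a * b = 1) := by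
  have sq : ∀ x : k, x ^ 2 = 1 → x = 1 := fun x hx => sub_eq_zero.1 (pow_eq_zero_iff two_ne_zero |>.1
    (by linear_combination hx + (1 - x) * h2))
  obtain rfl : d = a + b + c := by linear_combination h1 - (a + b + c) * h2
  have : (b - a) * ((c - a) * (c - b)) = 0 := by
    linear_combination h3 - (a ^ 3 + b ^ 3 + c ^ 3 + 2 * a ^ 2 * b + a ^ 2 * c + a * b ^ 2 +
      b ^ 2 * c * 2 + a * c ^ 2 * 2 + b * c ^ 2 + 3 * a * b * c) * h2
  simp only [mul_eq_zero, sub_eq_zero] at this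
  rcases this with rfl | rfl | rfl
  · exact .inl ⟨rfl, by linear_combination b * h2, sq _ (by
      linear_combination h - b ^ 3 * c * h2)⟩
  · exact .inr (.inl ⟨rfl, by linear_combination c * h2, sq _ (by
      linear_combination h - c ^ 3 * b * h2)⟩)
  · exact .inr (.inr ⟨by linear_combination c * h2, rfl, sq _ (by
      linear_combination h - c ^ 3 * a * h2)⟩)

theorem pat2 {m n x y : k} (h2 : (2 : k) = 0) (a : m * n = 1) (b : x * y = 1) (c : x = m ∨ x = n) :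
    (m * x + m * y + n * x + n * y = 0 → m = 1 ∧ n = 1) ∧
      ((x = m ∧ y = n) ∨ (m * x = 1 ∧ n * y = 1)) := by
  have sq : ∀ x : k, x ^ 2 = 0 → x = 0 := fun x hx => pow_eq_zero_iff two_ne_zero |>.1 hx
  have key : (m + n) ^ 2 = 0 → m = 1 ∧ n = 1 := fun e => by
    have e1 := sq _ e
    have e2 := sq (m - 1) (by linear_combination m * e1 - a + (1 - m) * h2 - h2)
    exact ⟨sub_eq_zero.1 e2, by linear_combination e1 - e2 - h2⟩
  rcases c with rfl | rfl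
  · obtain rfl : y = n := by linear_combination n * b - y * a
    exact ⟨fun e => key (by linear_combination e), .inl ⟨rfl, rfl⟩⟩
  · obtain rfl : y = m := by linear_combination m * b - y * a
    exact ⟨fun e => key (by linear_combination e), .inr ⟨a, b⟩⟩

theorem pat3 {d0 d1 d2 d3 e0 e1 e2 e3 : k} (h2 : (2 : k) = 0)
    (p1 : (d1 = d0 ∧ d3 = d2 ∧ d0 * d2 = 1) ∨ (d2 = d0 ∧ d3 = d1 ∧ d0 * d1 = 1) ∨
      (d3 = d0 ∧ d2 = d1 ∧ d0 * d1 = 1))
    (p2 : (e1 = e0 ∧ e3 = e2 ∧ e0 * e2 = 1) ∨ (e2 = e0 ∧ e3 = e1 ∧ e0 * e1 = 1) ∨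
      (e3 = e0 ∧ e2 = e1 ∧ e0 * e1 = 1))
    (p3 : d0 * e0 + d1 * e1 + d2 * e2 + d3 * e3 = 0) (p4 : e0 = d0 ∨ e0 = d1 ∨ e0 = d2 ∨ e0 = d3)
    (n1 : ¬ (d0 = 1 ∧ d1 = 1 ∧ d2 = 1 ∧ d3 = 1)) (n2 : ¬ (e0 = d0 ∧ e1 = d1 ∧ e2 = d2 ∧ e3 = d3))
    (n3 : ¬ (d0 * e0 = 1 ∧ d1 * e1 = 1 ∧ d2 * e2 = 1 ∧ d3 * e3 = 1)) : False := by
  rcases p1 with ⟨rfl, rfl, a⟩ | ⟨rfl, rfl, a⟩ | ⟨rfl, rfl, a⟩ <;>
  rcases p2 with ⟨rfl, rfl, b⟩ | ⟨rfl, rfl, b⟩ | ⟨rfl, rfl, b⟩ <;>
  obtain ⟨q1, q2⟩ := pat2 h2 a b (by rcases p4 with h | h | h | h <;> simp only [h, true_or, or_true]) <;>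
  first
    | exact n1 (by have := q1 (by linear_combination p3); simp only [this.1, this.2, and_self])
    | exact q2.elim (fun q => n2 (by simp only [q.1, q.2, and_self]))
        fun q => n3 (by simp only [q.1, q.2, and_self])

theorem not_c2 [IsAlgClosed k] (h : R4 2 ρ π) (hT : NoTv ρ) : ¬ C2 Γ := by
  rintro ⟨x, y, s, t, o, cj, cm, x1, yx, xy, s1, s2, sx, t1, t2, tx⟩
  obtain ⟨x, rfl⟩ := h.surj x
  obtain ⟨y, rfl⟩ := h.surj y
  obtain ⟨s, rfl⟩ := h.surj s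
  obtain ⟨t, rfl⟩ := h.surj t
  have i := h.inj_of_two rfl
  have h2 := h.two_eq rfl
  rw [orderOf_injective π i] at o
  obtain ⟨g, hg⟩ := isConj_iff.1 cj
  obtain ⟨g, rfl⟩ := h.surj g
  replace hg : g * x * g⁻¹ = y := i (by rw [map_mul, map_mul, map_inv, hg])
  have oc : ((orderOf x : ℕ) : k) ≠ 0 := h.cast_ne (by rwa [← even_iff_two_dvd, Nat.not_even_iff_odd])
  obtain ⟨B, hB⟩ := exists_diag ρ {x, y} (by
    have := (Commute.of_map i cm).eq
    rintro _ (rfl | rfl) _ (rfl | rfl) <;> simp [this]) (by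
    rintro _ (rfl | rfl)
    · exact ⟨_, oc, pow_orderOf_eq_one _⟩
    · exact ⟨_, oc, by rw [← hg, conj_pow, pow_orderOf_eq_one, mul_one, mul_inv_cancel]⟩)
  replace h := h.cb B
  rw [← noTv_cb B] at hT
  generalize cb ρ B = τ at h hB hT
  have c1 : Commute s x := Commute.of_map i sx
  have z1 := fun {z} => tr_zero h hT (s := s) (x := z) (fun e => s1 (by rw [e, map_one]))
    (i (by rw [map_mul, s2, map_one]))
  have z2 : tr τ (x * y) = 0 := tr_zero h hT (s := t) (fun e => t1 (by rw [e, map_one]))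
    (i (by rw [map_mul, t2, map_one])) (Commute.of_map i (by rwa [map_mul]))
  obtain ⟨d, hd⟩ := hB x (.inl rfl)
  obtain ⟨e, he⟩ := hB y (.inr rfl)
  obtain ⟨σ, -, hσ⟩ := exists_perm τ g⁻¹
  have p0 := hσ he hd (by rw [← hg]; group) 0
  have p1 := pat h2 ((diag_tr hd).symm.trans (z1 c1))
    ((diag_tr (diag_pow hd 3)).symm.trans (z1 (c1.pow_right 3))) (diag_det h hd)
  have p2 := pat h2 ((diag_tr he).symm.trans (by rw [← hg, tr_conj, z1 c1]))
    ((diag_tr (diag_pow he 3)).symm.trans (by rw [← hg, conj_pow, tr_conj, z1 (c1.pow_right 3)]))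
    (diag_det h he)
  have p3 := (diag_tr (diag_mul hd he)).symm.trans z2
  have n1 : ¬ (d 0 = 1 ∧ d 1 = 1 ∧ d 2 = 1 ∧ d 3 = 1) := fun ⟨a, b, c, f⟩ => x1 (by
    rw [h.eq_one (hd.trans ((diagonal_eq_diagonal_iff.2 fun i => by
      fin_cases i; exacts [a, b, c, f]).trans diagonal_one)), map_one])
  have n2 : ¬ (e 0 = d 0 ∧ e 1 = d 1 ∧ e 2 = d 2 ∧ e 3 = d 3) := fun ⟨a, b, c, f⟩ => yx (by
    rw [h.ext (he.trans ((diagonal_eq_diagonal_iff.2 fun i => by
      fin_cases i; exacts [a, b, c, f]).trans hd.symm))])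
  have n3 : ¬ (d 0 * e 0 = 1 ∧ d 1 * e 1 = 1 ∧ d 2 * e 2 = 1 ∧ d 3 * e 3 = 1) :=
    fun ⟨a, b, c, f⟩ => xy (by
      rw [← map_mul, h.eq_one ((diag_mul hd he).trans ((diagonal_eq_diagonal_iff.2 fun i => by
        fin_cases i; exacts [a, b, c, f]).trans diagonal_one)), map_one])
  have p4 : e 0 = d 0 ∨ e 0 = d 1 ∨ e 0 = d 2 ∨ e 0 = d 3 := by
    rw [← p0]; generalize σ 0 = j; fin_cases j <;> simp
  exact pat3 h2 p1 p2 p3 p4 n1 n2 n3

theorem perm_four : ∀ (σ : Equiv.Perm (Fin 4)) (i : Fin 4), σ i = i ∨ σ (σ i) = i ∨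
    σ (σ (σ (σ i))) = i ∨ ∃ l, σ l = l ∧ ∀ j, j = l ∨ j = i ∨ j = σ i ∨ j = σ (σ i) := by
  decide

theorem not_c73 [IsAlgClosed k] (h : R4 2 ρ π) (hT : NoTv ρ) : ¬ C73 Γ := by
  rintro ⟨g, x, s, g1, g7, e, s1, s2, sx⟩
  obtain ⟨g, rfl⟩ := h.surj g
  obtain ⟨x, rfl⟩ := h.surj x
  obtain ⟨s, rfl⟩ := h.surj s
  have i := h.inj_of_two rfl
  replace g7 : g ^ 7 = 1 := i (by rw [map_pow, g7, map_one])
  replace e : x * g = g ^ 2 * x := i (by
    rw [map_mul, map_mul, map_pow, ← e, inv_mul_cancel_right])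
  have z := tr_zero h hT (fun e => s1 (by rw [e, map_one])) (i (by rw [map_mul, s2, map_one]))
    (Commute.of_map i sx)
  obtain ⟨B, hB⟩ := exists_diag ρ {g} (by rintro _ rfl _ rfl; rfl)
    (by rintro _ rfl; exact ⟨7, h.cast_ne (by norm_num), g7⟩)
  obtain ⟨d, hd⟩ := hB g rfl
  obtain ⟨σ, h0, hσ⟩ := exists_perm (cb ρ B) x
  have p0 := hσ hd (diag_pow hd 2) e
  have d7 := diag_one hd g7
  have one : ∀ j, d j ^ 2 = d j → d j = 1 := fun j e => by
    have := d7 j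
    grind
  have up : ∀ j, d (σ j) = 1 → d j = 1 := fun j e => by rw [← p0, e, one_pow]
  suffices H : ∀ j, d j = 1 from g1 (by
    rw [(h.cb B).eq_one (hd.trans ((diagonal_eq_diagonal_iff.2 H).trans diagonal_one)), map_one])
  refine fun j => by_contra fun n => ?_
  have q7 := d7 j
  rcases perm_four σ j with c | c | c | ⟨l, hl, c⟩
  · exact n (one j (by simpa only [c] using p0 j))
  · have := p0 j
    rw [← p0 (σ j), c] at this
    grind
  · have := p0 j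
    rw [← p0 (σ j), ← p0 (σ (σ j)), ← p0 (σ (σ (σ j))), c] at this
    exact n (one j (by linear_combination this - d j ^ 2 * (d j ^ 7 + 1) * q7))
  have z0 : ∀ m, d m ≠ 1 → (cb ρ B x).val m m = 0 := fun m hm =>
    eq_zero_of_mul_diagonal (d := d) (e := fun i => d i ^ 2) (by
      rw [← hd, ← diag_pow hd, ← val_mul', e, val_mul']) fun e => hm (one m e.symm)
  rw [← tr_cb B, tr, trace, Finset.sum_eq_single l (fun m _ hm => ?_) (by simp)] at z
  · exact h0 l (by rwa [hl])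
  rcases c m with rfl | rfl | rfl | rfl
  · exact (hm rfl).elim
  · exact z0 _ n
  · exact z0 _ fun e => n (up _ e)
  · exact z0 _ fun e => n (up _ (up _ e))

theorem uni_eq {g : G4 k} (h : g ∈ H57.unitriGL 4 k) : g.val =
    !![1, g.val 0 1, g.val 0 2, g.val 0 3; 0, 1, g.val 1 2, g.val 1 3; 0, 0, 1, g.val 2 3;
      0, 0, 0, 1] := by
  obtain ⟨h1, h2⟩ := H57.mem_unitriGL.1 h
  ext i j
  fin_cases i <;> fin_cases j <;> first | rfl | exact h2 _ | exact h1 _ _ (by decide)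

theorem uni_comm {a b c : G4 k} (ha : a ∈ H57.unitriGL 4 k) (hb : b ∈ H57.unitriGL 4 k)
    (hc : c ∈ H57.unitriGL 4 k) (e : c * (b * a) = a * b) :
    (c.val 0 1 = 0 ∧ c.val 1 2 = 0 ∧ c.val 2 3 = 0) ∧
      (a.val 0 1 = 0 ∧ a.val 1 2 = 0 ∧ a.val 2 3 = 0 → c.val 0 2 = 0 ∧ c.val 1 3 = 0) := by
  have := congrArg Units.val e
  rw [Units.val_mul, Units.val_mul, Units.val_mul, uni_eq ha, uni_eq hb, uni_eq hc] at this
  have e01 := congrFun₂ this 0 1
  have e12 := congrFun₂ this 1 2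
  have e23 := congrFun₂ this 2 3
  have e02 := congrFun₂ this 0 2
  have e13 := congrFun₂ this 1 3
  simp [mul_apply, Fin.sum_univ_four] at e01 e12 e23 e02 e13
  grind

theorem class_two (h : R4 2 ρ π) (hT : NoTv ρ) (S : Subgroup Γ) (hS : IsPGroup 2 S) :
    ⁅(⊤ : Subgroup S), ⊤⁆ ≤ Subgroup.center S := by
  obtain ⟨B, hB⟩ := h.ut _ (h.isPGroup_comap hS)
  refine Subgroup.commutator_le.2 fun ⟨a, ha⟩ _ ⟨b, hb⟩ _ => Subgroup.mem_center_iff.2 fun ⟨c, hc⟩ =>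
    Subtype.ext ?_
  obtain ⟨a, rfl⟩ := h.surj a
  obtain ⟨b, rfl⟩ := h.surj b
  obtain ⟨c, rfl⟩ := h.surj c
  have m : ∀ {x y}, π x ∈ S → π y ∈ S → π ⁅x, y⁆ ∈ S := fun hx hy => by
    rw [map_commutatorElement, commutatorElement_def]
    exact mul_mem (mul_mem (mul_mem hx hy) (inv_mem hx)) (inv_mem hy)
  have k1 : ∀ {x y}, π x ∈ S → π y ∈ S → _ := fun {x y} hx hy =>
    uni_comm (hB x hx) (hB y hy) (hB _ (m hx hy)) (by
      change cb ρ B _ * (cb ρ B _ * cb ρ B _) = cb ρ B _ * cb ρ B _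
      rw [← map_mul, ← map_mul, ← map_mul, commutatorElement_def]
      congr 1; group)
  obtain ⟨⟨z1, z2, z3⟩, z4⟩ := k1 (m ha hb) hc
  obtain ⟨z4, z5⟩ := z4 (k1 ha hb).1
  have e := uni_eq (hB _ (m (m ha hb) hc))
  rw [z1, z2, z3, z4, z5] at e
  have one : ρ ⁅⁅a, b⁆, c⁆ = 1 := by_contra fun n => hT _ ((isTv_conj B).1 ⟨fun z => n (by
      rw [mul_assoc, inv_mul_eq_one] at z; exact mul_right_cancel (z.symm.trans (one_mul B).symm)),
    ![(B⁻¹ * ρ ⁅⁅a, b⁆, c⁆ * B).val 0 3, 0, 0, 0], ![0, 0, 0, 1], by simp, by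
      rw [e]; ext i j; fin_cases i <;> fin_cases j <;> simp [vecMulVec_apply]⟩)
  have := congrArg π (commutatorElement_eq_one_iff_mul_comm.1 (h.inj (one.trans (map_one ρ).symm)))
  rw [map_mul, map_mul, map_commutatorElement] at this
  exact this.symm

theorem jobWT : JobWT.{u, v} := fun _ _ _ _ _ _ _ _ _ _ _ h =>
  ⟨fun _ => not_w5 h, by
    rintro rfl hT
    exact ⟨not_c2 h hT, not_c73 h hT, fun S => class_two h hT _ S.2⟩⟩

end H13.L4W
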