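import Cfsg.Agent.H58.LDPL3
import Cfsg.Agent.H65.PhanWeak
import Cfsg.Agent.H57.SU3b

/-! Tower LD5, job PU3: `U₃(q)` has no five-dimensional module without elements of rank one. -/

set_option autoImplicit false

namespace H13.LD

open Matrix Cfsg H41.LD H58.LD H59 H65.Phan H19 Subgroup
open scoped MatrixGroups

universe u

section core

variable {K X : Type*} [Field K] [Group X]

/-- Only scalars commute with the image. -/
def Abs (ρ : X →* Mt 5 K) : Prop := ∀ P : Mt 5 K, (∀ g, ρ g * P = P * ρ g) → ∃ c : K, P = c • 1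

theorem Abs.sim {ρ ρ' : X →* Mt 5 K} (h : Abs ρ) (s : Sim ρ ρ') : Abs ρ' := fun P hP => by
  obtain ⟨B, B', e, hs⟩ := s
  have e' := mul_eq_one_comm.1 e
  obtain ⟨c, hc⟩ := h (B * P * B') fun g => by
    have := congrArg (fun M => B * M * B') (hP g)
    simp only [hs, ← mul_assoc, e, one_mul] at this
    rw [← mul_assoc, ← mul_assoc, this, mul_assoc _ B, e, mul_one]
  refine ⟨c, ?_⟩
  have := congrArg (fun M => B' * M * B) hc
  simp only [← mul_assoc, e', one_mul, mul_smul_comm, smul_mul_assoc, mul_one] at this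
  rwa [mul_assoc, e', mul_one] at this

theorem coreC [IsAlgClosed K] (ρ : X →* Mt 5 K) {S : Type*} (z : S → X) (x : X)
    (hz : ∀ s, ∃ m : ℕ, (m : K) ≠ 0 ∧ z s ^ m = 1) (hx : ∃ m : ℕ, (m : K) ≠ 0 ∧ x ^ m = 1)
    (hc : ∀ s t, z s * z t = z t * z s) (hxc : ∀ s, x * z s = z s * x)
    (τ : Fin 3 → X) (c : Fin 3 → S → S) (hτ : ∀ i s, τ i * z (c i s) = z s * τ i) {s : S} {y : X}
    (y1 : ∀ t, y * z t = z t * y) (y2 : y * (z s * x) = x * y)
    (hd : ∀ i j, i ≠ j → ∃ t, z (c i t) = z s * z (c j t)) : ρ (z s) = 1 := by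
  obtain ⟨ρ', d, hs, hd'⟩ := exists_diag ρ (fun o : Option S => o.elim x z) (fun i j => by
    cases i <;> cases j <;> simp only [Option.elim, hc, hxc]) fun i => by
      cases i
      · obtain ⟨m, h, e⟩ := hx
        exact ⟨m, h, by rw [Option.elim, e, map_one]⟩
      · obtain ⟨m, h, e⟩ := hz ‹_›
        exact ⟨m, h, by rw [Option.elim, e, map_one]⟩
  have dx : ρ' x = _ := hd' none
  have dz : ∀ t, ρ' (z t) = diagonal (d (some t)) := fun t => hd' (some t)
  refine hs.symm.eq_one ((diag_one (dz s)).2 fun k => by_contra fun hk => ?_)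
  obtain ⟨π, hπ⟩ := exists_perm ρ' y
  choose σ hσ using fun i => exists_perm ρ' (τ i)
  have p1 : ∀ t, d (some t) (π k) = d (some t) k := fun t =>
    hπ (dz t) (dz t) (congrArg ρ' (y1 t)) k
  have p2 : π k ≠ k := fun e => hk (by
    have := hπ (diag_mul (dz s) dx) dx (congrArg ρ' y2) k
    rw [e] at this
    exact mul_right_cancel₀ (diag_ne dx k) (this.symm.trans (one_mul _).symm))
  have p3 : ∀ i t (b : Bool), d (some t) (σ i (if b then π k else k)) = d (some (c i t)) k :=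
    fun i t b => by
      rw [hσ i (dz _) (dz t) (congrArg ρ' (hτ i t))]
      cases b
      exacts [rfl, p1 _]
  have inj : Function.Injective fun a : Fin 3 × Bool => σ a.1 (if a.2 then π k else k) := by
    rintro ⟨i, b⟩ ⟨j, b'⟩ e
    obtain rfl : i = j := by_contra fun hij => by
      obtain ⟨t, ht⟩ := hd i j hij
      have e1 := p3 i t b
      rw [show σ i _ = _ from e, p3] at e1
      have e2 := diagonal_eq_diagonal_iff.1
        ((dz _).symm.trans (ht ▸ diag_mul (dz s) (dz (c j t)))) k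
      exact hk (mul_right_cancel₀ (diag_ne (dz _) k) ((e1.trans e2).symm.trans (one_mul _).symm))
    have := (σ i).injective e
    cases b <;> cases b' <;> simp_all [p2.symm]
  simpa using Fintype.card_le_of_injective _ inj

end core

variable {K : Type*} [Field K] [IsAlgClosed K] {F : Type*} [Field F] [Fintype F] {q : ℕ}
  (hF : Fintype.card F = q ^ 2)

include hF in
theorem caseC (ρ : SU 3 F q →* Mt 5 K) (hρ : ∀ g, ρ g = 1 → g ∈ center (SU 3 F q))
    (hq : 4 ≤ q) (hK : (q : K) ≠ 0) : False := by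
  obtain ⟨e⟩ := H57.nonempty_SA hF
  let j : H57.BQ hF →* SU 3 F q := e.toMonoidHom.comp (H57.mB hF)
  have ji : Function.Injective j := e.injective.comp (H57.mB_inj hF)
  obtain ⟨f⟩ : Nonempty (Fin 4 ↪ {x : F // x ^ q = x}) := by
    classical
    exact Function.Embedding.nonempty_of_card_le (by
      rw [Fintype.card_fin, ← Nat.card_eq_fintype_card, card_fixed hF]; exact hq)
  have ff : ∀ i, frob hF (f i) = f i := fun i => (frob_apply hF _).trans (f i).2
  have fi : ∀ i k, (f i : F) = f k → i = k := fun i k h => f.injective (Subtype.ext h)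
  have : ∀ i : Fin 3, ∃ c : Fˣ, c * frob hF c = f i.succ - f 0 := fun i => by
    obtain ⟨x, hx⟩ := exists_norm_eq' (frob_ne_id hF) (frob_frob hF) (μ := f i.succ - f 0)
      (by rw [map_sub, ff, ff])
    refine ⟨Units.mk0 x fun h => Fin.succ_ne_zero i (fi _ _ ?_), by rw [← hx, mul_comm]; rfl⟩
    rw [h, mul_zero] at hx
    exact sub_eq_zero.1 hx.symm
  choose c hc using this
  obtain ⟨u, -, hu⟩ := exists_u hF
  obtain ⟨x, hx⟩ := H85.UQ.exists_a hF 1
  obtain ⟨y, hy⟩ := H85.UQ.exists_a hF u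
  have cen : ∀ (s : {v : H85.UQ hF // v.a = 0}) v, v * s.1 = s.1 * v := fun s =>
    mem_center_iff.1 ((H85.UQ.mem_center_iff _).2 s.2)
  have ord : ∀ v : H85.UQ hF, ∃ m : ℕ, (m : K) ≠ 0 ∧
      (SemidirectProduct.inl v : H57.BQ hF) ^ m = 1 := fun v =>
    ⟨q ^ 3, by rw [Nat.cast_pow]; exact pow_ne_zero _ hK, by
      rw [← map_pow, ← H85.UQ.card_eq hF, pow_card_eq_one', map_one]⟩
  let s : {v : H85.UQ hF // v.a = 0} := ⟨x * y * x⁻¹ * y⁻¹, H85.UQ.commutator_a x y⟩
  have sb : s.1.b ≠ 0 := by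
    rw [H85.UQ.commutator_b, hx, hy, map_one, one_mul, mul_one]; exact sub_ne_zero.2 hu
  have sf : s.1.b + frob hF s.1.b = 0 := by rw [s.1.h, s.2, zero_mul]
  have h1 := hρ _ (coreC (ρ.comp j) (fun s : {v : H85.UQ hF // v.a = 0} => .inl s.1) (.inl x)
    (fun s => ord _) (ord _) (fun s t => by rw [← map_mul, cen, map_mul])
    (fun s => by rw [← map_mul, cen, map_mul]) (fun i => (SemidirectProduct.inr (c i))⁻¹)
    (fun i s => ⟨H57.actB hF (c i) s.1, by rw [H57.actB_a, s.2, mul_zero]⟩)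
    (fun i s => by rw [← H57.conj_inl]; group) (s := s) (y := .inl y)
    (fun t => by rw [← map_mul, cen, map_mul])
    (by rw [← map_mul, ← map_mul, ← map_mul, ← mul_assoc, cen]; simp [s, mul_assoc])
    fun i k hik => ?_)
  · have h2 : ∀ i, (f (Fin.succ i) : F) - f 0 = 1 := fun i => by
      have h3 := mem_center_iff.1 h1 (j (.inr (c i)))
      rw [← map_mul, ← map_mul, ji.eq_iff, ← mul_inv_eq_iff_eq_mul, H57.conj_inl,
        SemidirectProduct.inl_injective.eq_iff] at h3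
      have h4 := congrArg H85.UQ.b h3
      rw [H57.actB_b, hc] at h4
      exact mul_right_cancel₀ sb (h4.trans (one_mul _).symm)
    exact absurd (fi _ _ (sub_left_injective ((h2 0).trans (h2 1).symm))) (by decide)
  have ne : (f i.succ : F) - f k.succ ≠ 0 :=
    sub_ne_zero.2 fun h => hik (Fin.succ_injective _ (fi _ _ h))
  refine ⟨⟨⟨0, s.1.b / (f i.succ - f k.succ), by
    rw [map_div₀, map_sub, ff, ff, ← add_div, sf, zero_div, zero_mul]⟩, rfl⟩, ?_⟩
  rw [← map_mul]
  refine congrArg _ (H85.UQ.ext (by simp [H85.UQ.mul_a, s.2]) ?_)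
  simp only [H85.UQ.mul_b, H57.actB_b, hc, s.2, zero_mul, add_zero]
  field_simp
  ring

include hF in
theorem caseB (ρ : SU 3 F q →* Mt 5 K) (hρ : ∀ g, ρ g = 1 ↔ g ∈ center (SU 3 F q))
    (h3 : 3 ∣ q + 1) (hK : (3 : K) ≠ 0) : False := by
  have : Fact (Nat.Prime 3) := ⟨Nat.prime_three⟩
  obtain ⟨⟨w, hn⟩, hw⟩ := exists_prime_orderOf_dvd_card' (G := normOne F q) 3 (card_normOne hF ▸ h3)
  rw [mem_normOne' hF] at hn
  rw [← orderOf_coe] at hw
  have w3 : (w : F) ^ 3 = 1 := by rw [← Units.val_pow_eq_pow_val, ← hw, pow_orderOf_eq_one]; rfl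
  have w1 : (w : F) ≠ 1 := fun k => by simp [Units.val_eq_one.1 k] at hw
  generalize (w : F) = w at hn w3 w1
  have hw' : w ^ 2 + w + 1 = 0 := mul_left_cancel₀ (sub_ne_zero.2 w1) (by linear_combination w3)
  have a : (3 : F) ≠ 0 := fun k => w1 (sub_eq_zero.1 (pow_eq_zero_iff two_ne_zero |>.1
    (by linear_combination hw' - w * k)))
  have fw : frob hF w = w ^ 2 := by linear_combination w ^ 2 * hn - frob hF w * w3
  have s0 := sub_ne hw' a
  have c1 : frob hF (w - w ^ 2)⁻¹ = -(w - w ^ 2)⁻¹ := by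
    rw [map_inv₀, map_sub, map_pow, fw, neg_inv]; congr 1; linear_combination -w * w3
  have c2 : 3 * (w - w ^ 2)⁻¹ ^ 2 = -1 := by
    rw [inv_pow, mul_inv_eq_iff_eq_mul₀ (pow_ne_zero _ s0)]
    linear_combination (w ^ 2 - 3 * w + 3) * hw'
  have m1 : hx hw' ∈ SU 3 F q := (mem_SU hF _).2 (by
    ext i j
    fin_cases i <;> fin_cases j <;> simp [hx, mul_apply, Fin.sum_univ_three, fw] <;> grind)
  have m2 : cy ∈ SU 3 F q := (mem_SU hF _).2 (by
    ext i j
    fin_cases i <;> fin_cases j <;> simp [cy, mul_apply, Fin.sum_univ_three])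
  refine hx_not_central hw' a m1 m2 ((hρ _).1 (hess_sub hw' a hK _ ρ (fun z => (hρ z).2) m1 m2
    ((mem_SU hF _).2 ?_) ((mem_SU hF _).2 ?_)))
  all_goals
    simp only [hf, hg]
    generalize (w - w ^ 2)⁻¹ = c at c1 c2
    ext i j
    fin_cases i <;> fin_cases j <;> simp [mul_apply, Fin.sum_univ_three, fw, c1] <;> grind

include hF in
theorem caseA (ρ : SU 3 F q →* Mt 5 K) (hρ : ∀ g, ρ g = 1 → g ∈ center (SU 3 F q)) (hA : Abs ρ)
    (hq : 3 ≤ q) (h3 : ¬ 3 ∣ q + 1) (hK : ((q + 1 : ℕ) : K) ≠ 0) : False := by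
  have hd : ∀ m : normOne F q × normOne F q, dg3 (m.1.1, m.2.1) ∈ SU 3 F q := fun m =>
    (mem_SU hF _).2 (by
      have h1 := (mem_normOne' hF).1 m.1.2
      have h2 := (mem_normOne' hF).1 m.2.2
      rw [dg3_val]
      ext i j
      fin_cases i <;> fin_cases j <;> simp [mul_apply, Fin.sum_univ_three, mul_comm, h1, h2] <;>
        grind)
  let t : normOne F q × normOne F q →* SU 3 F q :=
    (dg3.comp ((normOne F q).subtype.prodMap (normOne F q).subtype)).codRestrict _ hd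
  have tv : ∀ a b, mat (t (a, b)) = !![(a.1 : F), 0, 0; 0, b.1, 0; 0, 0, ((a.1 : F) * b.1)⁻¹] :=
    fun a b => dg3_val _ _
  have m2 : cy ∈ SU 3 F q := (mem_SU hF _).2 (by
    ext i j
    fin_cases i <;> fin_cases j <;> simp [cy, mul_apply, Fin.sum_univ_three])
  have m3 : tp ∈ SU 3 F q := (mem_SU hF _).2 (by
    ext i j
    fin_cases i <;> fin_cases j <;> simp [tp, mul_apply, Fin.sum_univ_three])
  have nc : ∀ b, t (b, b⁻¹) ∈ center (SU 3 F q) → b = 1 := fun b h => by
    obtain ⟨c, hc⟩ := (mem_center_SU_iff hF (by omega) _).1 h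
    have h0 := congrFun₂ ((tv _ _).symm.trans hc) 0 0
    have h2 := congrFun₂ ((tv _ _).symm.trans hc) 2 2
    simp at h0 h2
    exact Subtype.ext (Units.ext (h0.trans h2.symm))
  obtain ⟨u, hu, hu'⟩ := exists_u hF
  let a : normOne F q := ⟨Units.mk0 u (left_ne_zero_of_mul_eq_one hu),
    (mem_normOne' hF).2 ((mul_comm _ _).trans hu)⟩
  have a2 : a * a ≠ 1 := fun h => hu' (by
    have : u * u = 1 := congrArg (fun x : normOne F q => (x.1 : F)) h
    linear_combination u * hu - frob hF u * this)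
  have a1 : a ≠ 1 := fun h => a2 (by rw [h, mul_one])
  obtain ⟨ρ', r, hs, hr⟩ := wt3 ρ (by rwa [card_normOne hF]) (by
      rw [card_normOne hF]; exact ((Nat.Prime.coprime_iff_not_dvd Nat.prime_three).2 h3).symm) t
    (σ := ⟨cy, m2⟩) (τ := ⟨tp, m3⟩)
    (fun a b => mat_ext (by rw [mat_mul, mat_mul, tv, tv]; simp [mat, cy, mul_comm]))
    (fun a b => mat_ext (by rw [mat_mul, mat_mul, tv, tv]; simp [mat, tp, mul_comm]))
    ⟨_, fun h => a1 (nc a (hρ _ h))⟩
  have ri : ∀ b, b ≠ 1 → r b ≠ 1 := fun b hb h => hb (nc b (hρ _ (hs.symm.eq_one (by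
    rw [hr, map_inv, h, mul_inv_cancel, inv_one, inv_one, map_one, ← diagonal_one]
    exact congrArg _ (funext fun i => by fin_cases i <;> rfl)))))
  have r1 := ri a a1
  have r2 := ri _ (inv_ne_one.2 a2)
  let C : Subgroup (SU 3 F q) :=
    { carrier := {g | Commute (ρ' g) (diagonal ![0, 0, 0, 1, 1])}
      mul_mem' := fun h h' => by rw [Set.mem_setOf_eq, map_mul]; exact h.mul_left h'
      one_mem' := by rw [Set.mem_setOf_eq, map_one]; exact Commute.one_left _
      inv_mem' := fun {g} h => Commute.units_inv_left (u := ρ'.toHomUnits g) h }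
  have top : ⊤ ≤ C := by
    rw [← gen3 hF (by omega)]
    refine sup_le ?_ ?_ <;> rintro _ ⟨g, rfl⟩
    · refine comm_diag (hr a a) (congrArg ρ' (mat_ext ?_)) fun i j => ?_
      · rw [mat_mul, mat_mul, tv, mat_b0]; simp [mul_comm]
      · generalize r (a * a)⁻¹ = y at r2
        fin_cases i <;> fin_cases j <;> simp [r1, r2, r1.symm, r2.symm]
    · refine comm_diag (hr (a * a)⁻¹ a) (congrArg ρ' (mat_ext ?_)) fun i j => ?_
      · rw [mat_mul, mat_mul, tv, mat_b1]; simp [mul_comm]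
      · rw [show ((a * a)⁻¹ * a)⁻¹ = a by group]
        generalize r (a * a)⁻¹ = y at r2
        fin_cases i <;> fin_cases j <;> simp [r1, r2, r1.symm, r2.symm]
  obtain ⟨c, hc⟩ := hA.sim hs _ fun g => top (mem_top g)
  have h0 := congrFun₂ hc 0 0
  have h4 := congrFun₂ hc 4 4
  simp at h0 h4
  exact one_ne_zero (h4.trans h0.symm)

theorem jobPU3 : JobPU3.{u} := by
  intro F _ _ q p hp hF hq ho K _ _ _ ρ h
  let f : SU 3 F q →* PSU 3 F q := QuotientGroup.mk' _
  have hf : ∀ g, pull ρ f g = 1 ↔ g ∈ center (SU 3 F q) := fun g =>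
    (pull_one h f).trans (QuotientGroup.eq_one_iff _)
  by_cases h1 : p ∣ q + 1
  · refine caseC hF _ (fun g => (hf g).1) ?_ fun e => ?_
    · refine hq.lt_of_ne fun e => ?_
      subst e
      rcases ho with ho | ho
      · exact ho.1 (by decide) ((Nat.prime_dvd_prime_iff_eq hp Nat.prime_two).1
          (hp.dvd_of_dvd_pow (n := 2) h1))
      · omega
    · exact hp.one_lt.ne' (Nat.dvd_one.1 ((Nat.dvd_add_right
        ((CharP.cast_eq_zero_iff K p q).1 e)).1 h1))
  by_cases h3 : 3 ∣ q + 1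
  · exact caseB hF _ hf h3 fun e => h1 (((CharP.cast_eq_zero_iff K p 3).1
      (by exact_mod_cast e)).trans h3)
  refine caseA hF _ (fun g => (hf g).1) (fun P hP => ?_) hq h3
    fun e => h1 ((CharP.cast_eq_zero_iff K p _).1 e)
  refine exists_smul_of_commute_gspan h.span ?_
  rintro _ ⟨g, rfl⟩
  obtain ⟨g, rfl⟩ := QuotientGroup.mk'_surjective _ g
  exact (hP g).symm

end H13.LD
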