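import Cfsg.Agent.H13.LDW

/-! Tower LD5, job Sp4: `Sp₄(2ⁿ)` has no five-dimensional module without transvections. -/

set_option autoImplicit false

namespace H13.LD

open Module H22 H19 H41.LD Matrix Cfsg

universe u

section lin

variable {K V : Type*} [Field K] [AddCommGroup V] [Module K V] [FiniteDimensional K V]

theorem fix_le_one [IsAlgClosed K] [CharP K 2] (hV : finrank K V = 5) {G Y T T' : End K V}
    (hG : G ^ 3 = 1) (hG1 : G ≠ 1) (hY : (Y - 1) * (Y - 1) = 0) (hc : G * Y = Y * G)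
    (hT : T' * T = 1) (hr : G * T = T * G ^ 2) :
    finrank K (LinearMap.range (1 + G + G ^ 2)) ≤ 1 ∨ finrank K (LinearMap.range (Y - 1)) ≤ 1 := by
  obtain ⟨w, hw⟩ : ∃ w : K, w ^ 2 + w + 1 = 0 := by
    obtain ⟨w, hw⟩ := IsAlgClosed.exists_root (Polynomial.X ^ 2 + Polynomial.X + 1 : Polynomial K)
      (by rw [show Polynomial.degree _ = 2 by compute_degree!]; norm_num)
    exact ⟨w, by simpa using hw⟩
  have h2 : (2 : K) = 0 := CharP.cast_eq_zero K 2
  have h3 : ((3 : ℕ) : K) ≠ 0 := by
    rw [show ((3 : ℕ) : K) = 1 by push_cast; linear_combination h2]; exact one_ne_zero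
  have w1 : w ≠ 1 := fun e => h3 (by rw [e] at hw; push_cast; linear_combination hw)
  have w2 : w ^ 2 ≠ 1 := fun e => w1 (by linear_combination (w - 1) * hw - w * e)
  have w3 : w ≠ w ^ 2 := fun e => w2 (by linear_combination (w - 1) * hw + w * e)
  let f : Unit → End K V := fun _ => G
  let E : K → Submodule K V := fun c => wt f fun _ => c
  have mE : ∀ {c v}, v ∈ E c ↔ G v = c • v := ⟨fun h => h (), fun h _ => h⟩
  have inj : Function.Injective fun (i : Fin 3) (_ : Unit) => ![1, w, w ^ 2] i := fun i j e => by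
    have := congrFun e ()
    fin_cases i <;> fin_cases j <;> simp [w1, w2, w3, w1.symm, w2.symm, w3.symm] at this ⊢
  have ext : ∀ A B : End K V, (∀ v ∈ E 1, A v = B v) → (∀ v ∈ E w, A v = B v) →
      (∀ v ∈ E (w ^ 2), A v = B v) → A = B := fun A B a b c =>
    ext_of_wt f (fun _ _ => Commute.refl _) (fun _ => ⟨3, h3, hG⟩) A B fun χ v hv => by
      by_cases v0 : v = 0
      · rw [v0, map_zero, map_zero]
      have h := pow_eq_one_of (hv ()) v0 hG
      have : (χ () - 1) * ((χ () - w) * (χ () - w ^ 2)) = 0 := by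
        linear_combination h + (-χ () ^ 2 + w * χ () - w + 1) * hw
      simp only [mul_eq_zero, sub_eq_zero] at this
      rcases this with e | e | e
      exacts [a v (mE.2 (e ▸ hv ())), b v (mE.2 (e ▸ hv ())), c v (mE.2 (e ▸ hv ()))]
  have mv : ∀ c, finrank K (E c) ≤ finrank K (E (c ^ 2)) := fun c =>
    finrank_le_of_map hT fun v hv => mE.2 (by
      rw [← End.mul_apply, hr, End.mul_apply, pow_apply_of (mE.1 hv), map_smul])
  have m1 := mv w
  have m2 := mv (w ^ 2)
  rw [show (w ^ 2) ^ 2 = w by linear_combination (w ^ 2 - w) * hw] at m2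
  have s1 := sum_wt_le f inj (fun i => le_rfl) (W := ⊤) fun i => le_top
  rw [Fin.sum_univ_three, finrank_top, hV] at s1
  change finrank K (E 1) + finrank K (E w) + finrank K (E (w ^ 2)) ≤ 5 at s1
  by_cases k : 2 ≤ finrank K (E w)
  · left
    refine (Submodule.finrank_mono (?_ : _ ≤ E 1)).trans (by omega)
    rintro _ ⟨v, rfl⟩
    rw [mE, one_smul, ← End.mul_apply, show G * (1 + G + G ^ 2) = G ^ 3 + G + G ^ 2 by noncomm_ring,
      hG]
  right
  have cm : ∀ c, ∀ v ∈ E c, (Y - 1) v ∈ E c := fun c v hv => mE.2 (by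
    rw [← End.mul_apply, mul_sub, hc, mul_one, LinearMap.sub_apply, End.mul_apply, mE.1 hv,
      map_smul, LinearMap.sub_apply, smul_sub]; rfl)
  have kl : ∀ c, finrank K (E c) ≤ 1 → E c ≤ LinearMap.ker (Y - 1) := fun c h v hv => by
    by_cases v0 : v = 0
    · rw [v0]; exact zero_mem _
    obtain ⟨a, ha⟩ := exists_smul_of_le_one h hv v0 (cm c v hv)
    have := pow_apply_of ha 2
    rw [pow_two, hY, LinearMap.zero_apply, eq_comm, smul_eq_zero] at this
    rw [LinearMap.mem_ker, ha, pow_eq_zero_iff two_ne_zero |>.1 (this.resolve_right v0), zero_smul]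
  have k1 := kl w (by omega)
  have k2 := kl (w ^ 2) (by omega)
  have k0 : finrank K (E w) ≠ 0 := fun e => hG1 (ext G 1 (fun v hv => by rw [mE.1 hv, one_smul]; rfl)
    (fun v hv => by
      rw [Submodule.finrank_eq_zero.1 e, Submodule.mem_bot] at hv
      rw [hv, map_zero, map_zero])
    fun v hv => by
      rw [Submodule.finrank_eq_zero.1 (show finrank K (E (w ^ 2)) = 0 by omega),
        Submodule.mem_bot] at hv
      rw [hv, map_zero, map_zero])
  have gn : G * (Y - 1) = Y - 1 := ext _ _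
    (fun v hv => by rw [End.mul_apply, mE.1 (cm _ v hv), one_smul])
    (fun v hv => by rw [End.mul_apply, LinearMap.mem_ker.1 (k1 hv), map_zero])
    fun v hv => by rw [End.mul_apply, LinearMap.mem_ker.1 (k2 hv), map_zero]
  have s2 := sum_wt_le f inj (p := ![LinearMap.range (Y - 1), E w, E (w ^ 2)]) (fun i => by
    fin_cases i
    · rintro _ ⟨v, rfl⟩
      exact (mE (c := 1)).2 (by rw [← End.mul_apply, gn, one_smul])
    · exact le_rfl
    · exact le_rfl) (W := LinearMap.ker (Y - 1)) fun i => by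
      fin_cases i
      · rintro _ ⟨v, rfl⟩
        rw [LinearMap.mem_ker, ← End.mul_apply, hY]; rfl
      · exact k1
      · exact k2
  rw [Fin.sum_univ_three] at s2
  have : finrank K (LinearMap.range (Y - 1 : End K V)) + _ = _ :=
    LinearMap.finrank_range_add_finrank_ker (Y - 1 : End K V)
  change finrank K (LinearMap.range (Y - 1 : End K V)) + finrank K (E w) + finrank K (E (w ^ 2)) ≤
    finrank K (LinearMap.ker (Y - 1 : End K V)) at s2
  change finrank K (LinearMap.range (Y - 1 : End K V)) ≤ 1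
  omega

end lin

/-- A real element of order three centralised by an involution. -/
def Good3 {Γ : Type*} [Group Γ] (P : Γ → Prop) (g : Γ) : Prop :=
  g ^ 3 = 1 ∧ P g ∧ ∃ y t : Γ, y * y = 1 ∧ P y ∧ g * y = y * g ∧ g * t = t * g ^ 2

theorem core_sp {Γ X K : Type*} [Group Γ] [Group X] [Field K] [IsAlgClosed K] [CharP K 2]
    {ρ : Γ →* GL (Fin 5) K} (hρ : Rep ρ) (φ : X →* Γ) {P : X → Prop} (hP : ∀ g, P g → φ g ≠ 1)
    {c d : X} (hc : c * d = d * c) (h1 : Good3 P c) (h2 : Good3 P d) (h3 : Good3 P (c * d))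
    (h4 : Good3 P (c * d ^ 2)) : False := by
  have two : (2 : End K (Fin 5 → K)) = 0 := by
    rw [← map_ofNat (algebraMap K (End K (Fin 5 → K))) 2,
      show (OfNat.ofNat 2 : K) = 0 from CharP.cast_eq_zero K 2, map_zero]
  have ne : ∀ g, P g → ρ (φ g) ≠ 1 := fun g hg e => hP g hg (hρ.inj (e.trans (map_one ρ).symm))
  let R := (RR ρ).comp φ
  have key : ∀ g, Good3 P g → finrank K (LinearMap.range (1 + R g + R (g ^ 2))) ≤ 1 := by
    rintro g ⟨g3, g1, y, t, y2, y1, gy, gt⟩
    have hY : (R y - 1) * (R y - 1) = 0 := by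
      rw [show (R y - 1) * (R y - 1) = R y * R y + 1 - 2 * R y by
          simp only [sub_mul, mul_sub, mul_one, one_mul, two_mul]; abel, ← map_mul, y2,
        map_one, one_add_one_eq_two, two, zero_mul, sub_zero]
    rw [map_pow]
    refine (fix_le_one (by simp) (G := R g) (T := R t) (T' := R t⁻¹)
      (by rw [← map_pow, g3, map_one]) (fun e => ne g g1 (RR_eq_one e)) hY
      (by rw [← map_mul, gy, map_mul]) (by rw [← map_mul, inv_mul_cancel, map_one])
      (by rw [← map_mul, gt, map_mul, map_pow])).resolve_right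
      fun h => ne y y1 (eq_one_of_noTv hρ.tv hY h)
  have k1 := key _ h1
  have k2 := key _ h2
  have k3 := key _ h3
  have k4 := key _ h4
  have e3 : (c * d) ^ 2 = c ^ 2 * d ^ 2 := Commute.mul_pow hc 2
  have e4 : (c * d ^ 2) ^ 2 = c ^ 2 * d := by
    rw [Commute.mul_pow (Commute.pow_right hc 2), ← pow_mul, pow_succ d 3, h2.1, one_mul]
  rw [e3] at k3
  rw [e4] at k4
  rw [map_pow] at k1 k2
  rw [map_mul, map_mul, map_pow, map_pow] at k3 k4
  generalize R c = x at k1 k2 k3 k4
  generalize R d = y at k1 k2 k3 k4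
  have id : (1 + x + x ^ 2) * (1 - (1 + y + y ^ 2)) + (1 + y + y ^ 2) + (1 + x * y + x ^ 2 * y ^ 2) +
      (1 + x * y ^ 2 + x ^ 2 * y) = 1 + 2 := by
    simp only [← one_add_one_eq_two, mul_sub, mul_add, add_mul, mul_one, one_mul]; abel
  rw [two, add_zero] at id
  have top : ⊤ ≤ LinearMap.range (1 + x + x ^ 2) ⊔ LinearMap.range (1 + y + y ^ 2) ⊔
      LinearMap.range (1 + x * y + x ^ 2 * y ^ 2) ⊔ LinearMap.range (1 + x * y ^ 2 + x ^ 2 * y) :=
    fun v _ => by
      have := LinearMap.congr_fun id v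
      rw [LinearMap.add_apply, LinearMap.add_apply, LinearMap.add_apply, End.mul_apply,
        End.one_apply] at this
      rw [← this]
      exact Submodule.add_mem_sup (Submodule.add_mem_sup (Submodule.add_mem_sup
        (LinearMap.mem_range_self _ _) (LinearMap.mem_range_self _ _))
        (LinearMap.mem_range_self _ _)) (LinearMap.mem_range_self _ _)
  have := ((Submodule.finrank_mono top).trans (finrank_sup_le _ _)).trans
    (add_le_add ((finrank_sup_le _ _).trans (add_le_add ((finrank_sup_le _ _).trans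
      (add_le_add k1 k2)) k3)) k4)
  simp at this

/-- `Sp₄(2)`. -/
abbrev S42 : Type := symplecticGroup (Fin 2) (ZMod 2)

/-- An element of `Sp₄(2)` from its four blocks. -/
def mkS (A B C D : Matrix (Fin 2) (Fin 2) (ZMod 2))
    (h : fromBlocks A B C D * J (Fin 2) (ZMod 2) * (fromBlocks A B C D)ᵀ = J (Fin 2) (ZMod 2)) :
    S42 := ⟨fromBlocks A B C D, SymplecticGroup.mem_iff.2 h⟩

/-- order three on the first plane -/
def c1 : S42 := mkS !![0, 0; 0, 1] !![1, 0; 0, 0] !![1, 0; 0, 0] !![1, 0; 0, 1] (by decide)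
/-- order three on the second plane -/
def c2 : S42 := mkS !![1, 0; 0, 0] !![0, 0; 0, 1] !![0, 0; 0, 1] !![1, 0; 0, 1] (by decide)
/-- a transvection on the first plane -/
def t1 : S42 := mkS !![0, 0; 0, 1] !![1, 0; 0, 0] !![1, 0; 0, 0] !![0, 0; 0, 1] (by decide)
/-- a transvection on the second plane -/
def t2 : S42 := mkS !![1, 0; 0, 0] !![0, 0; 0, 1] !![0, 0; 0, 1] !![1, 0; 0, 0] (by decide)
/-- the exchange of the planes -/
def s0 : S42 := mkS !![0, 1; 1, 0] 0 0 !![0, 1; 1, 0] (by decide)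

/-- Change of the field. -/
def spMap (F : Type*) [Field F] [CharP F 2] : S42 →* symplecticGroup (Fin 2) F where
  toFun g := ⟨g.1.map (ZMod.castHom dvd_rfl F), SymplecticGroup.map_mem g.2 _⟩
  map_one' := Subtype.ext (Matrix.map_one _ (map_zero _) (map_one _))
  map_mul' _ _ := Subtype.ext Matrix.map_mul

theorem spMap_inj (F : Type*) [Field F] [CharP F 2] : Function.Injective (spMap F) :=
  fun _ _ e => Subtype.ext (Matrix.map_injective (ZMod.castHom dvd_rfl F).injective
    (congrArg Subtype.val e))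

theorem jobSp4 : JobSp4.{u} := by
  intro F _ _ _ _ K _ _ _ ρ hρ
  refine core_sp hρ ((QuotientGroup.mk' _).comp (spMap F)) (P := fun g => ∃ h, h * g ≠ g * h)
    (fun g ⟨h, hh⟩ e => hh (spMap_inj F ?_)) (c := c1) (d := c2) (by decide)
    ⟨by decide, ⟨t1, by decide⟩, t2, t1, by decide, ⟨c2, by decide⟩, by decide, by decide⟩
    ⟨by decide, ⟨t2, by decide⟩, t1, t2, by decide, ⟨c1, by decide⟩, by decide, by decide⟩
    ⟨by decide, ⟨t1, by decide⟩, s0, t1 * t2, by decide, ⟨c1, by decide⟩, by decide, by decide⟩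
    ⟨by decide, ⟨t1, by decide⟩, t2 * s0 * t2, t1 * t2, by decide, ⟨c1, by decide⟩, by decide,
      by decide⟩
  rw [map_mul, map_mul]
  exact Subgroup.mem_center_iff.1 ((QuotientGroup.eq_one_iff _).1 e) _

end H13.LD
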