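import Cfsg.Agent.H54.T5Base

/-! Tower LD5, job TE: the exception `SL₂(5) ≤ SL₂(9)` does not occur. -/

set_option autoImplicit false

open Matrix Cfsg H19 H41.LD H54.T5

namespace H13.TE

universe u

variable {F : Type u} [Field F]

theorem five {i c : F} (hi : i ^ 2 = -1) (h : c ^ 5 = c) :
    c = 0 ∨ c = 1 ∨ c = -1 ∨ c = i ∨ c = -i := by
  have : c * ((c - 1) * ((c + 1) * ((c - i) * (c + i)))) = 0 := by
    linear_combination h - c * (c ^ 2 - 1) * hi
  simpa only [mul_eq_zero, sub_eq_zero, add_eq_zero_iff_eq_neg] using this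

theorem disc [CharP F 3] {i a b c : F} (hi : i ^ 2 = -1) (h1 : a ^ 5 = a)
    (h2 : c ^ 5 = c) (h3 : (a - i * c + b) ^ 5 = a - i * c + b)
    (h4 : (a - i * c - b) ^ 5 = a - i * c - b) (h5 : (c - i * a - b) ^ 5 = c - i * a - b)
    (h6 : (-(i * a) - (1 + i) * b - i * c) ^ 5 = -(i * a) - (1 + i) * b - i * c) :
    b ^ 2 + i * a * c = 0 := by
  obtain ⟨d, rfl⟩ : ∃ d, b = d - a + i * c := ⟨a - i * c + b, by ring⟩
  rw [show a - i * c + (d - a + i * c) = d by ring] at h3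
  rcases five hi h1 with rfl | rfl | rfl | rfl | rfl <;>
  rcases five hi h2 with rfl | rfl | rfl | rfl | rfl <;>
  rcases five hi h3 with rfl | rfl | rfl | rfl | rfl <;> grind

theorem five_cancel {i c : F} (hi : i ^ 2 = -1) (h : (i * c) ^ 5 = i * c) : c ^ 5 = c := by
  linear_combination -i * h + (c ^ 5 * (i ^ 4 - i ^ 2 + 1) - c) * hi

/-- The exceptional pair and the complementary parts of a third transvection. -/
structure St (P : Subgroup (GL (Fin 5) F)) (k : Subfield F) (i : F) (u w φ ψ f χ : Fin 5 → F) :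
    Prop where
  ts : TS P k
  ik : i ∉ k
  g5 : ∀ x y, Tv P x → Tv P y → cc x y ^ 5 = cc x y
  hi : i ^ 2 = -1
  h1 : TV P u φ
  h2 : TV P w ψ
  e1 : φ ⬝ᵥ w = i
  e2 : ψ ⬝ᵥ u = 1
  f1 : φ ⬝ᵥ f = 0
  f2 : ψ ⬝ᵥ f = 0
  c1 : χ ⬝ᵥ u = 0
  c2 : χ ⬝ᵥ w = 0

/-- A transvection in coordinates. -/
def E (P : Subgroup (GL (Fin 5) F)) (u w φ ψ f χ : Fin 5 → F) (p q a b : F) : Prop :=
  TV P (p • u + q • w + f) (a • ψ + b • φ + χ)

variable {P : Subgroup (GL (Fin 5) F)} {k : Subfield F} {i p q a b : F} {u w φ ψ f χ : Fin 5 → F}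

namespace St

theorem z1 (s : St P k i u w φ ψ f χ) : φ ⬝ᵥ u = 0 := s.h1.1

theorem z2 (s : St P k i u w φ ψ f χ) : ψ ⬝ᵥ w = 0 := s.h2.1

theorem i0 (s : St P k i u w φ ψ f χ) : i ≠ 0 := fun e => s.ik (e ▸ zero_mem k)

theorem mv1 (s : St P k i u w φ ψ f χ) (h : E P u w φ ψ f χ p q a b) :
    E P u w φ ψ f χ (p + i * q) q a (b - a) := by
  have := (tb P).conj s.h1 h
  simp only [dotProduct_add, add_dotProduct, dotProduct_smul, smul_dotProduct, s.z1, s.e1, s.e2,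
    s.f1, s.c1] at this
  unfold E
  convert this using 1 <;> module

theorem mv2 (s : St P k i u w φ ψ f χ) (h : E P u w φ ψ f χ p q a b) :
    E P u w φ ψ f χ p (q + p) (a - i * b) b := by
  have := (tb P).conj s.h2 h
  simp only [dotProduct_add, add_dotProduct, dotProduct_smul, smul_dotProduct, s.z2, s.e1, s.e2,
    s.f2, s.c2] at this
  unfold E
  convert this using 1 <;> module

theorem g1 (s : St P k i u w φ ψ f χ) (h : E P u w φ ψ f χ p q a b) : (q * a) ^ 5 = q * a := by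
  have := s.g5 _ _ s.h1 h
  simp only [cc, dotProduct_add, add_dotProduct, dotProduct_smul, smul_dotProduct, s.z1, s.e1, s.e2,
    s.f1, s.c1] at this
  exact five_cancel s.hi (by convert this using 1 <;> simp <;> ring)

theorem g2 (s : St P k i u w φ ψ f χ) (h : E P u w φ ψ f χ p q a b) : (p * b) ^ 5 = p * b := by
  have := s.g5 _ _ s.h2 h
  simp only [cc, dotProduct_add, add_dotProduct, dotProduct_smul, smul_dotProduct, s.z2, s.e1, s.e2,
    s.f2, s.c2] at this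
  exact five_cancel s.hi (by convert this using 1 <;> simp <;> ring)

theorem noC (s : St P k i u w φ ψ f χ) {g η : Fin 5 → F} (h : TV P g η) (g0 : g ≠ 0)
    (g1 : φ ⬝ᵥ g = 0) (g2 : ψ ⬝ᵥ g = 0) : η ⬝ᵥ u = 0 ∧ η ⬝ᵥ w = 0 := by
  have key : ∀ c : F, TV P g (c • φ) → c = 0 := fun c hc => by_contra fun c0 => by
    have h1 := (tb P).commR s.h1 ((tb P).commR s.h2 hc g2) g1
    simp only [smul_dotProduct, s.e1, s.e2, smul_eq_mul, mul_one] at h1
    refine s.ik ((s.ts _ hc g0 (smul_ne_zero c0 (left_ne (s.e1 ▸ s.i0))) i).1 ?_)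
    exact ((tb P).smul_iff i).2 (by rwa [smul_smul, mul_comm])
  refine ⟨key _ ((tb P).commR s.h1 h g1), key _ ?_⟩
  simpa [s.e2] using (tb P).commR s.h1 ((tb P).commR s.h2 h g2) g1

variable [CharP F 3]

theorem flip (s : St P k i u w φ ψ f χ) (h : E P u w φ ψ f χ p q a b) :
    E P u w φ ψ f χ (-p) (-q) (-a) (-b) := by
  have hi := s.hi
  convert s.mv1 (s.mv2 (s.mv1 (s.mv2 (s.mv1 (s.mv2 (s.mv1 (s.mv2 (s.mv1 (s.mv2 h))))))))) using 1 <;>
    grind

theorem x0 (s : St P k i u w φ ψ f χ) (h : E P u w φ ψ f χ p q a b) : a * p + i * b * q = 0 := by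
  have hi := s.hi
  have h3 := s.g1 (s.mv2 h)
  have h4 := s.g1 (s.mv2 (s.mv2 h))
  have h5 := s.g2 (s.mv1 h)
  have h6 := s.g2 (s.mv1 (s.mv2 h))
  have := disc (b := p * a - i * (q * b)) hi (s.g1 h) (s.g2 h)
    (by convert h3 using 2 <;> grind) (by convert h4 using 2 <;> grind)
    (by convert h5 using 2 <;> grind) (by convert h6 using 2 <;> grind)
  exact pow_eq_zero_iff two_ne_zero |>.1 (by grind)

theorem cf (s : St P k i u w φ ψ f χ) (h : E P u w φ ψ f χ p q a b) : χ ⬝ᵥ f = 0 := by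
  have h1 := (tb P).orth h
  simp only [dotProduct_add, add_dotProduct, dotProduct_smul, smul_dotProduct, s.z1, s.z2, s.e1,
    s.e2, s.f1, s.f2, s.c1, s.c2, smul_eq_mul] at h1
  linear_combination h1 - s.x0 h

theorem heis (s : St P k i u w φ ψ f χ) (h : E P u w φ ψ f χ p q a b) :
    In P (1 + N ((2 : F) • (p • u + q • w), χ) + N (f, (2 : F) • (a • ψ + b • φ)) +
      (0 : F) • N (f, χ)) := by
  have x := s.x0 h
  have y := s.cf h
  convert In.mul h.2 ((tb P).neg (s.flip h)).2 using 1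
  rw [mul_add, add_mul, add_mul, N_mk_mul]
  simp only [dotProduct_neg, dotProduct_add, add_dotProduct, dotProduct_smul, smul_dotProduct, s.z1,
    s.z2, s.e1, s.e2, s.f1, s.f2, s.c1, s.c2, smul_eq_mul, y]
  rw [show -(-p * (a * 1 + b * 0 + 0) + -q * (a * 0 + b * i + 0) + (a * 0 + b * 0 + 0)) = 0 by
    linear_combination x]
  simp only [N_add_left, N_add_right, N_smul_left, N_smul_right, N_neg_left, mul_one, one_mul]
  module

theorem comm (s : St P k i u w φ ψ f χ) (h : E P u w φ ψ f χ p q a b) {p' q' a' b' : F}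
    (h' : E P u w φ ψ f χ p' q' a' b') :
    TV P f ((4 * (a * p' + i * b * q' - a' * p - i * b' * q)) • χ) := by
  convert hc (s.heis h) (s.heis h') (by simp [s.c1, s.c2]) (by simp [s.c1, s.c2]) (s.cf h)
    (by simp [s.f1, s.f2]) (by simp [s.f1, s.f2]) using 3
  simp only [dotProduct_add, add_dotProduct, dotProduct_smul, smul_dotProduct, s.z1, s.z2, s.e1,
    s.e2, smul_eq_mul]
  ring

theorem gen (s : St P k i u w φ ψ f χ) (h : E P u w φ ψ f χ p q a b) (f0 : f ≠ 0) (c0 : χ ≠ 0) :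
    b * q = 0 := by
  by_contra n
  have x := s.x0 h
  have hi := s.hi
  have h1 := s.comm h (s.mv1 h)
  have h2 := s.comm h (s.mv2 h)
  have h3 := (tb P).subR ((tb P).subR (s.comm h (s.mv1 (s.mv2 h))) h1) h2
  rw [← sub_smul, ← sub_smul, show _ - _ - _ = -(b * q) by grind] at h3
  have key : ∀ c : F, TV P f (c • χ) → c / -(b * q) ∈ k := fun c hc =>
    (s.ts _ h3 f0 (smul_ne_zero (neg_ne_zero.2 n) c0) _).1 (((tb P).smul_iff _).2 (by
      rwa [smul_smul, div_mul_cancel₀ _ (neg_ne_zero.2 n)]))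
  refine s.ik ?_
  convert mul_mem (key _ h1) (key _ h2) using 1
  rw [div_mul_div_comm, eq_div_iff (mul_ne_zero (neg_ne_zero.2 n) (neg_ne_zero.2 n))]
  grind

theorem zero (s : St P k i u w φ ψ f χ) (h : E P u w φ ψ f χ p q a b) (f0 : f ≠ 0) :
    a = 0 ∧ b = 0 := by
  have two : (2 : F) ≠ 0 := by grind
  have fin : ∀ {c : F}, c ≠ 0 → TV P (c • f) (a • ψ + b • φ + χ) → a = 0 ∧ b = 0 := fun c0 h => by
    simpa [s.z1, s.z2, s.e1, s.e2, s.c1, s.c2, s.i0] using
      s.noC h (smul_ne_zero c0 f0) (by simp [s.f1]) (by simp [s.f2])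
  by_cases c0 : χ = 0
  · refine fin two ?_
    have := (tb P).negR (s.flip h)
    subst c0
    rw [show -(-a • ψ + -b • φ + 0) = a • ψ + b • φ + 0 by module] at this
    convert (tb P).addL h this using 1
    module
  have n0 := s.gen h f0 c0
  have n1 := s.gen (s.mv1 h) f0 c0
  have n2 := s.gen (s.mv2 h) f0 c0
  have x := s.x0 h
  by_contra hab
  have : p = 0 ∧ q = 0 := by grind
  exact hab (fin one_ne_zero (by simpa [E, this.1, this.2] using h))

end St

theorem jobTE : JobTE.{u} := by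
  intro F _ _ P k hP hS h3 hk x y hx hy hi
  have : CharP F 3 := CharP.ringChar_of_prime_eq_zero Nat.prime_three (by exact_mod_cast h3) ▸
    ringChar.charP F
  have ne : cc x y ≠ 0 := fun e => by rw [e] at hi; simp at hi
  have a1 := left_ne_zero_of_mul ne
  have a2 := right_ne_zero_of_mul ne
  have h2 := (tb P).rescale (u := y.1) (φ := y.2) hy a2
  obtain ⟨v, η, h, hv, z, hz, e⟩ := out_tv hP hx (right_ne a2) (left_ne a1)
    (Submodule.span F (Set.range ![x.1, (y.2 ⬝ᵥ x.1) • y.1])) (fun e => right_ne a2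
      ((Submodule.eq_bot_iff _).1 e _ (Submodule.subset_span ⟨0, rfl⟩))) (span_ne_top (by norm_num) _)
  have e1 : x.2 ⬝ᵥ (y.2 ⬝ᵥ x.1) • y.1 = cc x y := by rw [dotProduct_smul, smul_eq_mul, mul_comm, cc]
  have e2 : ((y.2 ⬝ᵥ x.1)⁻¹ • y.2) ⬝ᵥ x.1 = 1 := by
    rw [smul_dotProduct, smul_eq_mul, inv_mul_cancel₀ a2]
  have z1 : x.2 ⬝ᵥ x.1 = 0 := hx.1
  have z2 := (tb P).orth h2
  replace hx : TV P x.1 x.2 := hx
  generalize (y.2 ⬝ᵥ x.1)⁻¹ • y.2 = ψ at h2 e2 z2
  generalize (y.2 ⬝ᵥ x.1) • y.1 = w at h2 e1 z2 hv hz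
  generalize cc x y = i at hi ne e1
  generalize x.1 = u at hx e2 z1 hv hz
  generalize x.2 = φ at hx e1 z1
  have s : St P k i u w φ ψ (v - (ψ ⬝ᵥ v) • u - (φ ⬝ᵥ v / i) • w)
      (η - (η ⬝ᵥ u) • ψ - (η ⬝ᵥ w / i) • φ) :=
    { ts := hS
      ik := fun h => ne (by linear_combination hk i h - i * hi + i * h3)
      g5 := fun x y hx hy => by
        by_cases a1 : x.2 ⬝ᵥ y.1 = 0
        · simp [cc, a1]
        by_cases a2 : y.2 ⬝ᵥ x.1 = 0
        · simp [cc, a2]
        obtain ⟨K, k1, -, k3⟩ := pair (by norm_num) hx hy a1 a2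
        rcases k3 with h | ⟨-, -, h⟩ | h
        · have := hk _ ((hS x hx (right_ne a2) (left_ne a1) _).1 ((k1 _).1 h))
          unfold cc
          linear_combination ((x.2 ⬝ᵥ y.1 * y.2 ⬝ᵥ x.1) ^ 2 + 1) * this
        · unfold cc
          linear_combination (x.2 ⬝ᵥ y.1 * y.2 ⬝ᵥ x.1) * ((x.2 ⬝ᵥ y.1 * y.2 ⬝ᵥ x.1) ^ 2 - 1) * h
        · exact absurd (by linear_combination h3 - h.1) (one_ne_zero (α := F))
      hi := hi
      h1 := hx
      h2 := h2
      e1 := e1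
      e2 := e2
      f1 := by simp [z1, e1, ne]
      f2 := by simp [z2, e2]
      c1 := by simp [z1, e2]
      c2 := by simp [z2, e1, ne] }
  have := s.zero (p := ψ ⬝ᵥ v) (q := φ ⬝ᵥ v / i) (a := η ⬝ᵥ u) (b := η ⬝ᵥ w / i)
    (by unfold E; convert h using 1 <;> module) fun e => hv (by
      rw [sub_sub, sub_eq_zero] at e
      rw [e]
      exact add_mem (Submodule.smul_mem _ _ (Submodule.subset_span ⟨0, rfl⟩))
        (Submodule.smul_mem _ _ (Submodule.subset_span ⟨1, rfl⟩)))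
  refine e (dot_span ?_ hz)
  rintro _ ⟨j, rfl⟩
  fin_cases j
  · exact this.1
  · exact (div_eq_zero_iff.1 this.2).resolve_right ne

end H13.TE
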