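import Cfsg.Agent.H41.LDKit
import Cfsg.Agent.H22.Weights

/-! Tower LD5: dimension counts for weight spaces. -/

set_option autoImplicit false

namespace H13.LD

open Module H22 H19 H41.LD Matrix

section lin

variable {K V : Type*} [Field K] [AddCommGroup V] [Module K V] [FiniteDimensional K V]

theorem sum_le_of_indep {ι : Type*} [Fintype ι] {p : ι → Submodule K V} (h : iSupIndep p)
    {W : Submodule K V} (hW : ∀ i, p i ≤ W) : ∑ i, finrank K (p i) ≤ finrank K W := by
  classical
  have h1 := LinearMap.finrank_range_of_inj h.dfinsupp_lsum_injective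
  rw [← Submodule.iSup_eq_range_dfinsupp_lsum] at h1
  have h2 : finrank K (Π₀ i, p i) = ∑ i, finrank K (p i) := finrank_directSum K fun i => p i
  rw [← h2, ← h1]
  exact Submodule.finrank_mono (iSup_le hW)

theorem sum_wt_le {S ι : Type*} [Fintype ι] (f : S → End K V) {χ : ι → S → K}
    (hχ : Function.Injective χ) {p : ι → Submodule K V} (hp : ∀ i, p i ≤ wt f (χ i))
    {W : Submodule K V} (hW : ∀ i, p i ≤ W) : ∑ i, finrank K (p i) ≤ finrank K W :=
  sum_le_of_indep (((iSupIndep_wt f).comp hχ).mono hp) hW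

theorem finrank_le_of_map {W W' : Submodule K V} {g g' : End K V} (h : g' * g = 1)
    (hW : ∀ v ∈ W, g v ∈ W') : finrank K W ≤ finrank K W' :=
  LinearMap.finrank_le_finrank_of_injective (f := g.restrict hW) fun a b e => Subtype.ext (by
    have e1 : g a = g b := congrArg Subtype.val e
    have : ∀ v, g' (g v) = v := fun v => by rw [← End.mul_apply, h]; rfl
    rw [← this a, e1, this])

theorem exists_smul_of_le_one {W : Submodule K V} (h : finrank K W ≤ 1) {v w : V} (hv : v ∈ W)
    (v0 : v ≠ 0) (hw : w ∈ W) : ∃ c : K, w = c • v := by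
  obtain ⟨u, hu⟩ := finrank_le_one_iff.1 h
  obtain ⟨a, ha⟩ := hu ⟨v, hv⟩
  obtain ⟨b, hb⟩ := hu ⟨w, hw⟩
  have e1 : a • (u : V) = v := congrArg Subtype.val ha
  have e2 : b • (u : V) = w := congrArg Subtype.val hb
  have a0 : a ≠ 0 := fun e => v0 (by rw [← e1, e, zero_smul])
  exact ⟨b * a⁻¹, by rw [← e1, smul_smul, mul_assoc, inv_mul_cancel₀ a0, mul_one, e2]⟩

theorem exists_ne_zero_of_pos {W : Submodule K V} (h : finrank K W ≠ 0) : ∃ v ∈ W, v ≠ 0 :=
  Submodule.exists_mem_ne_zero_of_ne_bot fun e => h (by rw [e, finrank_bot])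

theorem finrank_ne_zero {W : Submodule K V} {v : V} (hv : v ∈ W) (v0 : v ≠ 0) :
    finrank K W ≠ 0 := fun e => v0 (by
  rw [Submodule.finrank_eq_zero] at e
  rwa [e, Submodule.mem_bot] at hv)

theorem pow_apply_of {g : End K V} {v : V} {c : K} (h : g v = c • v) (k : ℕ) :
    (g ^ k) v = c ^ k • v := by
  induction k with
  | zero => simp
  | succ k ih => rw [pow_succ, End.mul_apply, h, map_smul, ih, smul_smul, pow_succ']

theorem pow_eq_one_of {g : End K V} {v : V} {c : K} (h : g v = c • v) (v0 : v ≠ 0) {k : ℕ}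
    (hk : g ^ k = 1) : c ^ k = 1 :=
  smul_left_injective K v0 (by
    change c ^ k • v = (1 : K) • v
    rw [← pow_apply_of h, hk, one_smul]; rfl)

theorem finrank_sup_le (A B : Submodule K V) :
    finrank K ↥(A ⊔ B) ≤ finrank K A + finrank K B :=
  Submodule.finrank_add_le_finrank_add_finrank A B

end lin

section mat

variable {Γ K : Type*} [Group Γ] [Field K] {n : ℕ}

/-- The representation on column vectors. -/
noncomputable def RR (ρ : Γ →* GL (Fin n) K) : Γ →* End K (Fin n → K) :=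
  (Matrix.toLinAlgEquiv' (n := Fin n) (R := K)).toMulEquiv.toMonoidHom.comp
    ((Units.coeHom _).comp ρ)

theorem RR_apply (ρ : Γ →* GL (Fin n) K) (g : Γ) (v : Fin n → K) :
    RR ρ g v = (ρ g).val *ᵥ v := rfl

theorem RR_eq (ρ : Γ →* GL (Fin n) K) (g : Γ) :
    RR ρ g = Matrix.toLinAlgEquiv' (ρ g).val := rfl

theorem RR_eq_one {ρ : Γ →* GL (Fin n) K} {g : Γ} (h : RR ρ g = 1) : ρ g = 1 :=
  Units.ext ((Matrix.toLinAlgEquiv' (n := Fin n) (R := K)).injective (by
    rw [Units.val_one, map_one]; exact h))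

theorem RR_scalar {ρ : Γ →* GL (Fin n) K} (hs : gspan ρ.range = ⊤) {P : End K (Fin n → K)}
    (h : ∀ g, P * RR ρ g = RR ρ g * P) : ∃ c : K, P = c • 1 := by
  obtain ⟨M, rfl⟩ := (Matrix.toLinAlgEquiv' (n := Fin n) (R := K)).surjective P
  obtain ⟨c, hc⟩ := exists_smul_of_commute_gspan hs (b := M) (by
    rintro _ ⟨g, rfl⟩
    apply (Matrix.toLinAlgEquiv' (n := Fin n) (R := K)).injective
    rw [map_mul, map_mul]; exact h g)
  exact ⟨c, by rw [hc, map_smul, map_one]⟩

theorem eq_one_of_noTv {ρ : Γ →* GL (Fin n) K} (hT : NoTv ρ.range) {y : Γ}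
    (h2 : (RR ρ y - 1) * (RR ρ y - 1) = 0)
    (h1 : finrank K (LinearMap.range (RR ρ y - 1)) ≤ 1) : ρ y = 1 := by
  obtain ⟨u, hu⟩ := finrank_le_one_iff.1 h1
  choose c hc using fun j => hu ⟨_, LinearMap.mem_range_self _ (Pi.single j 1)⟩
  have e : (ρ y).val = 1 + N (u.1, c) := by
    ext i j
    have := congrFun (congrArg Subtype.val (hc j)) i
    simp only [SetLike.val_smul, Pi.smul_apply, smul_eq_mul, LinearMap.sub_apply, RR_apply,
      mulVec_single_one, End.one_apply, Pi.sub_apply, col_apply, Pi.single_apply] at this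
    simp only [N, Matrix.add_apply, vecMulVec_apply, one_apply]
    linear_combination -this
  clear hc hu
  generalize u.1 = u at e
  have e' : RR ρ y - 1 = Matrix.toLinAlgEquiv' (N (u, c)) := by
    rw [RR_eq, e, map_add, map_one, add_sub_cancel_left]
  rw [e', ← map_mul, map_eq_zero_iff _ (AlgEquiv.injective _), N_mul_N] at h2
  refine Units.ext ?_
  have : N (u, c) = 0 := by
    rcases smul_eq_zero.1 h2 with h | h
    · exact N_eq_zero.2 (hT _ ⟨h, _, ⟨y, rfl⟩, e⟩)
    · exact h
  rw [e, this, add_zero, Units.val_one]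

end mat

end H13.LD
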