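import Cfsg.Agent.H31.O7A

/-! O7 tower (blueprints/O7.md), job Rat: rationality of the roots. -/

set_option autoImplicit false

namespace H13.O7

open H56 QuadraticMap Module H31.O7

universe u

variable {K : Type u} [Field K] {V : Type u} [AddCommGroup V] [Module K V] {Q : QuadraticForm K V}
  {Φ : Set V}

theorem exists_g [Finite K] (h2 : (2 : K) ≠ 0) (k : Subfield K) (h5 : 5 ≤ Nat.card k) :
    (∃ a ∈ k, a ^ 3 ≠ a) ∧ ∃ g ∈ k, (∀ k0 : Subfield K, g ^ 2 ∈ k0 → k ≤ k0) ∧ g ≠ 0 ∧
      g ^ 2 ≠ 4 ∧ (g ^ 2 ≠ 1 ∨ (5 : K) = 0) := by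
  obtain ⟨γ, hγ⟩ := IsCyclic.exists_generator (α := kˣ)
  have ho : orderOf γ = Nat.card k - 1 := by
    rw [orderOf_eq_card_of_forall_mem_zpowers hγ, Nat.card_units]
  have h0 : ((γ : k) : K) ≠ 0 := by simp
  have h1 : ((γ : k) : K) ^ 2 ≠ 1 := fun e => by
    have : γ ^ 2 = 1 := Units.ext (Subtype.ext (by simpa using e))
    have := Nat.le_of_dvd two_pos (orderOf_dvd_of_pow_eq_one this)
    omega
  have h4 : (4 : K) ≠ 0 := by
    rw [show (4 : K) = 2 * 2 by norm_num]
    exact mul_ne_zero h2 h2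
  have hc : ∀ k0 : Subfield K, ((γ : k) : K) ^ 2 ∈ k0 → k ≤ k0 := fun k0 h => by
    have sq : ∀ x ∈ k, x ^ 2 ∈ k0 := fun x hx => by
      by_cases x0 : x = 0
      · simp [x0]
      obtain ⟨n, hn⟩ := hγ (Units.mk0 ⟨x, hx⟩ fun e => x0 (congrArg Subtype.val e))
      have : ((γ : k) : K) ^ n = x := by
        have := congrArg (fun z : kˣ => k.subtype (z : k)) hn
        simp only [Units.val_zpow_eq_zpow_val, map_zpow₀] at this
        exact this
      rw [← this, ← zpow_natCast, ← zpow_mul, mul_comm, zpow_mul, zpow_natCast]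
      exact zpow_mem h n
    intro x hx
    have : x = ((x + 1) ^ 2 - (x - 1) ^ 2) / 4 := by
      field_simp
      ring
    rw [this]
    exact div_mem (sub_mem (sq _ (add_mem hx (one_mem k))) (sq _ (sub_mem hx (one_mem k))))
      (ofNat_mem k0 4)
  refine ⟨⟨_, (γ : k).2, fun e => h1 (mul_right_cancel₀ h0 (by rw [← pow_succ, e, one_mul]))⟩, ?_⟩
  by_cases e : ((γ : k) : K) ^ 2 = 4
  · have hk : ∀ k0 : Subfield K, k ≤ k0 := fun k0 => hc k0 (e ▸ ofNat_mem k0 4)
    have h3 : (3 : K) ≠ 0 := fun z => h1 (by rw [e]; linear_combination z)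
    by_cases h5 : (5 : K) = 0
    · exact ⟨1, one_mem k, fun k0 _ => hk k0, one_ne_zero,
        fun z => h3 (by linear_combination -z), .inr h5⟩
    · refine ⟨3, ofNat_mem k 3, fun k0 _ => hk k0, h3, fun z => h5 (by linear_combination z),
        .inl fun z => mul_ne_zero h2 h4 (by linear_combination z)⟩
  · exact ⟨_, (γ : k).2, hc, h0, e, .inl h1⟩

theorem cc_par {x y : V} (hy : Q y ≠ 0) (h : Par K x y) : cc Q x y = 4 := by
  obtain ⟨a, rfl⟩ := h
  have ha : a ≠ 0 := by
    rintro rfl
    simp at hy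
  have hx : Q x ≠ 0 := fun e => hy (by rw [Q_smul, e, mul_zero])
  rw [cc_smul_right ha, cc_self hx]

theorem in3_refl (h : RS Q Φ) {u v r x y : V} (hx : In3 (K := K) Φ u v r x)
    (hy : In3 (K := K) Φ u v r y) : In3 (K := K) Φ u v r (refl Q x y) :=
  ⟨h.inv _ hx.1 _ hy.1, by
    rw [refl_apply]
    exact Submodule.sub_mem _ hy.2 (Submodule.smul_mem _ _ hx.2)⟩

/-- The invariants of a root with respect to a pair with generating two-cycle are rational. -/
theorem kp [FiniteDimensional K V] (h : RS Q Φ) (l3 : List3 Q Φ) (dg : Deg Q Φ) (ln : Line Q Φ)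
    {k : Subfield K} (mx : ∀ k', Lie Q Φ k' → k ≤ k' → k' ≤ k) (nc : ∃ a ∈ k, a ^ 3 ≠ a) {c : K}
    (ck : c ∈ k) (gen : ∀ k0 : Subfield K, c ∈ k0 → k ≤ k0) (c0 : c ≠ 0) (c4 : c ≠ 4)
    (c1 : c ≠ 1 ∨ (5 : K) = 0) {u v w : V} (hu : u ∈ Φ) (hv : v ∈ Φ) (hw : w ∈ Φ)
    (e : cc Q u v = c) : cc Q u w ∈ k ∧ tau Q u v w ∈ k := by
  by_cases o : polar Q u w = 0 ∧ polar Q v w = 0
  · simp [cc, tau, o.1, o.2]
  have puv : polar Q u v ≠ 0 := fun z => c0 (by rw [← e, (cc_eq_zero (h.ne u hu) (h.ne v hv)).2 z])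
  have u0 : u ≠ 0 := fun z => h.ne u hu (by simp [z])
  obtain ⟨r, hr, r1, r2, r3⟩ : ∃ r ∈ Φ, r ∉ Submodule.span K {u, v} ∧
      (polar Q u r ≠ 0 ∨ polar Q v r ≠ 0) ∧ w ∈ Submodule.span K {u, v, r} := by
    by_cases m : w ∈ Submodule.span K {u, v}
    · by_contra n
      push Not at n
      rcases h.irr' (Submodule.span K {u, v}) (fun r hr => by
        by_contra z
        push Not at z
        refine n r hr z.1 (by
          by_contra y
          push Not at y
          exact z.2 (mem_perp_span_pair.2 y)) (Submodule.span_mono ?_ m)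
        intro x hx
        rcases hx with rfl | rfl <;> simp) with z | z
      · exact u0 ((Submodule.mem_bot K).1 (z ▸ Submodule.subset_span (by simp)))
      · classical
        have := finrank_span_finset_le_card (R := K) ({u, v} : Finset V)
        rw [Set.finrank, Finset.coe_pair, z, finrank_top, h.dim] at this
        have := Finset.card_le_two (a := u) (b := v)
        omega
    · exact ⟨w, hw, m, not_and_or.1 o, Submodule.subset_span (by simp)⟩
  have iu : In3 (K := K) Φ u v r u := ⟨hu, Submodule.subset_span (by simp)⟩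
  have iv : In3 (K := K) Φ u v r v := ⟨hv, Submodule.subset_span (by simp)⟩
  have iw : In3 (K := K) Φ u v r w := ⟨hw, r3⟩
  have fin : (∀ x y, In3 (K := K) Φ u v r x → In3 (K := K) Φ u v r y → cc Q x y ∈ k) →
      cc Q u w ∈ k ∧ tau Q u v w ∈ k := fun a => ⟨a u w iu iw, by
    have := cc_refl (h.ne u hu) (h.ne v hv) (h.ne w hw)
    have e2 : tau Q u v w = (cc Q v w + cc Q u v * cc Q u w - cc Q (refl Q u v) w) / 2 := by
      rw [this, eq_div_iff h.two]
      ring
    rw [e2]
    exact div_mem (sub_mem (add_mem (a v w iv iw) (mul_mem (a u v iu iv) (a u w iu iw)))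
      (a _ w (in3_refl h iu iv) iw)) (ofNat_mem k 2)⟩
  by_cases d : dt Q u v r = 0
  · have li : LinearIndependent K ![u, v, r] := by
      have l2 : LinearIndependent K ![u, v] := by
        rw [LinearIndependent.pair_iff' u0]
        intro a ha
        exact c4 (by rw [← e, cc_par (h.ne v hv) ⟨a, ha.symm⟩])
      have := (linearIndependent_finSnoc (x := r) (v := ![u, v])).2 ⟨l2, by
        rwa [Matrix.range_cons_cons_empty]⟩
      convert this using 1
      ext i
      fin_cases i <;> rfl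
    obtain ⟨f, f0, f1, f2, f3⟩ := dg u hu v hv r hr li d (e ▸ c0) (e ▸ c4)
    set k1 := Subfield.closure ({a | ∃ x, In3 (K := K) Φ u v r x ∧ a = cc Q u x} ∪
      {a | ∃ x y, In3 (K := K) Φ u v r x ∧ In3 (K := K) Φ u v r y ∧ a = tau Q u x y}) with hk1
    have k01 : k ≤ k1 := gen k1 (Subfield.subset_closure (.inl ⟨v, iv, e.symm⟩))
    rcases ln u hu f f0 f1 f2 (by simpa using f3 1 (one_mem _)) with ⟨k2, l2, m2⟩ | ⟨-, m2⟩
    · have k12 : k1 ≤ k2 := fun a ha => m2 a (f3 a ha)
      have := k12.trans (mx k2 l2 (k01.trans k12))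
      exact ⟨this (Subfield.subset_closure (.inl ⟨w, iw, rfl⟩)),
        this (Subfield.subset_closure (.inr ⟨v, w, iv, iw, rfl⟩))⟩
    · obtain ⟨a, ha, na⟩ := nc
      exact absurd (m2 a (f3 a (k01 ha))) na
  · rcases l3 u hu v hv r hr d puv r2 with ⟨k', l', m'⟩ | ⟨t, -⟩ | ⟨t5, t⟩
    · exact fin fun x y hx hy => mx k' l' (gen k' (e ▸ m' u v iu iv)) (m' x y hx hy)
    · refine fin fun x y hx hy => ?_
      rcases t x y hx hy with z | z | z | z
      · exact z ▸ zero_mem k
      · exact z ▸ one_mem k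
      · exact z ▸ ofNat_mem k 2
      · exact cc_par (h.ne y hy.1) z ▸ ofNat_mem k 4
    · have g : Gold c := by
        rcases t u v iu iv with z | z | z | z
        · exact absurd (e ▸ z) c0
        · exact absurd (e ▸ z) (c1.resolve_right t5)
        · exact e ▸ z
        · exact absurd (e ▸ cc_par (h.ne v hv) z) c4
      refine fin fun x y hx hy => ?_
      rcases t x y hx hy with z | z | z | z
      · exact z ▸ zero_mem k
      · exact z ▸ one_mem k
      · have : (cc Q x y - c) * (cc Q x y - (3 - c)) = 0 := by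
          unfold Gold at g z
          linear_combination z - g
        rcases mul_eq_zero.1 this with z | z <;> rw [sub_eq_zero.1 z]
        · exact ck
        · exact sub_mem (ofNat_mem k 3) ck
      · exact cc_par (h.ne y hy.1) z ▸ ofNat_mem k 4

section form

variable {k : Subfield K} {N : K} {Λ : Submodule k V}

theorem polar_mem (val : ∀ x ∈ Λ, Q x / N ∈ k) {x y : V} (hx : x ∈ Λ) (hy : y ∈ Λ) :
    polar Q x y / N ∈ k := by
  rw [polar, sub_div, sub_div]
  exact sub_mem (sub_mem (val _ (Λ.add_mem hx hy)) (val x hx)) (val y hy)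

/-- The form `Q / N` on a `k`-form. -/
def kq (val : ∀ x ∈ Λ, Q x / N ∈ k) : QuadraticForm k Λ :=
  QuadraticMap.ofPolar (fun x => ⟨Q x / N, val x x.2⟩)
    (fun a x => Subtype.ext (by simp [Subfield.smul_def, Q_smul, mul_div_assoc]))
    (fun x x' y => Subtype.ext (by
      have := polar_add_left Q (x : V) x' y
      simp only [polar, AddSubgroupClass.coe_sub, Submodule.coe_add, AddMemClass.coe_add] at this ⊢
      linear_combination this / N))
    (fun a x y => Subtype.ext (by
      have := polar_smul_left Q (a : K) (x : V) y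
      simp only [polar, AddSubgroupClass.coe_sub, Submodule.coe_add, smul_eq_mul,
        MulMemClass.coe_mul, SetLike.val_smul, Subfield.smul_def] at this ⊢
      linear_combination this / N))

theorem kq_apply (val : ∀ x ∈ Λ, Q x / N ∈ k) (x : Λ) : (kq val x : K) = Q x / N := rfl

theorem kq_polar (val : ∀ x ∈ Λ, Q x / N ∈ k) (x y : Λ) :
    ((polar (kq val) x y : k) : K) = polar Q (x : V) y / N := by
  simp only [polar, AddSubgroupClass.coe_sub, kq_apply, Submodule.coe_add, sub_div]

/-- The vectors of a given norm span a `k`-form. -/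
theorem le_of_norm (qf : JobQF.{u}) [Finite K] [Finite V] (h2 : (2 : K) ≠ 0) (h5 : 5 ≤ Nat.card k)
    (N0 : N ≠ 0) (val : ∀ x ∈ Λ, Q x / N ∈ k) (nd : ∀ x ∈ Λ, (∀ y ∈ Λ, polar Q x y = 0) → x = 0)
    (hd : 2 ≤ finrank k Λ) {n : K} (hn : n ∈ k) (n0 : n ≠ 0) (P : Submodule k V)
    (hP : ∀ x ∈ Λ, Q x = N * n → x ∈ P) : Λ ≤ P := by
  have := (qf k Λ (kq val) inferInstance (fun e => h2 (by simpa only [map_ofNat, map_zero] using congrArg k.subtype e))
    (nondegenerate_of_polar fun x hx => Subtype.ext (nd x x.2 fun y hy => by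
      have := congrArg Subtype.val (hx ⟨y, hy⟩)
      rw [kq_polar] at this
      exact (div_eq_zero_iff.1 this).resolve_right N0)) (.inl ⟨h5, hd⟩)).1 ⟨n, hn⟩
    fun e => n0 (congrArg Subtype.val e)
  intro x hx
  have le : Submodule.span k {x : Λ | kq val x = ⟨n, hn⟩} ≤ P.comap Λ.subtype :=
    Submodule.span_le.2 fun y hy => hP y y.2 (by
      have := congrArg Subtype.val hy
      rw [kq_apply, div_eq_iff N0] at this
      rw [this, mul_comm])
  exact le (this ▸ Submodule.mem_top (x := (⟨x, hx⟩ : Λ)))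

/-- The vectors on which a functional is rational. -/
def kf (k : Subfield K) (φ : V →ₗ[K] K) : Submodule k V where
  carrier := {x | φ x ∈ k}
  add_mem' ha hb := by
    rw [Set.mem_setOf_eq, map_add]
    exact add_mem ha hb
  zero_mem' := by simp
  smul_mem' a x hx := by
    rw [Set.mem_setOf_eq, Subfield.smul_def, map_smul]
    exact mul_mem a.2 hx

end form

theorem jobRat : JobRat.{u} := by
  intro qf K _ _ V _ _ _ Q Φ h l3 dg ln hk
  haveI : Finite V := Module.finite_of_finite K
  obtain ⟨k, lk, hmax⟩ := Set.exists_max_image {k : Subfield K | Lie Q Φ k} (fun k => Nat.card k)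
    (Set.toFinite _) hk
  have mx : ∀ k', Lie Q Φ k' → k ≤ k' → k' ≤ k := fun k' l le => by
    have := Set.eq_of_subset_of_ncard_le (s := (k : Set K)) (t := (k' : Set K)) le (hmax k' l)
    exact this.ge
  obtain ⟨nc, g, gk, gen, g0, g4, g1⟩ := exists_g h.two k lk.1
  refine ⟨k, lk, fun N Λ fm hd r hr ⟨x, hx, rx⟩ => ?_⟩
  have N0 := fm.ne
  have h2 := h.two
  obtain ⟨v, hv, qv, rv⟩ : ∃ v ∈ Λ, Q v = N ∧ polar Q r v ≠ 0 := by
    by_contra n
    push Not at n
    exact rx (le_of_norm qf h.two lk.1 fm.ne fm.val fm.nd (by omega) (one_mem k) one_ne_zero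
      ((LinearMap.ker (Q.polarBilin r)).restrictScalars k)
      (fun y hy e => n y hy (by rw [e, mul_one])) hx)
  have vΦ : v ∈ Φ := fm.full v hv 1 (one_mem k) one_ne_zero (by rw [qv]; ring)
  have vv : polar Q v v = 2 * N := by rw [polar_self', qv]
  set W : Submodule k V := Λ ⊓ (LinearMap.ker (Q.polarBilin v)).restrictScalars k with hW
  have mW : ∀ y, y ∈ W ↔ y ∈ Λ ∧ polar Q v y = 0 := fun y => Iff.rfl
  have dec : ∀ y ∈ Λ, ∃ a : k, y - a • v ∈ W := fun y hy =>
    ⟨⟨polar Q v y / N / 2, div_mem (polar_mem fm.val hv hy) (ofNat_mem k 2)⟩,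
      (mW _).2 ⟨Λ.sub_mem hy (Λ.smul_mem _ hv), by
        rw [Subfield.smul_def, polar_sub_right, polar_smul_right, vv, smul_eq_mul]
        field_simp
        ring⟩⟩
  have dW : 2 ≤ finrank k W := by
    have le : Λ ≤ W ⊔ k ∙ v := fun y hy => by
      obtain ⟨a, ha⟩ := dec y hy
      rw [← sub_add_cancel y (a • v)]
      exact Submodule.add_mem_sup ha (Submodule.smul_mem _ _ (Submodule.mem_span_singleton_self v))
    have a := Submodule.finrank_mono le
    have b := Submodule.finrank_add_le_finrank_add_finrank W (k ∙ v)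
    rw [finrank_span_singleton fun z => N0 (by rw [← qv, z, map_zero])] at b
    omega
  have ndW : ∀ y ∈ W, (∀ z ∈ W, polar Q y z = 0) → y = 0 := fun y hy o =>
    fm.nd y hy.1 fun z hz => by
      obtain ⟨a, ha⟩ := dec z hz
      have := o _ ha
      rwa [Subfield.smul_def, polar_sub_right, polar_smul_right, polar_comm Q y v, ((mW y).1 hy).2,
        smul_zero, sub_zero] at this
  have n0 : 1 - g ^ 2 / 4 ≠ 0 := fun z => g4 (by
    have h4 : (4 : K) ≠ 0 := by
      rw [show (4 : K) = 2 * 2 by norm_num]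
      exact mul_ne_zero h2 h2
    field_simp at z
    linear_combination -z)
  have r0 := h.ne r hr
  have KP : ∀ y ∈ W, Q y = N * (1 - g ^ 2 / 4) →
      cc Q v r ∈ k ∧ polar Q r y / polar Q r v ∈ k := fun y hy qy => by
    obtain ⟨y1, y2⟩ := (mW y).1 hy
    have h4 : (4 : K) = 2 * 2 := by norm_num
    have m2 : (g / 2) • v + y ∈ Λ :=
      Λ.add_mem (Λ.smul_mem (⟨g / 2, div_mem gk (ofNat_mem k 2)⟩ : k) hv) y1
    have q2 : Q ((g / 2) • v + y) = N := by
      rw [Q_add, Q_smul, polar_smul_left, y2, qv, qy, h4, smul_zero]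
      field_simp
      ring
    have p2 : polar Q v ((g / 2) • v + y) = g * N := by
      rw [polar_add_right, polar_smul_right, vv, y2, smul_eq_mul]
      field_simp
      ring
    obtain ⟨a, b⟩ := kp h l3 dg ln mx nc (pow_mem gk 2) gen (pow_ne_zero 2 g0) g4 g1 vΦ
      (fm.full _ m2 1 (one_mem k) one_ne_zero (by rw [q2]; ring)) hr (by
        rw [cc, p2, qv, q2]
        field_simp)
    refine ⟨a, ?_⟩
    have e : polar Q r y / polar Q r v =
        tau Q v ((g / 2) • v + y) r / cc Q v r / g - g / 2 := by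
      rw [tau, cc, p2, qv, q2, polar_add_left, polar_smul_left, polar_comm Q v r, polar_comm Q y r,
        smul_eq_mul]
      field_simp
      ring
    rw [e]
    exact sub_mem (div_mem (div_mem b a) gk) (div_mem gk (ofNat_mem k 2))
  have nk : 1 - g ^ 2 / 4 ∈ k := sub_mem (one_mem k) (div_mem (pow_mem gk 2) (ofNat_mem k 4))
  have WP := le_of_norm qf h.two lk.1 fm.ne (fun y hy => fm.val y ((mW y).1 hy).1) ndW dW nk n0
    (kf k ((polar Q r v)⁻¹ • Q.polarBilin r)) fun y hy qy => by
      have := (KP y hy qy).2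
      rwa [div_eq_inv_mul] at this
  have ck : cc Q v r ∈ k := by
    by_contra n
    have := le_of_norm qf h.two lk.1 fm.ne (fun y hy => fm.val y ((mW y).1 hy).1) ndW dW nk n0 ⊥
      fun y hy qy => absurd (KP y hy qy).1 n
    rw [le_bot_iff.1 this, finrank_bot] at dW
    omega
  refine ⟨N / polar Q r v, div_ne_zero N0 rv, ?_, fun y hy => ?_⟩
  · have : Q ((N / polar Q r v) • r) / N = (cc Q v r)⁻¹ := by
      rw [Q_smul, cc, qv, polar_comm Q v r]
      field_simp
    rw [this]
    exact inv_mem ck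
  · obtain ⟨a, ha⟩ := dec y hy
    have m : (polar Q r v)⁻¹ * polar Q r (y - a • v) ∈ k := WP ha
    have : polar Q ((N / polar Q r v) • r) y / N =
        (polar Q r v)⁻¹ * polar Q r (y - a • v) + a := by
      rw [polar_smul_left, Subfield.smul_def, polar_sub_right, polar_smul_right, smul_eq_mul,
        smul_eq_mul]
      field_simp
      ring
    rw [this]
    exact add_mem m a.2

end H13.O7
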