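import Cfsg.Agent.H13.T3Spec

/-! Homologies attached to the elements of an extraspecial group of exponent three. -/

set_option autoImplicit false
set_option linter.unusedSectionVars false

namespace H13.T3

open Matrix hiding mul_inv_rev
open Cfsg Cfsg.Geo H25 H60.L3
open scoped MatrixGroups commutatorElement

variable {F : Type*} [Field F] {ι : Type} [Fintype ι] [DecidableEq ι]
variable {ω : Fˣ} {R G : Subgroup (GL ι F)} {d x y y' e g r u v : GL ι F} {m : Matrix ι ι F}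

theorem smul_val (c : Fˣ) (g : GL ι F) : (c • g).val = (c : F) • g.val := rfl

instance towerGL : IsScalarTower Fˣ (GL ι F) (GL ι F) :=
  ⟨fun c a b => Units.ext (by
    rw [smul_eq_mul, smul_eq_mul, Units.val_mul, smul_val, smul_val, Units.val_mul, smul_mul_assoc])⟩

instance commGL : SMulCommClass Fˣ (GL ι F) (GL ι F) :=
  ⟨fun c a b => Units.ext (by
    rw [smul_eq_mul, smul_eq_mul, Units.val_mul, smul_val, smul_val, Units.val_mul, mul_smul_comm])⟩

theorem sc_mul (c : Fˣ) (g : GL ι F) : sc ι c * g = c • g :=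
  Units.ext (by rw [Units.val_mul, coe_sc, smul_val, smul_mul_assoc, one_mul])

theorem sc_eq (c : Fˣ) : sc ι c = c • (1 : GL ι F) := by rw [← sc_mul, mul_one]

theorem mem_Z : g ∈ scalars ι F ↔ ∃ c : Fˣ, g = c • (1 : GL ι F) := by
  simp only [mem_scalars_iff', sc_eq]

theorem smul_mem_Z (c : Fˣ) : c • g ∈ scalars ι F ↔ g ∈ scalars ι F := by
  rw [← sc_mul, (scalars ι F).mul_mem_cancel_left (sc_mem c)]

theorem conj_mem_Z : g * d * g⁻¹ ∈ scalars ι F ↔ d ∈ scalars ι F :=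
  ⟨fun h => by simpa [mul_assoc] using Subgroup.Normal.conj_mem inferInstance _ h g⁻¹,
    fun h => Subgroup.Normal.conj_mem inferInstance _ h g⟩

theorem smul_inj [Nonempty ι] {a b : Fˣ} (h : a • g = b • g) : a = b := by
  have h1 : ((a : F) - b) • g.val = 0 := by rw [sub_smul, ← smul_val, h, smul_val, sub_self]
  exact Units.ext (sub_eq_zero.1 ((smul_eq_zero.1 h1).resolve_right g.ne_zero))

theorem inv_eq_sq {Γ : Type*} [Group Γ] {a : Γ} (h : a ^ 3 = 1) : a⁻¹ = a * a :=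
  inv_eq_of_mul_eq_one_right (by rw [← pow_three, h])

theorem cube_mul {Γ : Type*} [Group Γ] {a : Γ} (h : a ^ 3 = 1) (b : Γ) : a * (a * (a * b)) = b := by
  rw [← mul_assoc, ← mul_assoc, ← pow_three', h, one_mul]

theorem cube_one {Γ : Type*} [Group Γ] {a : Γ} (h : a ^ 3 = 1) : a * (a * a) = 1 := by
  rw [← pow_three, h]

theorem rel_mul {c : Fˣ} (h : x * d = c • (d * x)) (g : GL ι F) : x * (d * g) = c • (d * (x * g)) := by
  rw [← mul_assoc, h, smul_mul_assoc, mul_assoc]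

theorem rel_pow {c : Fˣ} (h : x * d = c • (d * x)) (i : ℕ) : x * d ^ i = c ^ i • (d ^ i * x) := by
  induction i with
  | zero => simp
  | succ i ih => rw [pow_succ, ← mul_assoc, ih, smul_mul_assoc, mul_assoc, h, mul_smul_comm,
      smul_smul, pow_succ, mul_assoc]

theorem pow_rel {c : Fˣ} (h : x * d = c • (d * x)) (i : ℕ) : x ^ i * d = c ^ i • (d * x ^ i) := by
  induction i with
  | zero => simp
  | succ i ih => rw [pow_succ', mul_assoc, ih, mul_smul_comm, rel_mul h, smul_smul, pow_succ]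

theorem rel_symm {c : Fˣ} (h : x * d = c • (d * x)) : d * x = c⁻¹ • (x * d) := by
  rw [h, inv_smul_smul]

theorem rel_conj {c : Fˣ} (h : x * d = c • (d * x)) : x * d * x⁻¹ = c • d := by
  rw [h, smul_mul_assoc, mul_inv_cancel_right]

theorem rel_inv {c : Fˣ} (h : x * d = c • (d * x)) : d * x⁻¹ = c • (x⁻¹ * d) := by
  rw [← mul_smul_comm, ← rel_conj h]; group

theorem smul_cube (hω : Om ω) (hd : d ^ 3 = 1) : (ω • d) ^ 3 = 1 := by
  rw [smul_pow, hω.cube, hd, one_smul]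

theorem val_cube (hd : d ^ 3 = 1) : d.val * (d.val * d.val) = 1 := by
  rw [← Units.val_mul, ← Units.val_mul, cube_one hd, Units.val_one]

/-! ### projections -/

theorem pj_mul_of {c : F} (h : d.val * m = c • m) : pj d * m = ((3 : F)⁻¹ * (1 + c + c * c)) • m := by
  rw [pj, smul_mul_assoc, add_mul, add_mul, mul_assoc, h, mul_smul_comm, h, one_mul]; module

theorem mul_pj_of {c : F} (h : m * d.val = c • m) : m * pj d = ((3 : F)⁻¹ * (1 + c + c * c)) • m := by
  rw [pj, mul_smul_comm, mul_add, mul_add, ← mul_assoc, h, smul_mul_assoc, h, mul_one]; module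

theorem mul_pj (hd : d ^ 3 = 1) : d.val * pj d = pj d := by
  rw [pj, mul_smul_comm, mul_add, mul_add, val_cube hd, mul_one]; module

theorem pj_comm (h : m * d.val = d.val * m) : m * pj d = pj d * m := by
  rw [pj, mul_smul_comm, smul_mul_assoc, mul_add, mul_add, add_mul, add_mul, ← mul_assoc, h,
    mul_assoc, h, mul_assoc, mul_one, one_mul]

theorem pj_comm' (h : g * d = d * g) : g.val * pj d = pj d * g.val :=
  pj_comm (by rw [← Units.val_mul, h, Units.val_mul])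

theorem pj_comm_pj (h : e * d = d * e) : pj e * pj d = pj d * pj e :=
  pj_comm (pj_comm' h.symm).symm

theorem pj_mul (hd : d ^ 3 = 1) : pj d * d.val = pj d := by rw [← pj_comm' rfl, mul_pj hd]

theorem pj_fix (hω : Om ω) (h : d.val * m = m) : pj d * m = m := by
  rw [pj_mul_of (c := 1) (by rw [h, one_smul]), show (1 : F) + 1 + 1 * 1 = 3 by norm_num,
    inv_mul_cancel₀ hω.ne, one_smul]

theorem pj_idem (hω : Om ω) (hd : d ^ 3 = 1) : pj d * pj d = pj d := pj_fix hω (mul_pj hd)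

theorem pj_idem' (hω : Om ω) (hd : d ^ 3 = 1) (m : Matrix ι ι F) : pj d * (pj d * m) = pj d * m := by
  rw [← mul_assoc, pj_idem hω hd]

theorem pj_inv (hd : d ^ 3 = 1) : pj d⁻¹ = pj d := by
  rw [inv_eq_sq hd, pj, pj, Units.val_mul, mul_assoc, val_cube hd, mul_one, add_right_comm]

theorem pj_conj (g d : GL ι F) : pj (g * d * g⁻¹) = g.val * pj d * g⁻¹.val := by
  simp only [pj, mul_smul_comm, smul_mul_assoc, mul_add, add_mul, Units.val_mul, mul_assoc,
    Units.inv_mul_cancel_left, one_mul, Units.mul_inv]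

theorem mul_pj_conj (g d : GL ι F) : g.val * pj d = pj (g * d * g⁻¹) * g.val := by
  rw [pj_conj, Units.inv_mul_cancel_right]

theorem mul_pj_smul (hω : Om ω) (hd : d ^ 3 = 1) : d.val * pj (ω • d) = (ω : F) ^ 2 • pj (ω • d) := by
  have h := mul_pj (smul_cube hω hd)
  rw [smul_val, smul_mul_assoc] at h
  rw [← hω.inv', eq_inv_smul_iff₀ ω.ne_zero, h]

theorem mul_pj_smul2 (hω : Om ω) (hd : d ^ 3 = 1) :
    d.val * pj (ω • ω • d) = (ω : F) • pj (ω • ω • d) := by
  have h := mul_pj_smul hω (smul_cube hω hd)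
  rw [smul_val, smul_mul_assoc, pow_two, mul_smul] at h
  exact smul_right_injective _ ω.ne_zero h

theorem smul3 (hω : Om ω) (d : GL ι F) : ω • ω • ω • d = d := by
  rw [smul_smul, smul_smul, ← pow_three', hω.cube, one_smul]

theorem pj01 (hω : Om ω) (hd : d ^ 3 = 1) : pj d * pj (ω • d) = 0 := by
  rw [pj_mul_of (mul_pj_smul hω hd), show (1 : F) + ω ^ 2 + ω ^ 2 * ω ^ 2 = 0 by
    linear_combination ((ω : F) ^ 2 - ω + 1) * hω.eq, mul_zero, zero_smul]

theorem pj02 (hω : Om ω) (hd : d ^ 3 = 1) : pj d * pj (ω • ω • d) = 0 := by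
  rw [pj_mul_of (mul_pj_smul2 hω hd), show (1 : F) + ω + ω * ω = 0 by
    linear_combination hω.eq, mul_zero, zero_smul]

theorem pj10 (hω : Om ω) (hd : d ^ 3 = 1) : pj (ω • d) * pj d = 0 := by
  simpa only [smul3 hω] using pj02 hω (smul_cube hω hd)

theorem pj12 (hω : Om ω) (hd : d ^ 3 = 1) : pj (ω • d) * pj (ω • ω • d) = 0 :=
  pj01 hω (smul_cube hω hd)

theorem pj20 (hω : Om ω) (hd : d ^ 3 = 1) : pj (ω • ω • d) * pj d = 0 := by
  simpa only [smul3 hω] using pj01 hω (smul_cube hω (smul_cube hω hd))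

theorem pj21 (hω : Om ω) (hd : d ^ 3 = 1) : pj (ω • ω • d) * pj (ω • d) = 0 :=
  pj10 hω (smul_cube hω hd)

theorem pj_sum (hω : Om ω) (d : GL ι F) : pj d + pj (ω • d) + pj (ω • ω • d) = 1 := by
  have h := hω.eq
  have h3 := inv_mul_cancel₀ hω.ne
  simp only [pj, smul_val, smul_mul_assoc, mul_smul_comm]
  match_scalars
  · linear_combination h3
  · linear_combination (3 : F)⁻¹ * h
  · linear_combination (3 : F)⁻¹ * ((ω : F) ^ 2 - ω + 1) * h

/-- matrices are determined by their three blocks -/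
theorem ext_pj (hω : Om ω) (d : GL ι F) {a b : Matrix ι ι F} (h0 : a * pj d = b * pj d)
    (h1 : a * pj (ω • d) = b * pj (ω • d)) (h2 : a * pj (ω • ω • d) = b * pj (ω • ω • d)) :
    a = b := by
  rw [← mul_one a, ← mul_one b, ← pj_sum hω d, mul_add, mul_add, mul_add, mul_add, h0, h1, h2]

theorem pj_sandwich (hω : Om ω) (hd : d ^ 3 = 1) (h : x * d = ω • (d * x)) :
    pj d * x.val * pj d = 0 := by
  rw [mul_assoc, mul_pj_conj, rel_conj h, ← mul_assoc, pj01 hω hd, zero_mul]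

theorem pj_sandwich' (hω : Om ω) (hd : d ^ 3 = 1) (h : d * x = ω • (x * d)) :
    pj d * x.val * pj d = 0 := by
  have h1 : x * d⁻¹ = ω • (d⁻¹ * x) := rel_inv h
  rw [← pj_inv hd]
  exact pj_sandwich hω (by rw [inv_pow, hd, inv_one]) h1

theorem pj_pj_pj (hω : Om ω) (hd : d ^ 3 = 1) (h : x * d = ω • (d * x)) :
    pj d * pj x * pj d = (3 : F)⁻¹ • pj d := by
  have h2 : d * (x * x) = ω • (x * x * d) := by
    rw [mul_assoc x, h, mul_smul_comm, rel_mul h, smul3 hω]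
  have h3 := pj_sandwich' hω hd h2
  rw [Units.val_mul] at h3
  rw [pj.eq_1 x, mul_smul_comm, smul_mul_assoc, mul_add, mul_add, add_mul, add_mul, h3,
    pj_sandwich hω hd h, mul_one, pj_idem hω hd, add_zero, add_zero]

theorem pj_pj_pj' (hω : Om ω) (hx : x ^ 3 = 1) (hd : d ^ 3 = 1) (h : x * d = ω • (d * x)) :
    pj x * pj d * pj x = (3 : F)⁻¹ • pj x := by
  rw [← pj_inv hx]
  exact pj_pj_pj hω (by rw [inv_pow, hx, inv_one]) (rel_inv h)

/-! ### homologies -/

theorem hm_aux (hω : Om ω) (hd : d ^ 3 = 1) :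
    (1 + ((ω : F) - 1) • pj d) * (1 + ((ω : F) ^ 2 - 1) • pj d) = 1 := by
  have h := hω.eq
  simp only [mul_add, add_mul, smul_mul_assoc, mul_smul_comm, one_mul, mul_one, pj_idem hω hd]
  match_scalars
  · rfl
  · linear_combination ((ω : F) - 1) * h

theorem hm_val (hω : Om ω) (hd : d ^ 3 = 1) : (hm ω d).val = 1 + ((ω : F) - 1) • pj d :=
  H60.Cl.un_val (hm_aux hω hd) (mul_eq_one_comm.1 (hm_aux hω hd))

theorem hm_inv_val (hω : Om ω) (hd : d ^ 3 = 1) :
    (hm ω d)⁻¹.val = 1 + ((ω : F) ^ 2 - 1) • pj d :=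
  Units.inv_eq_of_mul_eq_one_right (by rw [hm_val hω hd, hm_aux hω hd])

theorem hm_inv (hd : d ^ 3 = 1) : hm ω d⁻¹ = hm ω d := by rw [hm, pj_inv hd, hm]

theorem hm_conj (hω : Om ω) (hd : d ^ 3 = 1) (g : GL ι F) :
    g * hm ω d * g⁻¹ = hm ω (g * d * g⁻¹) := Units.ext (by
  rw [hm_val hω (by rw [conj_pow, hd, mul_one, mul_inv_cancel]), pj_conj, Units.val_mul,
    Units.val_mul, hm_val hω hd, mul_add, add_mul, mul_one, Units.mul_inv, mul_smul_comm,
    smul_mul_assoc])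

theorem hm_comm_of (hω : Om ω) (hd : d ^ 3 = 1) (h : m * pj d = pj d * m) :
    m * (hm ω d).val = (hm ω d).val * m := by
  rw [hm_val hω hd, mul_add, add_mul, mul_smul_comm, smul_mul_assoc, h, mul_one, one_mul]

theorem hm_comm (hω : Om ω) (hd : d ^ 3 = 1) (h : g * d = d * g) : g * hm ω d = hm ω d * g :=
  Units.ext (hm_comm_of hω hd (pj_comm' h))

theorem comm_pj_of_hm (hω : Om ω) (hd : d ^ 3 = 1) (h : g * hm ω d = hm ω d * g) :
    g.val * pj d = pj d * g.val := by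
  have h1 := congrArg Units.val h
  rw [Units.val_mul, Units.val_mul, hm_val hω hd, mul_add, add_mul, mul_smul_comm, smul_mul_assoc,
    mul_one, one_mul, add_right_inj] at h1
  exact smul_right_injective _ (sub_ne_zero.2 hω.ne_one) h1

theorem hm_mul_pj (hω : Om ω) (hd : d ^ 3 = 1) : (hm ω d).val * pj d = (ω : F) • pj d := by
  rw [hm_val hω hd, add_mul, smul_mul_assoc, pj_idem hω hd, one_mul]; module

theorem hm_cube (hω : Om ω) (hd : d ^ 3 = 1) : hm ω d ^ 3 = 1 := by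
  have h := hω.eq
  rw [pow_three, mul_eq_one_iff_inv_eq]
  refine Units.ext ?_
  simp only [hm_inv_val hω hd, Units.val_mul, hm_val hω hd, mul_add, add_mul, smul_mul_assoc,
    mul_smul_comm, one_mul, mul_one, pj_idem hω hd]
  module

theorem hm_smul (hω : Om ω) (hd : d ^ 3 = 1) : hm ω (ω • d) = ω • ω • (d * hm ω d) := by
  have h := hω.eq
  have h3 := inv_mul_cancel₀ hω.ne
  refine Units.ext ?_
  rw [hm_val hω (smul_cube hω hd), smul_val, smul_val, Units.val_mul, hm_val hω hd, mul_add,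
    mul_smul_comm, mul_pj hd]
  simp only [pj, smul_val, smul_mul_assoc, mul_smul_comm, mul_one]
  match_scalars
  · linear_combination (-1 : F) * h3 - (3 : F)⁻¹ * ((ω : F) - 2) * h
  · linear_combination ((ω : F) ^ 2) * h3 - (3 : F)⁻¹ * (ω : F) * h
  · ring

theorem hm_smul2 (hω : Om ω) (hd : d ^ 3 = 1) :
    hm ω (ω • ω • d) = ω • ω • (d * d * hm ω d) := by
  rw [hm_smul hω (smul_cube hω hd), hm_smul hω hd]
  simp only [smul_mul_assoc, mul_smul_comm, smul3 hω, mul_assoc]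

theorem hm_inv_conj (hω : Om ω) (hd : d ^ 3 = 1) (h : y * d = ω • (d * y)) :
    (hm ω d)⁻¹ * y * hm ω d = ω • ω • (d * y) := by
  have h1 := hm_conj hω hd y
  rw [rel_conj h, hm_smul hω hd, hm_comm hω hd rfl, mul_inv_eq_iff_eq_mul] at h1
  rw [mul_assoc, h1]
  simp only [smul_mul_assoc, mul_smul_comm, mul_assoc, inv_mul_cancel_left]

theorem hm_conj_rel (hω : Om ω) (hd : d ^ 3 = 1) (h : y * d = ω • (d * y)) :
    hm ω d * y * (hm ω d)⁻¹ = ω • (d⁻¹ * y) := by
  have h1 := hm_inv_conj hω hd h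
  have h2 : hm ω d * d⁻¹ = d⁻¹ * hm ω d := (hm_comm hω hd (by group)).symm
  have h3 : y = ω • (d⁻¹ * ((hm ω d)⁻¹ * y * hm ω d)) := by
    rw [h1, mul_smul_comm, mul_smul_comm, smul3 hω, inv_mul_cancel_left]
  calc _ = hm ω d * (ω • (d⁻¹ * ((hm ω d)⁻¹ * y * hm ω d))) * (hm ω d)⁻¹ := by rw [← h3]
    _ = ω • (hm ω d * d⁻¹ * (hm ω d)⁻¹ * y) := by
      simp only [smul_mul_assoc, mul_smul_comm, mul_assoc, mul_inv_cancel, mul_one]
    _ = _ := by rw [h2, mul_inv_cancel_right]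

theorem hm_conj_rel' (hω : Om ω) (hd : d ^ 3 = 1) (h : d * y = ω • (y * d)) :
    hm ω d * y * (hm ω d)⁻¹ = ω • (d * y) := by
  simpa only [hm_inv hd, inv_inv] using
    hm_conj_rel hω (d := d⁻¹) (by rw [inv_pow, hd, inv_one]) (rel_inv h)

theorem hm_inv_conj' (hω : Om ω) (hd : d ^ 3 = 1) (h : d * y = ω • (y * d)) :
    (hm ω d)⁻¹ * y * hm ω d = ω • ω • (d⁻¹ * y) := by
  simpa only [hm_inv hd] using
    hm_inv_conj hω (d := d⁻¹) (by rw [inv_pow, hd, inv_one]) (rel_inv h)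

/-- the homologies of two elements agreeing on a block agree on the block -/
theorem hm_loc (hω : Om ω) (hu : u ^ 3 = 1) (hv : v ^ 3 = 1) (h1 : v.val * m = m * v.val)
    (h : u.val * m = v.val * m) : (hm ω u).val * m = (hm ω v).val * m := by
  have h2 : u.val * (u.val * m) = v.val * (v.val * m) := by
    rw [h, h1, ← mul_assoc, h, mul_assoc]
  simp only [hm_val hω hu, hm_val hω hv, pj, add_mul, smul_mul_assoc, mul_assoc, h2]
  rw [h]

/-! ### the involution -/

section tt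

variable (hω : Om ω) (hd : d ^ 3 = 1) (hx : x ^ 3 = 1) (h : x * d = ω • (d * x))
include hω hd hx h

theorem ss_conj_d : ss ω d x * d * (ss ω d x)⁻¹ = d⁻¹ := by
  have h1 : ∀ g, hm ω d * (hm ω x)⁻¹ * g * (hm ω d * (hm ω x)⁻¹)⁻¹ =
    hm ω d * ((hm ω x)⁻¹ * g * hm ω x) * (hm ω d)⁻¹ := fun g => by group
  have a1 : hm ω d * (hm ω x)⁻¹ * x * (hm ω d * (hm ω x)⁻¹)⁻¹ = ω • (d⁻¹ * x) := by
    rw [h1, mul_assoc _ x, hm_comm hω hx rfl, inv_mul_cancel_left, hm_conj_rel hω hd h]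
  have a2 : hm ω d * (hm ω x)⁻¹ * d * (hm ω d * (hm ω x)⁻¹)⁻¹ = ω • (x⁻¹ * d * d) := by
    rw [h1, hm_inv_conj' hω hx h, mul_smul_comm, mul_smul_comm, smul_mul_assoc, smul_mul_assoc,
      ← conj_mul, ← conj_inv, hm_conj_rel hω hd h, ← hm_comm hω hd rfl, mul_inv_cancel_right]
    simp only [smul_inv, hω.inv, pow_two, mul_smul, smul_mul_assoc, smul3 hω, mul_inv_rev, inv_inv]
  rw [ss, pow_two, show ∀ q : GL ι F, q * q * d * (q * q)⁻¹ = q * (q * d * q⁻¹) * q⁻¹ from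
    fun q => by group, a2, mul_smul_comm, smul_mul_assoc, ← conj_mul, ← conj_mul, ← conj_inv, a1, a2]
  simp only [smul_inv, hω.inv, pow_two, mul_smul, smul_mul_assoc, mul_smul_comm, smul3 hω,
    mul_inv_rev, inv_eq_sq hd, inv_eq_sq hx, mul_assoc, h, rel_mul h, cube_mul hd, cube_mul hx,
    cube_one hx, cube_one hd, mul_one]

theorem ss_conj_x : ss ω d x * x * (ss ω d x)⁻¹ = x⁻¹ := by
  have h1 : ∀ g, hm ω d * (hm ω x)⁻¹ * g * (hm ω d * (hm ω x)⁻¹)⁻¹ =
    hm ω d * ((hm ω x)⁻¹ * g * hm ω x) * (hm ω d)⁻¹ := fun g => by group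
  have a1 : hm ω d * (hm ω x)⁻¹ * x * (hm ω d * (hm ω x)⁻¹)⁻¹ = ω • (d⁻¹ * x) := by
    rw [h1, mul_assoc _ x, hm_comm hω hx rfl, inv_mul_cancel_left, hm_conj_rel hω hd h]
  have a2 : hm ω d * (hm ω x)⁻¹ * d * (hm ω d * (hm ω x)⁻¹)⁻¹ = ω • (x⁻¹ * d * d) := by
    rw [h1, hm_inv_conj' hω hx h, mul_smul_comm, mul_smul_comm, smul_mul_assoc, smul_mul_assoc,
      ← conj_mul, ← conj_inv, hm_conj_rel hω hd h, ← hm_comm hω hd rfl, mul_inv_cancel_right]
    simp only [smul_inv, hω.inv, pow_two, mul_smul, smul_mul_assoc, smul3 hω, mul_inv_rev, inv_inv]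
  rw [ss, pow_two, show ∀ q : GL ι F, q * q * x * (q * q)⁻¹ = q * (q * x * q⁻¹) * q⁻¹ from
    fun q => by group, a1, mul_smul_comm, smul_mul_assoc, ← conj_mul, ← conj_inv, a1, a2]
  simp only [smul_inv, hω.inv, pow_two, mul_smul, smul_mul_assoc, mul_smul_comm, smul3 hω,
    mul_inv_rev, inv_eq_sq hd, inv_eq_sq hx, mul_assoc, h, rel_mul h, cube_mul hd, cube_mul hx,
    cube_one hx, cube_one hd, mul_one]

theorem tt_val : (tt ω d x).val =
    (3 : F) • (pj d + pj x - pj d * pj x - pj x * pj d) - 1 := by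
  have e := hω.eq
  have h3 := inv_mul_cancel₀ hω.ne
  have p1 := pj_pj_pj hω hd h
  have p2 := pj_pj_pj' hω hx hd h
  have p3 : pj d * (pj x * (pj d * pj x)) = (3 : F)⁻¹ • (pj d * pj x) := by
    rw [← mul_assoc, ← mul_assoc, p1, smul_mul_assoc]
  rw [mul_assoc] at p1 p2
  rw [tt, sc_mul, smul_val, ss, pow_two]
  simp only [Units.val_mul, hm_val hω hd, hm_inv_val hω hx, mul_add, add_mul, smul_mul_assoc,
    mul_smul_comm, one_mul, mul_one, mul_assoc, pj_idem hω hd, pj_idem hω hx, pj_idem' hω hd,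
    pj_idem' hω hx, p1, p2, p3, Units.val_neg, Units.val_one]
  match_scalars <;> grind

theorem tt_mul_pj : (tt ω d x).val * pj d = pj d := by
  have h3 := inv_mul_cancel₀ hω.ne
  simp only [tt_val hω hd hx h, sub_mul, add_mul, smul_mul_assoc, pj_pj_pj hω hd h, mul_assoc (pj x),
    pj_idem hω hd, one_mul]
  match_scalars <;> grind

theorem pj_mul_tt : pj d * (tt ω d x).val = pj d := by
  have h3 := inv_mul_cancel₀ hω.ne
  simp only [tt_val hω hd hx h, mul_sub, mul_add, mul_smul_comm, ← mul_assoc, pj_pj_pj hω hd h,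
    pj_idem hω hd, mul_one]
  match_scalars <;> grind

theorem tt_mul_pj' : (tt ω d x).val * pj x = pj x := by
  have h3 := inv_mul_cancel₀ hω.ne
  simp only [tt_val hω hd hx h, sub_mul, add_mul, smul_mul_assoc, pj_pj_pj' hω hx hd h,
    mul_assoc (pj d), pj_idem hω hx, one_mul]
  match_scalars <;> grind

theorem pj_mul_tt' : pj x * (tt ω d x).val = pj x := by
  have h3 := inv_mul_cancel₀ hω.ne
  simp only [tt_val hω hd hx h, mul_sub, mul_add, mul_smul_comm, ← mul_assoc, pj_pj_pj' hω hx hd h,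
    pj_idem hω hx, mul_one]
  match_scalars <;> grind

theorem tt_mul_tt : tt ω d x * tt ω d x = 1 := by
  refine Units.ext ?_
  rw [Units.val_mul]
  nth_rewrite 2 [tt_val hω hd hx h]
  simp only [mul_sub, mul_add, mul_smul_comm, ← mul_assoc, tt_mul_pj hω hd hx h,
    tt_mul_pj' hω hd hx h, mul_one]
  rw [tt_val hω hd hx h, sub_sub_cancel, Units.val_one]

theorem tt_conj_d : tt ω d x * d * (tt ω d x)⁻¹ = d⁻¹ := by
  rw [← ss_conj_d hω hd hx h, tt, sc_mul, smul_inv, smul_mul_assoc, smul_mul_assoc, mul_smul_comm,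
    smul_inv_smul]

theorem tt_conj_x : tt ω d x * x * (tt ω d x)⁻¹ = x⁻¹ := by
  rw [← ss_conj_x hω hd hx h, tt, sc_mul, smul_inv, smul_mul_assoc, smul_mul_assoc, mul_smul_comm,
    smul_inv_smul]

end tt

theorem ss_eq (d x : GL ι F) : ss ω d x = (-1 : Fˣ) • tt ω d x := by
  rw [tt, sc_mul, smul_smul, neg_one_mul, neg_neg, one_smul]

theorem ss_conj (hω : Om ω) (hd : d ^ 3 = 1) (hx : x ^ 3 = 1) (g : GL ι F) :
    g * ss ω d x * g⁻¹ = ss ω (g * d * g⁻¹) (g * x * g⁻¹) := by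
  rw [ss, ss, ← hm_conj hω hd, ← hm_conj hω hx, conj_inv, conj_mul, conj_pow]

theorem tt_conj (hω : Om ω) (hd : d ^ 3 = 1) (hx : x ^ 3 = 1) (g : GL ι F) :
    g * tt ω d x * g⁻¹ = tt ω (g * d * g⁻¹) (g * x * g⁻¹) := by
  rw [tt, tt, sc_mul, sc_mul, ← ss_conj hω hd hx, mul_smul_comm, smul_mul_assoc]

theorem tt_comm (hω : Om ω) (hd : d ^ 3 = 1) (hx : x ^ 3 = 1) (h1 : g * d = d * g)
    (h2 : g * x = x * g) : g * tt ω d x = tt ω d x * g := by
  rw [← mul_inv_eq_iff_eq_mul, tt_conj hω hd hx, h1, h2, mul_inv_cancel_right, mul_inv_cancel_right]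

end H13.T3
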