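import Cfsg.Agent.H13.T3A

/-! Movers, symplectic bases and normal forms in an extraspecial group of exponent three. -/

set_option autoImplicit false
set_option linter.unusedSectionVars false

namespace H13.T3

open Matrix hiding mul_inv_rev
open Cfsg Cfsg.Geo H25 H60.L3
open scoped MatrixGroups commutatorElement

variable {F : Type*} [Field F] {ι : Type} [Fintype ι] [DecidableEq ι]
variable {ω : Fˣ} {R G : Subgroup (GL ι F)} {d d' x x' y y' e f g r s u v z : GL ι F}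

theorem mem_N (hg : g ∈ subgroupNormalizer R) (hr : r ∈ R) : g * r * g⁻¹ ∈ R :=
  (Subgroup.mem_normalizer_iff.1 hg r).1 hr

theorem le_N : R ≤ subgroupNormalizer R := Subgroup.le_normalizer

theorem mem_N_of [Finite F] (h : ∀ r ∈ R, g * r * g⁻¹ ∈ R) : g ∈ subgroupNormalizer R :=
  Subgroup.mem_normalizer_fintype h

theorem Z_le_N : scalars ι F ≤ subgroupNormalizer R := fun z hz =>
  Subgroup.mem_normalizer_iff.2 fun r => by rw [comm_of_mem_scalars hz, mul_inv_cancel_right]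

theorem smul_mem_N (c : Fˣ) : c • g ∈ subgroupNormalizer R ↔ g ∈ subgroupNormalizer R := by
  rw [← sc_mul, (subgroupNormalizer R).mul_mem_cancel_left (Z_le_N (sc_mem c))]

theorem pow_mod3 {Γ : Type*} [Group Γ] {a : Γ} (h : a ^ 3 = 1) (k : ℕ) :
    a ^ k = 1 ∨ a ^ k = a ∨ a ^ k = a⁻¹ := by
  rw [← Nat.div_add_mod k 3, pow_add, pow_mul, h, one_pow, one_mul, inv_eq_sq h]
  have : k % 3 < 3 := Nat.mod_lt _ (by norm_num)
  interval_cases k % 3 <;> simp [pow_two]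

theorem rel_mul_comm {c : Fˣ} (h : g * e = c • (e * g)) (h' : u * e = e * u) :
    g * u * e = c • (e * (g * u)) := by rw [mul_assoc, h', rel_mul h]

theorem adj1 {k : ℕ} (h : x * d = ω • (d * x)) (hg : g * x = ω ^ k • (x * g)) :
    g * d ^ k * x = x * (g * d ^ k) := by
  rw [mul_assoc, rel_symm (rel_pow h k), mul_smul_comm, rel_mul hg, inv_smul_smul]

theorem adj2 (hω : Om ω) {k : ℕ} (h : x * d = ω • (d * x)) (hg : g * d = ω ^ k • (d * g)) :
    g * x ^ (2 * k) * d = d * (g * x ^ (2 * k)) := by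
  rw [mul_assoc, pow_rel h, mul_smul_comm, rel_mul hg, smul_smul, ← pow_add,
    show 2 * k + k = 3 * k by ring, pow_mul, hω.cube, one_pow, one_smul]

theorem ne_of_rel [Nonempty ι] (hω : Om ω) (h : x * d = ω • (d * x)) : x * d ≠ d * x := fun h1 =>
  hω.ne_one (congrArg Units.val (smul_inj (h.symm.trans (h1.trans (one_smul _ _).symm))))

theorem not_Z_of_ne (h : x * d ≠ d * x) : d ∉ scalars ι F := fun hd =>
  h (comm_of_mem_scalars hd x).symm

theorem Z_cube [Nonempty ι] (hω : Om ω) (hz : z ∈ scalars ι F) (h : z ^ 3 = 1) :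
    ∃ k : ℕ, z = ω ^ k • (1 : GL ι F) := by
  obtain ⟨c, rfl⟩ := mem_Z.1 hz
  rw [smul_pow, one_pow] at h
  obtain ⟨k, rfl⟩ := hω.exists_pow (smul_inj (h.trans (one_smul _ _).symm))
  exact ⟨k, rfl⟩

theorem ex_pow_of [Nonempty ι] (hω : Om ω) (he : e ^ 3 = 1) (h : ⁅g, e⁆ ∈ scalars ι F) :
    ∃ k : ℕ, g * e = ω ^ k • (e * g) ∧ (g * e = e * g → k = 0) := by
  by_cases hc : g * e = e * g
  · exact ⟨0, by simpa using hc, fun _ => rfl⟩
  obtain ⟨c, h1⟩ := mem_Z.1 h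
  have h2 : g * e * g⁻¹ = c • e := by
    rw [← one_mul e, ← smul_mul_assoc, ← h1, commutatorElement_def]; group
  have h3 : (c • e) ^ 3 = 1 := by rw [← h2, conj_pow, he, mul_one, mul_inv_cancel]
  rw [smul_pow, he] at h3
  obtain ⟨k, rfl⟩ := hω.exists_pow (smul_inj (h3.trans (one_smul _ _).symm))
  exact ⟨k, by rw [← smul_mul_assoc, ← h2, inv_mul_cancel_right], fun h => absurd h hc⟩

namespace Ex

variable (hR : Ex ω R)
include hR

theorem smul_mem (hr : r ∈ R) : ω • r ∈ R := sc_mul ω r ▸ R.mul_mem hR.wm hr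

theorem pow_smul_mem (k : ℕ) (hr : r ∈ R) : ω ^ k • r ∈ R := by
  rw [← sc_mul, map_pow]; exact R.mul_mem (R.pow_mem hR.wm k) hr

theorem mem_of_Z (hz : z ∈ scalars ι F) (h : z ^ 3 = 1) : z ∈ R := by
  have := hR.ne
  obtain ⟨k, rfl⟩ := Z_cube hR.om hz h
  exact hR.pow_smul_mem k R.one_mem

theorem ex_pow (hr : r ∈ R) (hs : s ∈ R) :
    ∃ k : ℕ, r * s = ω ^ k • (s * r) ∧ (r * s = s * r → k = 0) :=
  have := hR.ne
  ex_pow_of hR.om (hR.cube s hs) (hR.comm r hr s hs)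

theorem tri (hr : r ∈ R) (hs : s ∈ R) :
    r * s = s * r ∨ r * s = ω • (s * r) ∨ s * r = ω • (r * s) := by
  obtain ⟨k, h, -⟩ := hR.ex_pow hr hs
  rcases pow_mod3 hR.om.cube k with h1 | h1 | h1 <;> rw [h1] at h
  · exact Or.inl (by simpa using h)
  · exact Or.inr (Or.inl h)
  · exact Or.inr (Or.inr (by rw [h, smul_inv_smul]))

theorem rel_of_ne (he : e ∈ R) (hy : y ∈ R) (h : e * y ≠ y * e) :
    ∃ k : ℕ, e ^ k * y = ω • (y * e ^ k) := by
  rcases hR.tri he hy with h1 | h1 | h1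
  · exact absurd h1 h
  · exact ⟨1, by simpa using h1⟩
  · exact ⟨2, by rw [rel_pow h1, pow_two ω, mul_smul, smul3 hR.om]⟩

theorem Z_of_comm (h : ∀ r ∈ R, g * r = r * g) : g ∈ scalars ι F :=
  have := hR.ne
  mem_scalars_of_comm_eq_one hR.spans fun r hr => commutatorElement_eq_one_iff_mul_comm.2 (h r hr)

theorem exists_ne (h : g ∉ scalars ι F) : ∃ r ∈ R, r * g ≠ g * r := by
  by_contra! h1
  exact h (hR.Z_of_comm fun r hr => (h1 r hr).symm)

theorem exists_rel (hd : d ∈ R) (h : d ∉ scalars ι F) : ∃ x ∈ R, x * d = ω • (d * x) := by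
  obtain ⟨r, hr, h1⟩ := hR.exists_ne h
  obtain ⟨k, h2⟩ := hR.rel_of_ne hr hd h1
  exact ⟨_, R.pow_mem hr k, h2⟩

theorem hm_mem_N [Finite F] (hd : d ∈ R) : hm ω d ∈ subgroupNormalizer R := mem_N_of fun r hr => by
  rcases hR.tri hr hd with h | h | h
  · rwa [← hm_comm hR.om (hR.cube d hd) h, mul_inv_cancel_right]
  · exact hm_conj_rel hR.om (hR.cube d hd) h ▸ hR.smul_mem (R.mul_mem (R.inv_mem hd) hr)
  · exact hm_conj_rel' hR.om (hR.cube d hd) h ▸ hR.smul_mem (R.mul_mem hd hr)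

theorem ss_mem_N [Finite F] (hd : d ∈ R) (hx : x ∈ R) : ss ω d x ∈ subgroupNormalizer R :=
  pow_mem (mul_mem (hR.hm_mem_N hd) (inv_mem (hR.hm_mem_N hx))) 2

theorem tt_mem_N [Finite F] (hd : d ∈ R) (hx : x ∈ R) : tt ω d x ∈ subgroupNormalizer R :=
  mul_mem (Z_le_N (sc_mem _)) (hR.ss_mem_N hd hx)

theorem eq_one_of_sq (hr : r ∈ R) (h : r * r = 1) : r = 1 := by
  rw [← cube_one (hR.cube r hr), h, mul_one]

theorem Z_of_sq (hr : r ∈ R) (h : r * r ∈ scalars ι F) : r ∈ scalars ι F := by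
  rw [← inv_eq_sq (hR.cube r hr)] at h
  simpa using h

theorem tt_not_Z (hd : d ∈ R) (hx : x ∈ R) (h : x * d = ω • (d * x)) : tt ω d x ∉ scalars ι F :=
  fun h1 => by
    have := hR.ne
    have h2 := tt_conj_d hR.om (hR.cube d hd) (hR.cube x hx) h
    rw [comm_of_mem_scalars h1, mul_inv_cancel_right, eq_inv_iff_mul_eq_one] at h2
    exact ne_of_rel hR.om h (by simp [hR.eq_one_of_sq hd h2])

theorem fix_smul (hs : s ∈ R) (hv : v ∈ R) (h : s * v ≠ v * s) (k : ℕ) :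
    ∃ j : ℕ, s ^ j * (ω ^ k • v) * (s ^ j)⁻¹ = v := by
  obtain ⟨i, h1⟩ := hR.rel_of_ne hs hv h
  refine ⟨i * (2 * k), ?_⟩
  rw [pow_mul, mul_smul_comm, smul_mul_assoc, rel_conj (pow_rel h1 _), smul_smul, ← pow_add,
    show k + 2 * k = 3 * k by ring, pow_mul, hR.om.cube, one_pow, one_smul]

theorem exists_ne_cen (hd : d ∈ R) (hd' : d ∉ scalars ι F) (hy : y ∈ R) (h : d * y = y * d)
    (hi : ∀ k : ℕ, y * d ^ k ∉ scalars ι F) : ∃ e ∈ R, e * d = d * e ∧ e * y ≠ y * e := by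
  by_contra! hc
  obtain ⟨x, hx, h1⟩ := hR.exists_rel hd hd'
  obtain ⟨k, h2, -⟩ := hR.ex_pow hy hx
  refine hi k (hR.Z_of_comm fun r hr => ?_)
  obtain ⟨j, h3, -⟩ := hR.ex_pow hr hd
  have h4 : Commute (r * x ^ (2 * j)) d := adj2 hR.om h1 h3
  have h5 : Commute (r * x ^ (2 * j)) y := hc _ (R.mul_mem hr (R.pow_mem hx _)) h4
  have h6 : Commute (y * d ^ k) x := adj1 h1 h2
  simpa using ((h5.mul_right (h4.pow_right k)).symm.mul_right (h6.pow_right (2 * j)).inv_right).eq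

theorem pj_ne_zero (hd : d ∈ R) (hd' : d ∉ scalars ι F) : pj d ≠ 0 := fun h => by
  have := hR.ne
  obtain ⟨x, hx, h1⟩ := hR.exists_rel hd hd'
  have h2 : pj (ω • d) = 0 := by rw [← rel_conj h1, pj_conj, h, mul_zero, zero_mul]
  have h3 : pj (ω • ω • d) = 0 := by
    rw [← rel_conj h1, ← smul_mul_assoc, ← mul_smul_comm, pj_conj, h2, mul_zero, zero_mul]
  simpa [h, h2, h3] using pj_sum hR.om d

theorem smul_pj_inj (hd : d ∈ R) (hd' : d ∉ scalars ι F) {a b : F} (h : a • pj d = b • pj d) :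
    a = b := smul_left_injective F (hR.pj_ne_zero hd hd') h

theorem comm_of_mul_pj (hd : d ∈ R) (hd' : d ∉ scalars ι F) (hu : u ∈ R) {c : F}
    (h : u.val * pj d = c • pj d) (he : e ∈ R) (h1 : e * d = d * e) : e * u = u * e := by
  obtain ⟨k, h2, -⟩ := hR.ex_pow he hu
  have h3 : (e * u * e⁻¹).val * pj d = c • pj d := by
    rw [Units.val_mul, Units.val_mul, mul_assoc, pj_comm' (show Commute e d from h1).inv_left.eq,
      ← mul_assoc, mul_assoc e.val, h, mul_smul_comm, smul_mul_assoc, pj_comm' h1,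
      Units.mul_inv_cancel_right]
  rw [rel_conj h2, smul_val, smul_mul_assoc, h, smul_smul] at h3
  have h4 : c ≠ 0 := by
    rintro rfl
    exact hR.pj_ne_zero hd hd' (by rw [← u.inv_mul_cancel_left (pj d), h, zero_smul, mul_zero])
  have h5 : ω ^ k = 1 := Units.ext ((mul_eq_right₀ h4).1 (hR.smul_pj_inj hd hd' h3))
  rw [h2, h5, one_smul]

theorem dep_of_mul_pj (hd : d ∈ R) (hd' : d ∉ scalars ι F) (hu : u ∈ R) {c : F}
    (h : u.val * pj d = c • pj d) : ∃ k : ℕ, u * d ^ k ∈ scalars ι F := by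
  by_contra! hc
  obtain ⟨e, he, h1, h2⟩ := hR.exists_ne_cen hd hd' hu (hR.comm_of_mul_pj hd hd' hu h hd rfl) hc
  exact h2 (hR.comm_of_mul_pj hd hd' hu h he h1)

theorem pow_mul_pj (hd : d ∈ R) (k : ℕ) : (d ^ k).val * pj d = pj d := by
  induction k with
  | zero => simp
  | succ k ih => rw [pow_succ, Units.val_mul, mul_assoc, mul_pj (hR.cube d hd), ih]

theorem eq_of_mul_pj (hd : d ∈ R) (hd' : d ∉ scalars ι F) (hu : u ∈ R)
    (h : u.val * pj d = pj d) : u = 1 ∨ u = d ∨ u = d⁻¹ := by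
  obtain ⟨k, h1⟩ := hR.dep_of_mul_pj hd hd' hu (c := 1) (by rw [h, one_smul])
  obtain ⟨c, h2⟩ := mem_Z.1 h1
  have h3 := congrArg (fun g : GL ι F => g.val * pj d) h2
  simp only [Units.val_mul, mul_assoc, hR.pow_mul_pj hd, h, smul_val, Units.val_one, smul_mul_assoc,
    one_mul] at h3
  have h4 : c = 1 := Units.ext (hR.smul_pj_inj hd hd' (h3.symm.trans (one_smul _ _).symm))
  rw [h4, one_smul, mul_eq_one_iff_eq_inv] at h2
  rcases pow_mod3 (hR.cube d hd) k with h5 | h5 | h5 <;> simp [h2, h5]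

theorem pj_eq (hd : d ∈ R) (hd' : d ∉ scalars ι F) (hu : u ∈ R) (h : pj u = pj d) :
    u = d ∨ u = d⁻¹ := by
  refine (hR.eq_of_mul_pj hd hd' hu (h ▸ mul_pj (hR.cube u hu))).resolve_left fun h1 => hd' ?_
  have h2 : pj d = 1 := by
    simpa [h] using pj_fix hR.om (d := u) (m := 1) (by simp [h1])
  have h3 := mul_pj (hR.cube d hd)
  rw [h2, mul_one] at h3
  exact (Units.ext h3 : d = 1) ▸ one_mem _

theorem cen_pj (hd : d ∈ R) (hd' : d ∉ scalars ι F) (hg : g ∈ subgroupNormalizer R)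
    (h : g.val * pj d = pj d * g.val) : g * d * g⁻¹ = d ∨ g * d * g⁻¹ = d⁻¹ :=
  hR.pj_eq hd hd' (mem_N hg hd) (by rw [pj_conj, h, Units.mul_inv_cancel_right])

theorem trace_zero (hd : d ∈ R) (hd' : d ∉ scalars ι F) : d.val.trace = 0 :=
  have := hR.ne
  trace_eq_zero_of_not_scalar hR.spans hR.comm hd hd'

theorem card_w : Nat.card (Subgroup.zpowers (sc ι ω)) = 3 := by
  have := hR.ne
  have : Fact (Nat.Prime 3) := ⟨Nat.prime_three⟩
  rw [Nat.card_zpowers]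
  exact orderOf_eq_prime (hR.cube _ hR.wm) fun h3 => hR.om.ne_one (Units.ext_iff.1
    (smul_inj ((sc_eq ω).symm.trans (h3.trans (one_smul _ _).symm))))

theorem card_step [Finite F] {Q : Subgroup (GL ι F)} (hQ : Q ≤ R) (he : e ∈ R) (hu : u ∈ Q)
    (h : u * e ≠ e * u) : Nat.card Q = 3 * Nat.card ↥(Q ⊓ Subgroup.centralizer {e}) := by
  let φ : Q →* GL ι F := MonoidHom.mk' (fun q => ⁅(q : GL ι F), e⁆) fun a b => by
    have h1 := comm_of_mem_scalars (hR.comm _ (hQ b.2) e he)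
    rw [Subgroup.coe_mul]
    generalize (a : GL ι F) = a, (b : GL ι F) = b at *
    calc _ = a * ⁅b, e⁆ * (e * a⁻¹ * e⁻¹) := by simp only [commutatorElement_def]; group
      _ = _ := by rw [← h1, ← h1, mul_assoc, commutatorElement_def a]; group
  have h1 : φ.ker = (Q ⊓ Subgroup.centralizer {e}).subgroupOf Q := by
    ext q
    simp [φ, Subgroup.mem_subgroupOf, Subgroup.mem_centralizer_singleton_iff,
      commutatorElement_eq_one_iff_mul_comm]
  have h2 : φ.range ≤ Subgroup.zpowers (sc ι ω) := by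
    rintro _ ⟨q, rfl⟩
    obtain ⟨k, h2, -⟩ := hR.ex_pow (hQ q.2) he
    refine ⟨k, ?_⟩
    simp only [φ, MonoidHom.mk'_apply, commutatorElement_def, rel_conj h2, smul_mul_assoc,
      mul_inv_cancel, zpow_natCast, sc_eq, smul_pow, one_pow]
  have h3 := hR.card_w
  have h4 : Nat.card φ.range = 3 := by
    refine ((Nat.dvd_prime Nat.prime_three).1 (h3 ▸ Subgroup.card_dvd_of_le h2)).resolve_left ?_
    rw [Subgroup.card_eq_one]
    intro h4
    exact h (commutatorElement_eq_one_iff_mul_comm.1 (Subgroup.mem_bot.1 (h4 ▸ ⟨⟨u, hu⟩, rfl⟩)))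
  rw [← Subgroup.index_mul_card φ.ker, Subgroup.index_ker, h4, h1,
    Nat.card_congr (Subgroup.subgroupOfEquivOfLe inf_le_left).toEquiv]

theorem exists_sb2 (hd : d ∈ R) (hd' : d ∉ scalars ι F) (hy : y ∈ R) (h : d * y = y * d)
    (he : e ∈ R) (h1 : e * d = d * e) (h2 : e * y ≠ y * e) : ∃ x y', Sb ω R d x y y' := by
  obtain ⟨k, h3⟩ := hR.rel_of_ne he hy h2
  obtain ⟨x, hx, h4⟩ := hR.exists_rel hd hd'
  have h5 : Commute (e ^ k) d := (show Commute e d from h1).pow_left k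
  have he' := R.pow_mem he k
  generalize e ^ k = y' at *
  obtain ⟨i, a1, -⟩ := hR.ex_pow hx he'
  obtain ⟨j, a2, -⟩ := hR.ex_pow hx hy
  have a3 : Commute (x * y ^ i) y' := adj1 h3 a1
  refine ⟨x * y ^ i * y' ^ (2 * j), y', hd, R.mul_mem (R.mul_mem hx (R.pow_mem hy i))
    (R.pow_mem he' _), hy, he', ?_, by rw [sc_mul, h3], h, h5.symm, ?_, ?_⟩
  · rw [sc_mul]
    exact rel_mul_comm (rel_mul_comm h4 ((show Commute d y from h).pow_right i).symm.eq)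
      (h5.pow_left _).eq
  · exact adj2 hR.om h3 (rel_mul_comm a2 (Commute.pow_self y i).eq)
  · exact (a3.mul_left (Commute.pow_self y' _)).eq

end Ex

namespace Ov0

variable [Finite F] (h : Ov0 ω R G)
include h

theorem move (hu : u ∈ R) (hv : v ∈ R) (hs : s ∈ R) (huv : u * v ≠ v * u) (hsv : s * v ≠ v * s) :
    ∃ n ∈ G, n ∈ subgroupNormalizer R ∧ n * u * n⁻¹ = v ∧
      ∀ g, g * (v * u⁻¹) = v * u⁻¹ * g → g * s = s * g → g * n = n * g := by
  have he : v * u⁻¹ ∈ R := R.mul_mem hv (R.inv_mem hu)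
  have h1 : u * (v * u⁻¹) ≠ v * u⁻¹ * u := fun h1 => huv (by
    rw [inv_mul_cancel_right, ← mul_assoc, mul_inv_eq_iff_eq_mul] at h1; exact h1)
  have hc := h.cube _ he
  have hG := h.hmem _ he (not_Z_of_ne h1)
  have hN := h.toEx.hm_mem_N he
  obtain ⟨n, n1, n2, ⟨k, n3⟩, n4⟩ : ∃ n ∈ G, n ∈ subgroupNormalizer R ∧
      (∃ k : ℕ, n * u * n⁻¹ = ω ^ k • v) ∧ ∀ g, g * (v * u⁻¹) = v * u⁻¹ * g → g * n = n * g := by
    rcases h.toEx.tri hu he with h2 | h2 | h2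
    · exact absurd h2 h1
    · exact ⟨_, inv_mem hG, inv_mem hN, ⟨2, by
        rw [inv_inv, hm_inv_conj h.om hc h2, inv_mul_cancel_right, pow_two, mul_smul]⟩,
        fun g hg => (show Commute _ _ from hm_comm h.om hc hg).inv_right.eq⟩
    · exact ⟨_, hG, hN, ⟨1, by rw [hm_conj_rel' h.om hc h2, inv_mul_cancel_right, pow_one]⟩,
        fun g hg => hm_comm h.om hc hg⟩
  obtain ⟨j, hj⟩ := h.toEx.fix_smul hs hv hsv k
  refine ⟨s ^ j * n, mul_mem (h.le (R.pow_mem hs j)) n1, mul_mem (le_N (R.pow_mem hs j)) n2, ?_,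
    fun g h2 h3 => (((show Commute g s from h3).pow_right j).mul_right (n4 g h2)).eq⟩
  rw [← hj, ← n3]; group

theorem moveQ {Q : Subgroup (GL ι F)} (hQ : Q ≤ R) (hu : u ∈ Q) (hv : v ∈ Q)
    (h1 : ∃ a ∈ Q, a * u ≠ u * a) (h2 : ∃ b ∈ Q, b * v ≠ v * b) :
    ∃ n ∈ G, n ∈ subgroupNormalizer R ∧ n * u * n⁻¹ = v ∧
      ∀ g, (∀ q ∈ Q, g * q = q * g) → g * n = n * g := by
  obtain ⟨c, hc, c1, c2⟩ : ∃ c ∈ Q, c * u ≠ u * c ∧ c * v ≠ v * c := by
    obtain ⟨a, ha, a1⟩ := h1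
    obtain ⟨b, hb, b1⟩ := h2
    by_cases a2 : a * v = v * a
    · by_cases b2 : b * u = u * b
      · refine ⟨a * b, Q.mul_mem ha hb, fun e => a1 ?_, fun e => b1 ?_⟩
        · simpa using ((show Commute (a * b) u from e).mul_left (Commute.inv_left b2)).eq
        · simpa using ((Commute.inv_left a2).mul_left (show Commute (a * b) v from e)).eq
      · exact ⟨b, hb, b2, b1⟩
    · exact ⟨a, ha, a1, a2⟩
  obtain ⟨n, n1, n2, n3, n4⟩ := h.move (hQ hu) (hQ hc) (hQ hu) c1.symm c1.symm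
  obtain ⟨m, m1, m2, m3, m4⟩ := h.move (hQ hc) (hQ hv) (hQ hc) c2 c2
  refine ⟨m * n, mul_mem m1 n1, mul_mem m2 n2, by rw [← m3, ← n3]; group, fun g hg => ?_⟩
  exact (Commute.mul_right (m4 g (hg _ (Q.mul_mem hv (Q.inv_mem hc))) (hg _ hc))
    (n4 g (hg _ (Q.mul_mem hc (Q.inv_mem hu))) (hg _ hu))).eq

/-- transitivity on the non-scalar elements -/
theorem move1 (hd : d ∈ R) (h1 : d ∉ scalars ι F) (hd' : d' ∈ R) (h2 : d' ∉ scalars ι F) :
    ∃ n ∈ G, n ∈ subgroupNormalizer R ∧ n * d * n⁻¹ = d' := by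
  obtain ⟨n, n1, n2, n3, -⟩ := h.moveQ le_rfl hd hd' (h.toEx.exists_ne h1) (h.toEx.exists_ne h2)
  exact ⟨n, n1, n2, n3⟩

/-- transitivity on the elements commuting with `d` and independent of it -/
theorem move2 (hy : y ∈ R) (hf : f ∈ R) (h1 : y * d = d * y) (h2 : f * d = d * f)
    (h3 : ∃ e ∈ R, e * d = d * e ∧ e * y ≠ y * e) (h4 : ∃ e ∈ R, e * d = d * e ∧ e * f ≠ f * e) :
    ∃ n ∈ G, n ∈ subgroupNormalizer R ∧ n * y * n⁻¹ = f ∧ d * n = n * d := by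
  have hm : ∀ {e}, e ∈ R → e * d = d * e → e ∈ R ⊓ Subgroup.centralizer {d} := fun a b =>
    ⟨a, Subgroup.mem_centralizer_singleton_iff.2 b⟩
  obtain ⟨n, n1, n2, n3, n4⟩ := h.moveQ inf_le_left (hm hy h1) (hm hf h2)
    (h3.imp fun e a => ⟨hm a.1 a.2.1, a.2.2⟩) (h4.imp fun e a => ⟨hm a.1 a.2.1, a.2.2⟩)
  exact ⟨n, n1, n2, n3, n4 d fun q hq => (Subgroup.mem_centralizer_singleton_iff.1 hq.2).symm⟩

/-- transitivity on the partners of `d` -/
theorem move3 (hd : d ∈ R) (hx : x ∈ R) (hx' : x' ∈ R) (h1 : x * d = ω • (d * x))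
    (h2 : x' * d = ω • (d * x')) :
    ∃ n ∈ G, n ∈ subgroupNormalizer R ∧ n * x * n⁻¹ = x' ∧ d * n = n * d := by
  have := h.ne
  have key : ∀ x ∈ R, ∀ x' ∈ R, x * d = ω • (d * x) → x' * d = ω • (d * x') → x * x' ≠ x' * x →
      ∃ n ∈ G, n ∈ subgroupNormalizer R ∧ n * x * n⁻¹ = x' ∧ d * n = n * d :=
    fun x hx x' hx' h1 h2 h3 => by
      obtain ⟨n, n1, n2, n3, n4⟩ := h.move hx hx' hd h3 (ne_of_rel h.om h2).symm
      refine ⟨n, n1, n2, n3, n4 d ?_ rfl⟩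
      rw [mul_assoc, rel_symm (rel_inv h1), mul_smul_comm, rel_mul h2, inv_smul_smul]
  by_cases h3 : x * x' = x' * x
  · have h4 : x * d * d = ω • (d * (x * d)) := rel_mul_comm h1 rfl
    obtain ⟨n, n1, n2, n3, n4⟩ := key x hx _ (R.mul_mem hx hd) h1 h4 fun e =>
      ne_of_rel h.om h1 (mul_left_cancel (e.trans (mul_assoc _ _ _)))
    obtain ⟨m, m1, m2, m3, m4⟩ := key _ (R.mul_mem hx hd) x' hx' h4 h2 fun e =>
      ne_of_rel h.om h2 (mul_left_cancel (a := x) (by rw [← mul_assoc, h3, mul_assoc, ← e, mul_assoc]))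
    exact ⟨m * n, mul_mem m1 n1, mul_mem m2 n2, by rw [← m3, ← n3]; group,
      (Commute.mul_right m4 n4).eq⟩
  · exact key x hx x' hx' h1 h2 h3

/-- transitivity on hyperbolic pairs -/
theorem move13 (hd : d ∈ R) (hx : x ∈ R) (hd' : d' ∈ R) (hx' : x' ∈ R) (h1 : x * d = ω • (d * x))
    (h2 : x' * d' = ω • (d' * x')) :
    ∃ n ∈ G, n ∈ subgroupNormalizer R ∧ n * d * n⁻¹ = d' ∧ n * x * n⁻¹ = x' := by
  have := h.ne
  obtain ⟨n, n1, n2, n3⟩ := h.move1 hd (not_Z_of_ne (ne_of_rel h.om h1)) hd'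
    (not_Z_of_ne (ne_of_rel h.om h2))
  obtain ⟨m, m1, m2, m3, m4⟩ := h.move3 hd' (mem_N n2 hx) hx'
    (by rw [← n3, conj_mul, conj_mul, h1, mul_smul_comm, smul_mul_assoc]) h2
  refine ⟨m * n, mul_mem m1 n1, mul_mem m2 n2, ?_, by rw [← m3]; group⟩
  calc _ = m * (n * d * n⁻¹) * m⁻¹ := by group
    _ = _ := by rw [n3, ← m4, mul_inv_cancel_right]

theorem ss_mem (hd : d ∈ R) (hx : x ∈ R) (h1 : x * d = ω • (d * x)) : ss ω d x ∈ G :=
  have := h.ne
  pow_mem (mul_mem (h.hmem d hd (not_Z_of_ne (ne_of_rel h.om h1)))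
    (inv_mem (h.hmem x hx (not_Z_of_ne (ne_of_rel h.om h1).symm)))) 2

end Ov0

namespace Sb

variable (hS : Sb ω R d x y y')
include hS

theorem rel : x * d = ω • (d * x) := by rw [hS.xd, sc_mul]

theorem rel' : y' * y = ω • (y * y') := by rw [hS.yy, sc_mul]

theorem swap : Sb ω R y y' d x :=
  ⟨hS.my, hS.my', hS.md, hS.mx, hS.yy, hS.xd, hS.dy.symm, hS.xy.symm, hS.dy'.symm, hS.xy'.symm⟩

theorem shift (hR : Ex ω R) : Sb ω R (ω • d) x y y' :=
  ⟨hR.smul_mem hS.md, hS.mx, hS.my, hS.my', by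
    rw [sc_mul, mul_smul_comm, hS.rel, smul_mul_assoc], hS.yy, by
    rw [mul_smul_comm, smul_mul_assoc, hS.dy], by rw [mul_smul_comm, smul_mul_assoc, hS.dy'],
    hS.xy, hS.xy'⟩

theorem conj (hg : g ∈ subgroupNormalizer R) :
    Sb ω R (g * d * g⁻¹) (g * x * g⁻¹) (g * y * g⁻¹) (g * y' * g⁻¹) := by
  refine ⟨mem_N hg hS.md, mem_N hg hS.mx, mem_N hg hS.my, mem_N hg hS.my', ?_, ?_, ?_, ?_, ?_, ?_⟩ <;>
    simp only [conj_mul, sc_mul, hS.rel, hS.rel', hS.dy, hS.dy', hS.xy, hS.xy', mul_smul_comm,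
      smul_mul_assoc]

theorem dZ (hR : Ex ω R) : d ∉ scalars ι F := have := hR.ne; not_Z_of_ne (ne_of_rel hR.om hS.rel)

theorem xZ (hR : Ex ω R) : x ∉ scalars ι F :=
  have := hR.ne; not_Z_of_ne (ne_of_rel hR.om hS.rel).symm

theorem adj4 (hR : Ex ω R) (h1 : ⁅g, d⁆ ∈ scalars ι F) (h2 : ⁅g, x⁆ ∈ scalars ι F)
    (h3 : ⁅g, y⁆ ∈ scalars ι F) (h4 : ⁅g, y'⁆ ∈ scalars ι F) : ∃ i j k l : ℕ,
      (Commute (g * d ^ i * x ^ j * y ^ k * y' ^ l) d ∧ Commute (g * d ^ i * x ^ j * y ^ k * y' ^ l) x ∧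
      Commute (g * d ^ i * x ^ j * y ^ k * y' ^ l) y ∧ Commute (g * d ^ i * x ^ j * y ^ k * y' ^ l) y') ∧
      (g * x = x * g → i = 0) ∧ (g * d = d * g → j = 0) ∧ (g * y' = y' * g → k = 0) ∧
      (g * y = y * g → l = 0) := by
  have := hR.ne
  obtain ⟨j, a1, b1⟩ := ex_pow_of hR.om (hR.cube _ hS.md) h1
  obtain ⟨i, a2, b2⟩ := ex_pow_of hR.om (hR.cube _ hS.mx) h2
  obtain ⟨l, a3, b3⟩ := ex_pow_of hR.om (hR.cube _ hS.my) h3
  obtain ⟨k, a4, b4⟩ := ex_pow_of hR.om (hR.cube _ hS.my') h4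
  have c1 : Commute d y := hS.dy
  have c2 : Commute d y' := hS.dy'
  have c3 : Commute x y := hS.xy
  have c4 : Commute x y' := hS.xy'
  refine ⟨i, 2 * j, k, 2 * l, ⟨?_, ?_, ?_, ?_⟩, b2, fun h => by rw [b1 h], b4, fun h => by rw [b3 h]⟩
  · exact (Commute.mul_left (adj2 hR.om hS.rel (rel_mul_comm a1 (Commute.pow_self d i).eq))
      (c1.pow_right k).symm).mul_left (c2.pow_right _).symm
  · exact ((Commute.mul_left (adj1 hS.rel a2) (Commute.pow_self x _)).mul_left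
      (c3.pow_right k).symm).mul_left (c4.pow_right _).symm
  · exact adj2 hR.om hS.rel' (rel_mul_comm (rel_mul_comm (rel_mul_comm a3 (c1.pow_left i).eq)
      (c3.pow_left _).eq) (Commute.pow_self y k).eq)
  · exact Commute.mul_left (adj1 hS.rel' (rel_mul_comm (rel_mul_comm a4 (c2.pow_left i).eq)
      (c4.pow_left _).eq)) (Commute.pow_self y' _)

variable [Finite F] (h : Ov ω R G)
include h

theorem cen (hr : r ∈ R) (h1 : r * d = d * r) (h2 : r * x = x * r) (h3 : r * y = y * r)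
    (h4 : r * y' = y' * r) : r ∈ Subgroup.zpowers (sc ι ω) := by
  have := h.ne
  have hR := h.toEx
  have m := @Subgroup.mem_centralizer_singleton_iff (GL ι F) _
  have a1 := hR.card_step le_rfl hS.md hS.mx (ne_of_rel h.om hS.rel)
  have a2 := hR.card_step (Q := R ⊓ Subgroup.centralizer {d}) inf_le_left hS.mx ⟨hS.md, m.2 rfl⟩
    (ne_of_rel h.om hS.rel).symm
  have a3 := hR.card_step (Q := R ⊓ Subgroup.centralizer {d} ⊓ Subgroup.centralizer {x})
    (inf_le_left.trans inf_le_left) hS.my ⟨⟨hS.my', m.2 hS.dy'.symm⟩, m.2 hS.xy'.symm⟩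
    (ne_of_rel h.om hS.rel')
  have a4 := hR.card_step (Q := R ⊓ Subgroup.centralizer {d} ⊓ Subgroup.centralizer {x} ⊓
    Subgroup.centralizer {y}) (inf_le_left.trans (inf_le_left.trans inf_le_left)) hS.my'
    ⟨⟨⟨hS.my, m.2 hS.dy.symm⟩, m.2 hS.xy.symm⟩, m.2 rfl⟩ (ne_of_rel h.om hS.rel').symm
  have a5 : Subgroup.zpowers (sc ι ω) = R ⊓ Subgroup.centralizer {d} ⊓ Subgroup.centralizer {x} ⊓
      Subgroup.centralizer {y} ⊓ Subgroup.centralizer {y'} :=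
    Subgroup.eq_of_le_of_card_ge (Subgroup.zpowers_le.2 ⟨⟨⟨⟨h.wm, m.2 (sc_comm _ _)⟩,
      m.2 (sc_comm _ _)⟩, m.2 (sc_comm _ _)⟩, m.2 (sc_comm _ _)⟩) (by
      have := h.card; rw [hR.card_w]; omega)
  exact a5 ▸ ⟨⟨⟨⟨hr, m.2 h1⟩, m.2 h2⟩, m.2 h3⟩, m.2 h4⟩

/-- the normal form of the elements of `R` -/
theorem mem_of (H : Subgroup (GL ι F)) (hw : sc ι ω ∈ H) (hr : r ∈ R) (h1 : r * x = x * r ∨ d ∈ H)
    (h2 : r * d = d * r ∨ x ∈ H) (h3 : r * y' = y' * r ∨ y ∈ H) (h4 : r * y = y * r ∨ y' ∈ H) :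
    r ∈ H := by
  obtain ⟨i, j, k, l, ⟨a1, a2, a3, a4⟩, b1, b2, b3, b4⟩ := hS.adj4 h.toEx (h.comm r hr _ hS.md)
    (h.comm r hr _ hS.mx) (h.comm r hr _ hS.my) (h.comm r hr _ hS.my')
  have c := Subgroup.zpowers_le.2 hw (hS.cen h (R.mul_mem (R.mul_mem (R.mul_mem (R.mul_mem hr
    (R.pow_mem hS.md i)) (R.pow_mem hS.mx j)) (R.pow_mem hS.my k)) (R.pow_mem hS.my' l)) a1 a2 a3 a4)
  have p : ∀ {a : GL ι F} {n : ℕ} {P : Prop}, P ∨ a ∈ H → (P → n = 0) → a ^ n ∈ H :=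
    fun h h' => h.elim (fun h => by simp [h' h]) fun h => H.pow_mem h _
  rwa [H.mul_mem_cancel_right (p h4 b4), H.mul_mem_cancel_right (p h3 b3),
    H.mul_mem_cancel_right (p h2 b2), H.mul_mem_cancel_right (p h1 b1)] at c

theorem Z_of_comm (h1 : g * d = d * g) (h2 : g * x = x * g) (h3 : g * y = y * g)
    (h4 : g * y' = y' * g) : g ∈ scalars ι F :=
  have m := @Subgroup.mem_centralizer_singleton_iff (GL ι F) _
  h.toEx.Z_of_comm fun _ hr => (m.1 (hS.mem_of h _ (m.2 (sc_comm _ _)) hr (Or.inr (m.2 h1.symm))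
    (Or.inr (m.2 h2.symm)) (Or.inr (m.2 h3.symm)) (Or.inr (m.2 h4.symm)))).symm

theorem mem_N_of (h1 : g * d * g⁻¹ ∈ R) (h2 : g * x * g⁻¹ ∈ R) (h3 : g * y * g⁻¹ ∈ R)
    (h4 : g * y' * g⁻¹ ∈ R) : g ∈ subgroupNormalizer R :=
  T3.mem_N_of fun _ hr => hS.mem_of h (R.comap (MulAut.conj g).toMonoidHom)
    (show g * _ * g⁻¹ ∈ R by rw [← sc_comm, mul_inv_cancel_right]; exact h.wm) hr
    (Or.inr h1) (Or.inr h2) (Or.inr h3) (Or.inr h4)

theorem self (hg : ∀ r ∈ R, ⁅g, r⁆ ∈ scalars ι F) : ∃ r ∈ R, g * r⁻¹ ∈ scalars ι F := by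
  obtain ⟨i, j, k, l, ⟨a1, a2, a3, a4⟩, -⟩ := hS.adj4 h.toEx (hg _ hS.md) (hg _ hS.mx)
    (hg _ hS.my) (hg _ hS.my')
  exact ⟨_, R.inv_mem (R.mul_mem (R.mul_mem (R.mul_mem (R.pow_mem hS.md i) (R.pow_mem hS.mx j))
    (R.pow_mem hS.my k)) (R.pow_mem hS.my' l)), by
    simpa only [inv_inv, mul_assoc] using hS.Z_of_comm h a1 a2 a3 a4⟩

end Sb

namespace Ov

variable [Finite F] (h : Ov ω R G)
include h

theorem exists_sb3 (hd : d ∈ R) (hx : x ∈ R) (h1 : x * d = ω • (d * x)) :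
    ∃ y y', Sb ω R d x y y' := by
  have := h.ne
  have hR := h.toEx
  have m := @Subgroup.mem_centralizer_singleton_iff (GL ι F) _
  have a1 := hR.card_step le_rfl hd hx (ne_of_rel h.om h1)
  have a2 := hR.card_step (Q := R ⊓ Subgroup.centralizer {d}) inf_le_left hx ⟨hd, m.2 rfl⟩
    (ne_of_rel h.om h1).symm
  obtain ⟨y, ⟨⟨hy, y1⟩, y2⟩, y3⟩ : ∃ y ∈ R ⊓ Subgroup.centralizer {d} ⊓ Subgroup.centralizer {x},
      y ∉ scalars ι F := by
    by_contra! hc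
    have := Subgroup.card_le_of_le (K := Subgroup.zpowers (sc ι ω)) fun y hy => by
      obtain ⟨k, rfl⟩ := Z_cube h.om (hc y hy) (h.cube y hy.1.1)
      exact ⟨k, by simp only [zpow_natCast, sc_eq, smul_pow, one_pow]⟩
    have := h.card
    have := hR.card_w
    omega
  obtain ⟨e, he, h2⟩ := hR.exists_rel hy y3
  obtain ⟨i, b1, -⟩ := hR.ex_pow he hx
  obtain ⟨j, b2, -⟩ := hR.ex_pow he hd
  have c1 : Commute y d := m.1 y1
  have c2 : Commute y x := m.1 y2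
  refine ⟨y, e * d ^ i * x ^ (2 * j), hd, hx, hy, R.mul_mem (R.mul_mem he (R.pow_mem hd i))
    (R.pow_mem hx _), by rw [sc_mul, h1], ?_, c1.symm, ?_, c2.symm, ?_⟩
  · rw [sc_mul]
    exact rel_mul_comm (rel_mul_comm h2 (c1.pow_right i).symm.eq) (c2.pow_right _).symm.eq
  · exact (adj2 h.om h1 (rel_mul_comm b2 (Commute.pow_self d i).eq)).symm
  · exact (Commute.mul_left (adj1 h1 b1) (Commute.pow_self x _)).symm.eq

theorem exists_sb (hd : d ∈ R) (hd' : d ∉ scalars ι F) : ∃ x y y', Sb ω R d x y y' := by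
  obtain ⟨x, hx, h1⟩ := h.toEx.exists_rel hd hd'
  exact ⟨x, h.exists_sb3 hd hx h1⟩

theorem exists_sb0 : ∃ d x y y', Sb ω R d x y y' := by
  have := h.ne
  obtain ⟨d, hd, hd'⟩ : ∃ d ∈ R, d ∉ scalars ι F := by
    by_contra! hc
    have := Subgroup.card_le_of_le (K := Subgroup.zpowers (sc ι ω)) fun y hy => by
      obtain ⟨k, rfl⟩ := Z_cube h.om (hc y hy) (h.cube y hy)
      exact ⟨k, by simp only [zpow_natCast, sc_eq, smul_pow, one_pow]⟩
    have := h.card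
    have := h.toEx.card_w
    omega
  exact ⟨d, h.exists_sb hd hd'⟩

theorem trace_pj (hd : d ∈ R) (hd' : d ∉ scalars ι F) : (pj d).trace = 3 := by
  have h1 := h.toEx.trace_zero (R.mul_mem hd hd) fun e => hd' (h.toEx.Z_of_sq hd e)
  rw [Units.val_mul] at h1
  rw [pj, trace_smul, trace_add, trace_add, h1, h.toEx.trace_zero hd hd', trace_one, h.nine,
    smul_eq_mul, inv_mul_eq_iff_eq_mul₀ h.om.ne]
  norm_num

theorem trace_hm (hd : d ∈ R) (hd' : d ∉ scalars ι F) : (hm ω d).val.trace = 6 + 3 * ω := by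
  rw [hm_val h.om (h.cube d hd), trace_add, trace_smul, h.trace_pj hd hd', trace_one, h.nine]
  simp; ring

theorem trace_hm_inv (hd : d ∈ R) (hd' : d ∉ scalars ι F) :
    (hm ω d)⁻¹.val.trace = 6 + 3 * ω ^ 2 := by
  rw [hm_inv_val h.om (h.cube d hd), trace_add, trace_smul, h.trace_pj hd hd', trace_one, h.nine]
  simp; ring

/-- a homology is not conjugate to the inverse of a homology -/
theorem hm_not_conj (hd : d ∈ R) (h1 : d ∉ scalars ι F) (hd' : d' ∈ R) (h2 : d' ∉ scalars ι F)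
    (g : GL ι F) : g * hm ω d * g⁻¹ ≠ (hm ω d')⁻¹ := fun e => by
  have h3 := congrArg (fun g : GL ι F => g.val.trace) e
  simp only [Units.val_mul, trace_units_conj, h.trace_hm hd h1, h.trace_hm_inv hd' h2] at h3
  have h4 : (3 : F) * ω * (ω - 1) = 0 := by linear_combination -h3
  simp [h.om.ne, sub_eq_zero, h.om.ne_one] at h4

theorem trace_tt (hd : d ∈ R) (hx : x ∈ R) (h1 : x * d = ω • (d * x)) :
    (tt ω d x).val.trace = 3 := by
  have := h.ne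
  have a1 := h.trace_pj hd (not_Z_of_ne (ne_of_rel h.om h1))
  have a2 : (pj d * pj x).trace = 1 := by
    rw [← pj_idem h.om (h.cube d hd), mul_assoc, trace_mul_comm,
      pj_pj_pj h.om (h.cube d hd) h1, trace_smul, a1, smul_eq_mul, inv_mul_cancel₀ h.om.ne]
  rw [tt_val h.om (h.cube d hd) (h.cube x hx) h1, trace_sub, trace_smul, trace_sub, trace_sub,
    trace_add, trace_mul_comm (pj x), a1, a2, h.trace_pj hx (not_Z_of_ne (ne_of_rel h.om h1).symm),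
    trace_one, h.nine]
  norm_num

end Ov

end H13.T3
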