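import Cfsg.Agent.H13.T3B
import Cfsg.Agent.H1.CoprimeGen

/-! Frames on the fixed space of an element of `3^{1+4}` and the passage to dimension three. -/

set_option autoImplicit false
set_option linter.unusedSectionVars false

namespace H13.T3

open Matrix hiding mul_inv_rev
open Cfsg Cfsg.Geo H25 H60.L3
open scoped MatrixGroups commutatorElement

variable {F : Type*} [Field F] {ι : Type} [Fintype ι] [DecidableEq ι]
variable {ω : Fˣ} {R G M K : Subgroup (GL ι F)} {d x y y' e g g' : GL ι F}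
variable {U : Matrix ι (Fin 3) F} {W : Matrix (Fin 3) ι F} {S U₀ : Subgroup (G3 F)} {A B : G3 F}

/-! ### the standard group in dimension three -/

theorem rel6 (hω : Om ω) : (C : G3 F) * X ω = ω • (X ω * C) := by
  rw [← sc_mul, ← D_eq_sc, ← comm_C_X hω, commutatorElement_def]; group

theorem cube_mul_of {c : Fˣ} (hd : d ^ 3 = 1) (hx : x ^ 3 = 1) (h : x * d = c • (d * x))
    (hc : c ^ 3 = 1) : (d * x) ^ 3 = 1 := by
  simp only [pow_three, mul_assoc, h, rel_mul h, mul_smul_comm, smul_smul, cube_mul hd, cube_one hx,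
    cube_one hc, one_smul]

theorem pj6 (hω : Om ω) : pj (ω • ω • X ω) = !![1, 0, 0; 0, 0, 0; 0, 0, 0] := by
  have h := hω.eq
  have h3 := inv_mul_cancel₀ hω.ne
  ext i j
  fin_cases i <;> fin_cases j <;>
    simp [pj, Units.smul_def, X, D_val, hω.inv', one_fin_three] <;> grind

theorem ex6 (hω : Om ω) : Ex ω (R6 ω) := by
  have hw : sc (Fin 3) ω ∈ R6 ω := by simpa [D_eq_sc] using D_mem_R6 hω (one_pow 3) hω.cube
  have hc : ∀ a ∈ R6 ω, ∀ b ∈ R6 ω, ⁅a, b⁆ ∈ scalars (Fin 3) F := by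
    let φ := QuotientGroup.mk' (scalars (Fin 3) F)
    have k : ∀ a b, ⁅a, b⁆ ∈ scalars (Fin 3) F ↔ a ∈ (Subgroup.centralizer {φ b}).comap φ :=
      fun a b => by
        rw [Subgroup.mem_comap, Subgroup.mem_centralizer_singleton_iff,
          ← commutatorElement_eq_one_iff_mul_comm, ← map_commutatorElement, QuotientGroup.mk'_apply,
          QuotientGroup.eq_one_iff]
    have k1 : ∀ b, ⁅X ω, b⁆ ∈ scalars (Fin 3) F → ⁅C, b⁆ ∈ scalars (Fin 3) F →
        ∀ a ∈ R6 ω, ⁅a, b⁆ ∈ scalars (Fin 3) F := fun b h1 h2 a ha =>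
      (k a b).2 ((Subgroup.closure_le _).2 (by
        rintro _ (rfl | rfl); exacts [(k _ b).1 h1, (k _ b).1 h2]) ha)
    have k2 : ⁅(C : G3 F), X ω⁆ ∈ scalars (Fin 3) F := by rw [comm_C_X hω, D_eq_sc]; exact sc_mem _
    have k3 : ∀ a b : G3 F, ⁅a, b⁆ ∈ scalars (Fin 3) F → ⁅b, a⁆ ∈ scalars (Fin 3) F :=
      fun a b h => by simpa using inv_mem h
    exact fun a ha b hb => k1 b (k3 _ _ (k1 _ (by simp) k2 b hb))
      (k3 _ _ (k1 _ (k3 _ _ k2) (by simp) b hb)) a ha
  refine ⟨hω, inferInstance, spans_iff.2 (eq_top_iff.2 fun a _ => ?_), hc, fun a ha => ?_, hw⟩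
  · have h1 : ω • ω • X ω ∈ R6 ω := by
      rw [← sc_mul, ← sc_mul]; exact mul_mem hw (mul_mem hw X_mem_R6)
    have h2 : pj (ω • ω • X ω) ∈ alg (R6 ω) := Subalgebra.smul_mem _ (add_mem (add_mem (one_mem _)
      (coe_mem_alg h1)) (mul_mem (coe_mem_alg h1) (coe_mem_alg h1))) _
    have h3 : ∀ i j : Fin 3, (C : G3 F).val ^ i.val * pj (ω • ω • X ω) * (C : G3 F)⁻¹.val ^ j.val =
        single i j 1 := fun i j => by
      rw [pj6 hω, C_inv_val, C_val]
      fin_cases i <;> fin_cases j <;> ext a b <;> fin_cases a <;> fin_cases b <;>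
        simp [pow_two]
    rw [matrix_eq_sum_single a]
    refine sum_mem fun i _ => sum_mem fun j _ => ?_
    rw [← mul_one (a i j), ← smul_eq_mul, ← smul_single, ← h3]
    exact Subalgebra.smul_mem _ (mul_mem (mul_mem (pow_mem (coe_mem_alg C_mem_R6) _) h2)
      (pow_mem (coe_mem_alg (inv_mem C_mem_R6)) _)) _
  · induction ha using Subgroup.closure_induction with
    | mem a ha =>
      rcases ha with rfl | rfl
      · simp [X, D_pow, hω.cube, D_one]
      · exact Units.ext (by simp [pow_three, C_val, mul_fin_three, one_fin_three])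
    | one => simp
    | mul a b ha hb h1 h2 =>
      obtain ⟨k, h3, -⟩ := ex_pow_of hω h1 (hc b hb a ha)
      exact cube_mul_of h1 h2 h3 (by rw [← pow_mul, mul_comm, pow_mul, hω.cube, one_pow])
    | inv a _ h => rw [inv_pow, h, inv_one]

theorem gen6 [Finite F] {Γ : Subgroup (G3 F)} (h : Ov0 ω (R6 ω) Γ) (hZ : scalars (Fin 3) F ≤ Γ) :
    subgroupNormalizer (R6 ω) ≤ Γ := fun n hn => by
  obtain ⟨m, m1, -, m2, m3⟩ := h.move13 X_mem_R6 C_mem_R6 (mem_N hn X_mem_R6) (mem_N hn C_mem_R6)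
    (rel6 h.om) (by rw [conj_mul, conj_mul, rel6 h.om, mul_smul_comm, smul_mul_assoc])
  have k : ∀ a, m * a * m⁻¹ = n * a * n⁻¹ → a ∈ Subgroup.centralizer {m⁻¹ * n} := fun a ha =>
    Subgroup.mem_centralizer_singleton_iff.2 (by
      calc _ = m⁻¹ * (m * a * m⁻¹) * n := by group
        _ = _ := by rw [ha]; group)
  have h1 : m⁻¹ * n ∈ scalars (Fin 3) F := h.toEx.Z_of_comm fun r hr =>
    (Subgroup.mem_centralizer_singleton_iff.1 ((Subgroup.closure_le _).2 (by
      rintro _ (rfl | rfl); exacts [k _ m2, k _ m3]) hr)).symm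
  simpa using Γ.mul_mem m1 (hZ h1)

theorem not_mem_N6 [Finite F] (hω : Om ω) (h2 : (2 : F) ≠ 0) :
    D (-1) 1 1 ∉ subgroupNormalizer (R6 ω) := fun h => by
  have h1 := (ex6 hω).cube _ (commutator_mem_of_normalizer h C_mem_R6)
  rw [comm_D_C, D_pow] at h1
  have h3 := congrArg Units.val (D_eq_one h1).1
  norm_num at h3
  exact h2 (by linear_combination -h3)

/-! ### frames -/

theorem Sb.eps_ne (hS : Sb ω R d x y y') (hR : Ex ω R) : pj d * pj y ≠ 0 := fun h => by
  have k : ∀ u : GL ι F, pj d * pj u = 0 → pj d * pj (y' * u * y'⁻¹) = 0 := fun u hu => by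
    rw [pj_conj, ← mul_assoc, ← mul_assoc, ← pj_comm' hS.dy'.symm, mul_assoc y'.val, hu, mul_zero,
      zero_mul]
  have h1 := k _ h
  rw [rel_conj hS.rel'] at h1
  have h2 := k _ h1
  rw [mul_smul_comm, smul_mul_assoc, rel_conj hS.rel'] at h2
  apply hR.pj_ne_zero hS.md (hS.dZ hR)
  rw [← mul_one (pj d), ← pj_sum hR.om y, mul_add, mul_add, h, h1, h2, add_zero, add_zero]

theorem Ex.sandwich (hR : Ex ω R) (hd : d ∈ R) (he : e ∈ R) (h : e * d ≠ d * e) :
    pj d * e.val * pj d = 0 := by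
  rcases hR.tri he hd with h1 | h1 | h1
  exacts [absurd h1 h, pj_sandwich hR.om (hR.cube d hd) h1, pj_sandwich' hR.om (hR.cube d hd) h1]

theorem Sb.eps_idem (hS : Sb ω R d x y y') (hR : Ex ω R) :
    pj d * pj y * (pj d * pj y) = pj d * pj y := by
  rw [mul_assoc, ← mul_assoc (pj y), ← pj_comm_pj hS.dy, mul_assoc, pj_idem hR.om (hR.cube _ hS.my),
    pj_idem' hR.om (hR.cube _ hS.md)]

theorem Sb.eps_rank [Finite F] (hS : Sb ω R d x y y') (h : Ov ω R G) (m : Matrix ι ι F) :
    ∃ c : F, pj d * pj y * m * (pj d * pj y) = c • (pj d * pj y) := by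
  have hc := pj_comm_pj hS.dy
  refine h.spans.induction (p := fun m => ∃ c : F, pj d * pj y * m * (pj d * pj y) = c • (pj d * pj y))
    (fun r hr => ?_) ⟨0, by simp⟩ ?_ ?_ m
  · by_cases h1 : r * d = d * r
    · by_cases h2 : r * y = y * r
      · let H : Subgroup (GL ι F) :=
          { carrier := {g | ∃ c : Fˣ, g.val * (pj d * pj y) = (c : F) • (pj d * pj y)}
            one_mem' := ⟨1, by simp⟩
            mul_mem' := by
              rintro a b ⟨s, hs⟩ ⟨t, ht⟩
              exact ⟨t * s, by rw [Units.val_mul, mul_assoc, ht, mul_smul_comm, hs, smul_smul,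
                Units.val_mul]⟩
            inv_mem' := by
              rintro a ⟨s, hs⟩
              exact ⟨s⁻¹, by
                rw [Units.val_inv_eq_inv_val s, eq_inv_smul_iff₀ s.ne_zero, ← mul_smul_comm, ← hs,
                  Units.inv_mul_cancel_left]⟩ }
        obtain ⟨c, hc⟩ : r ∈ H := hS.mem_of h H ⟨ω, by simp [coe_sc]⟩ hr
          (Or.inr ⟨1, by rw [← mul_assoc, mul_pj (h.cube _ hS.md)]; simp⟩) (Or.inl h1)
          (Or.inr ⟨1, by rw [hc, ← mul_assoc, mul_pj (h.cube _ hS.my)]; simp⟩) (Or.inl h2)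
        exact ⟨c, by rw [mul_assoc, hc, mul_smul_comm, hS.eps_idem h.toEx]⟩
      · refine ⟨0, ?_⟩
        nth_rewrite 2 [hc]
        rw [mul_assoc (pj d), mul_assoc (pj d), ← mul_assoc (pj y * _), h.toEx.sandwich hS.my hr h2]
        simp
    · refine ⟨0, ?_⟩
      nth_rewrite 1 [hc]
      rw [mul_assoc (pj y), mul_assoc (pj y), ← mul_assoc (pj d * _), h.toEx.sandwich hS.md hr h1]
      simp
  · rintro a b ⟨s, hs⟩ ⟨t, ht⟩
    exact ⟨s + t, by rw [mul_add, add_mul, hs, ht, add_smul]⟩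
  · rintro c a ⟨s, hs⟩
    exact ⟨c * s, by rw [mul_smul_comm, smul_mul_assoc, hs, smul_smul]⟩

theorem Sb.exists_fr [Finite F] (hS : Sb ω R d x y y') (h : Ov ω R G) :
    ∃ U W, Fr ω d y y' U W := by
  have hω := h.om
  have hy := h.cube _ hS.my
  have hy' := h.cube _ hS.my'
  have h0 := hS.eps_ne h.toEx
  have hi := hS.eps_idem h.toEx
  have a1 : pj d * pj y * y'.val * (pj d * pj y) = 0 := by
    nth_rewrite 2 [pj_comm_pj hS.dy]
    rw [mul_assoc (pj d), mul_assoc (pj d), ← mul_assoc (pj y * _), pj_sandwich hω hy hS.rel']; simp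
  have a2 : pj d * pj y * (y'.val * y'.val) * (pj d * pj y) = 0 := by
    nth_rewrite 2 [pj_comm_pj hS.dy]
    rw [mul_assoc (pj d), mul_assoc (pj d), ← mul_assoc (pj y * _), ← Units.val_mul,
      ← inv_eq_sq hy', pj_sandwich' hω hy (rel_inv hS.rel')]; simp
  have a3 : y.val * (pj d * pj y) = pj d * pj y := by
    rw [pj_comm_pj hS.dy, ← mul_assoc, mul_pj hy]
  have a4 : ∀ m, (ω : F) • (y.val * (y'.val * m)) = y'.val * (y.val * m) := fun m => by
    rw [← mul_assoc y'.val, ← Units.val_mul, hS.rel', smul_val, Units.val_mul, smul_mul_assoc,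
      mul_assoc]
  have a5 : pj d * pj y + y'.val * (pj d * pj y) * (y'.val * y'.val) +
      y'.val * y'.val * (pj d * pj y) * y'.val = pj d := by
    have k : ∀ u : GL ι F, y'.val * (pj d * pj u) * (y'.val * y'.val) = pj d * pj (y' * u * y'⁻¹) :=
      fun u => by
        rw [pj_conj, inv_eq_sq hy', Units.val_mul, ← mul_assoc y'.val, pj_comm' hS.dy'.symm]
        simp only [mul_assoc]
    have k1 := k y
    have k2 := k (ω • y)
    rw [rel_conj hS.rel'] at k1
    rw [mul_smul_comm, smul_mul_assoc, rel_conj hS.rel', ← k1] at k2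
    have k3 : y'.val * y'.val * (pj d * pj y) * y'.val = pj d * pj (ω • ω • y) := by
      rw [← k2]; simp only [mul_assoc, val_cube hy', mul_one]
    rw [k1, k3, ← mul_add, ← mul_add, pj_sum hω, mul_one]
  have hv := val_cube hy'
  obtain ⟨i, j, hij⟩ : ∃ i j, (pj d * pj y) i j ≠ 0 := by
    by_contra! hc
    exact h0 (ext hc)
  obtain ⟨c, hc⟩ := hS.eps_rank h (single j i 1)
  generalize pj d * pj y = ε at *
  have b1 : ∀ P Q : Matrix ι ι F, ∀ a b, (P * ε) a j * (ε * Q) i b = c * (P * ε * Q) a b :=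
    fun P Q a b => by
      have : P * ε * single j i 1 * (ε * Q) = c • (P * ε * Q) := by
        rw [← smul_mul_assoc, ← mul_smul_comm, ← hc]; simp only [mul_assoc]
      rw [← smul_eq_mul c, ← Matrix.smul_apply, ← this, mul_apply (N := ε * Q),
        Finset.sum_eq_single i (fun t _ ht => by rw [mul_single_apply_of_ne _ _ _ _ _ ht, zero_mul])
          (by simp), mul_single_apply_same, mul_one]
  have b2 : c = ε i j := by
    simpa [hij, eq_comm] using b1 1 1 i j
  subst b2
  refine ⟨of fun a => ![ε a j, (y'.val * ε) a j, (y'.val * y'.val * ε) a j],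
    of ![fun b => (ε i j)⁻¹ * ε i b, fun b => (ε i j)⁻¹ * (ε * (y'.val * y'.val)) i b,
      fun b => (ε i j)⁻¹ * (ε * y'.val) i b], ?_, ?_, ?_, ?_⟩
  · have k : ∀ P Q : Matrix ι ι F, ∑ a, (ε i j)⁻¹ * (P i a * Q a j) = (ε i j)⁻¹ * (P * Q) i j :=
      fun P Q => by simp only [mul_apply, Finset.mul_sum]
    have hv' : ∀ m, y'.val * (y'.val * (y'.val * m)) = m := fun m => by
      rw [← mul_assoc, ← mul_assoc, mul_assoc y'.val, hv, one_mul]
    simp only [mul_assoc] at a1 a2
    ext s t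
    fin_cases s <;> fin_cases t <;> simp [mul_apply (M := of _), k, mul_assoc, hv', a1, a2, hi, hij]
  · ext a b
    have c0 := b1 1 1 a b
    have c1 := b1 y'.val (y'.val * y'.val) a b
    have c2 := b1 (y'.val * y'.val) y'.val a b
    simp only [one_mul, mul_one] at c0
    rw [← a5, mul_apply]
    simp only [Fin.sum_univ_three, of_apply, cons_val, Matrix.add_apply]
    field_simp
    linear_combination c0 + c1 + c2
  · have k : ∀ P : Matrix ι ι F, ∀ a, ∑ b, y.val a b * P b j = (y.val * P) a j := fun P a => rfl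
    have c1 : (ω : F) • (y.val * (y'.val * ε)) = y'.val * ε := by rw [a4, a3]
    have c2 : (ω : F) • (ω : F) • (y.val * (y'.val * y'.val * ε)) = y'.val * y'.val * ε := by
      rw [mul_assoc, a4, ← mul_smul_comm, c1]
    ext a t
    have c1 := congrFun (congrFun c1 a) j
    have c2 := congrFun (congrFun c2 a) j
    simp only [Matrix.smul_apply, smul_eq_mul] at c1 c2
    fin_cases t <;> simp [mul_apply (N := of _), mul_apply (M := of _), k, a3, X, D_val,
      Fin.sum_univ_three, c1]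
    · exact mul_comm _ _
    · rw [← c2]; field_simp
  · have k : ∀ P : Matrix ι ι F, ∀ a, ∑ b, y'.val a b * P b j = (y'.val * P) a j := fun P a => rfl
    ext a t
    fin_cases t <;> simp [mul_apply (N := of _), mul_apply (M := of _), k, C_val,
      Fin.sum_univ_three, ← mul_assoc, mul_assoc y'.val y'.val y'.val, hv]

end H13.T3
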