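import Cfsg.Agent.H13.T3C

/-! Restriction to the fixed space of an element of `3^{1+4}`; coprime generation. -/

set_option autoImplicit false
set_option linter.unusedSectionVars false

namespace H13.T3

open Matrix hiding mul_inv_rev
open Cfsg Cfsg.Geo H25 H60.L3
open scoped MatrixGroups commutatorElement

variable {F : Type*} [Field F] {ι : Type} [Fintype ι] [DecidableEq ι]
variable {ω : Fˣ} {R G M K : Subgroup (GL ι F)} {d x y y' e g g' : GL ι F}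
variable {U : Matrix ι (Fin 3) F} {W : Matrix (Fin 3) ι F} {S U₀ : Subgroup (G3 F)} {A B : G3 F}

/-- the elements commuting with a matrix -/
def Cm (p : Matrix ι ι F) : Subgroup (GL ι F) where
  carrier := {g | g.val * p = p * g.val}
  one_mem' := by simp
  mul_mem' := fun {a b} ha hb => (Commute.mul_left ha hb : Commute (a.val * b.val) p)
  inv_mem' := fun {a} ha => Commute.units_inv_left ha

theorem mem_Cm {p : Matrix ι ι F} : g ∈ Cm p ↔ g.val * p = p * g.val := Iff.rfl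

/-- the elements fixing the columns of a matrix -/
def Fx (p : Matrix ι ι F) : Subgroup (GL ι F) where
  carrier := {g | g.val * p = p}
  one_mem' := by simp
  mul_mem' := fun {a b} (ha : _ = _) (hb : _ = _) => show _ = _ by
    rw [Units.val_mul, mul_assoc, hb, ha]
  inv_mem' := fun {a} (ha : _ = _) => show _ = _ by
    nth_rewrite 1 [← ha]; rw [Units.inv_mul_cancel_left]

theorem mem_Fx {p : Matrix ι ι F} : g ∈ Fx p ↔ g.val * p = p := Iff.rfl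

theorem conj_mem_Fx {p : Matrix ι ι F} (hg : g ∈ Cm p) (h : g' ∈ Fx p) : g * g' * g⁻¹ ∈ Fx p := by
  rw [mem_Fx, Units.val_mul, Units.val_mul, mul_assoc, mem_Cm.1 (inv_mem hg), ← mul_assoc,
    mul_assoc g.val, mem_Fx.1 h, mem_Cm.1 hg, Units.mul_inv_cancel_right]

theorem mul_inv_mem_Fx {p : Matrix ι ι F} (hg : g' ∈ Cm p) (h : g.val * p = g'.val * p) :
    g * g'⁻¹ ∈ Fx p := by
  rw [mem_Fx, Units.val_mul, mul_assoc, mem_Cm.1 (inv_mem hg), ← mul_assoc, h, mem_Cm.1 hg,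
    Units.mul_inv_cancel_right]

theorem inv_mul_mem_Fx {p : Matrix ι ι F} (h : g.val * p = g'.val * p) : g'⁻¹ * g ∈ Fx p := by
  rw [mem_Fx, Units.val_mul, mul_assoc, h, Units.inv_mul_cancel_left]

theorem Z_le_Cm {p : Matrix ι ι F} : scalars ι F ≤ Cm p := fun g hg => by
  obtain ⟨c, rfl⟩ := mem_Z.1 hg
  simp [mem_Cm, smul_val]

theorem mem_sup_Z : g ∈ M ⊔ scalars ι F ↔ ∃ c : Fˣ, ∃ m ∈ M, g = c • m := by
  rw [Subgroup.mem_sup_of_normal_right]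
  constructor
  · rintro ⟨m, hm, z, hz, rfl⟩
    obtain ⟨c, rfl⟩ := mem_Z.1 hz
    exact ⟨c, m, hm, by simp⟩
  · rintro ⟨c, m, hm, rfl⟩
    exact ⟨m, hm, c • 1, mem_Z.2 ⟨c, rfl⟩, by simp⟩

theorem comm_smul (s t : Fˣ) (a b : GL ι F) : ⁅s • a, t • b⁆ = ⁅a, b⁆ := by
  simp only [commutatorElement_def, smul_inv, smul_mul_assoc, mul_smul_comm, smul_smul]
  rw [show t⁻¹ * (s⁻¹ * (t * s)) = 1 by simp [mul_comm t s], one_smul]

theorem comm_le_self {Γ : Type*} [Group Γ] {H₁ H₂ H : Subgroup Γ} (h1 : H₁ ≤ H) (h2 : H₂ ≤ H) :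
    ⁅H₁, H₂⁆ ≤ H := Subgroup.commutator_le.2 fun _ ha _ hb =>
  mul_mem (mul_mem (mul_mem (h1 ha) (h2 hb)) (inv_mem (h1 ha))) (inv_mem (h2 hb))

namespace Fr

variable (hF : Fr ω d y y' U W)
include hF

theorem pu : pj d * U = U := by rw [← hF.uw, Matrix.mul_assoc, hF.wu, Matrix.mul_one]

theorem wp : W * pj d = W := by rw [← hF.uw, ← Matrix.mul_assoc, hF.wu, Matrix.one_mul]

theorem res_mul {a b : Matrix ι ι F} (h : b * pj d = pj d * b) :
    W * (a * b) * U = W * a * U * (W * b * U) := by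
  calc _ = W * a * (b * pj d) * U := by simp only [Matrix.mul_assoc, hF.pu]
    _ = _ := by rw [h, ← hF.uw]; simp only [Matrix.mul_assoc]

theorem res_one : W * (1 : Matrix ι ι F) * U = 1 := by rw [Matrix.mul_one, hF.wu]

theorem up {a : Matrix ι ι F} (h : a * pj d = pj d * a) : U * (W * a * U) * W = a * pj d := by
  calc _ = U * W * a * (U * W) := by simp only [Matrix.mul_assoc]
    _ = _ := by rw [hF.uw, ← h, ← hF.uw]; simp only [Matrix.mul_assoc]; rw [← Matrix.mul_assoc W,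
      hF.wu, Matrix.one_mul]

theorem res_congr {a b : Matrix ι ι F} (h : a * pj d = b * pj d) : W * a * U = W * b * U := by
  rw [← hF.pu, ← Matrix.mul_assoc, ← Matrix.mul_assoc, Matrix.mul_assoc W, Matrix.mul_assoc W b, h]

theorem eq_of_res {a b : Matrix ι ι F} (ha : a * pj d = pj d * a) (hb : b * pj d = pj d * b)
    (h : W * a * U = W * b * U) : a * pj d = b * pj d := by rw [← hF.up ha, h, hF.up hb]

/-- restriction to the fixed space -/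
def res : Cm (pj d) →* G3 F := MonoidHom.toHomUnits
  { toFun := fun g => W * g.val.val * U
    map_one' := hF.res_one
    map_mul' := fun _ b => hF.res_mul b.2 }

theorem res_val (g : Cm (pj d)) : (hF.res g).val = W * g.val.val * U := rfl

/-- the image of a subgroup -/
def img (M : Subgroup (GL ι F)) : Subgroup (G3 F) := (M.subgroupOf (Cm (pj d))).map hF.res

theorem mem_img : A ∈ hF.img M ↔ ∃ g ∈ M, g ∈ Cm (pj d) ∧ A.val = W * g.val * U :=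
  ⟨fun ⟨g, h1, h2⟩ => ⟨g, h1, g.2, h2 ▸ rfl⟩, fun ⟨g, h1, h2, h3⟩ => ⟨⟨g, h2⟩, h1, Units.ext h3.symm⟩⟩

theorem res_eq (hg : g ∈ Cm (pj d)) (h : A.val = W * g.val * U) : hF.res ⟨g, hg⟩ = A :=
  Units.ext h.symm

theorem res_y : (X ω).val = W * (ω • y).val * U := by
  rw [smul_val, Matrix.mul_smul, Matrix.smul_mul, Matrix.mul_assoc, ← Matrix.mul_smul, hF.yu,
    ← Matrix.mul_assoc, hF.wu, Matrix.one_mul]

theorem res_y' : (C : G3 F).val = W * y'.val * U := by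
  rw [Matrix.mul_assoc, hF.cu, ← Matrix.mul_assoc, hF.wu, Matrix.one_mul]

theorem res_hm (hω : Om ω) (he : e ^ 3 = 1) (h1 : e ∈ Cm (pj d)) (h : A.val = W * e.val * U) :
    (hm ω A).val = W * (hm ω e).val * U := by
  have h2 : A ^ 3 = 1 := by
    rw [← hF.res_eq h1 h, ← map_pow, show (⟨e, h1⟩ : Cm (pj d)) ^ 3 = 1 from Subtype.ext he, map_one]
  simp only [hm_val hω h2, hm_val hω he, pj, Matrix.mul_add, Matrix.add_mul, Matrix.mul_smul,
    Matrix.smul_mul, hF.res_one, hF.res_mul h1, h]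

theorem lift6 (hR : Ex ω R) (hS : Sb ω R d x y y') (hA : A ∈ R6 ω) :
    ∃ e ∈ R, e * d = d * e ∧ e * x = x * e ∧ A.val = W * e.val * U := by
  have m := @Subgroup.mem_centralizer_singleton_iff (GL ι F) _
  obtain ⟨e, ⟨⟨h1, h2⟩, h3⟩, -, h4⟩ := hF.mem_img.1 ((Subgroup.closure_le
    (hF.img (R ⊓ Subgroup.centralizer {d} ⊓ Subgroup.centralizer {x}))).2 (by
      rintro _ (rfl | rfl)
      · have a : ω • y * d = d * ω • y := by rw [smul_mul_assoc, mul_smul_comm, hS.dy]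
        exact hF.mem_img.2 ⟨_, ⟨⟨hR.smul_mem hS.my, m.2 a⟩, m.2 (by
          rw [smul_mul_assoc, mul_smul_comm, hS.xy])⟩, pj_comm' a, hF.res_y⟩
      · exact hF.mem_img.2 ⟨_, ⟨⟨hS.my', m.2 hS.dy'.symm⟩, m.2 hS.xy'.symm⟩, pj_comm' hS.dy'.symm,
          hF.res_y'⟩) hA)
  exact ⟨e, h1, m.1 h2, m.1 h3, h4⟩

theorem down6 [Finite F] (h : Ov ω R G) (hS : Sb ω R d x y y') (he : e ∈ R) (h1 : e * d = d * e) :
    ∃ A ∈ R6 ω, A.val = W * e.val * U := by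
  have hw : sc (Fin 3) ω ∈ R6 ω := (ex6 h.om).wm
  have k : ∀ g : GL ι F, ∀ A ∈ R6 ω, g * d = d * g → A.val = W * g.val * U →
      g ∈ ((R6 ω).comap hF.res).map (Cm (pj d)).subtype := fun g A hA hg hv =>
    ⟨⟨g, pj_comm' hg⟩, show hF.res _ ∈ _ from hF.res_eq _ hv ▸ hA, rfl⟩
  obtain ⟨⟨e, h2⟩, h3, rfl⟩ := hS.mem_of h _ (k _ _ hw (sc_comm _ _) (by simp [coe_sc, hF.wu])) he
    (Or.inr (k d 1 (one_mem _) rfl (by
      rw [hF.res_congr (b := 1) (by rw [mul_pj (h.cube _ hS.md), one_mul]), hF.res_one]; rfl)))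
    (Or.inl h1) (Or.inr (k y (ω • ω • X ω) ((ex6 h.om).smul_mem ((ex6 h.om).smul_mem X_mem_R6))
      hS.dy.symm (by
        rw [smul_val, smul_val, hF.res_y, ← Matrix.smul_mul, ← Matrix.smul_mul, ← Matrix.mul_smul,
          ← Matrix.mul_smul, ← smul_val, ← smul_val, smul3 h.om])))
    (Or.inr (k y' C C_mem_R6 hS.dy'.symm hF.res_y'))
  exact ⟨_, h3, rfl⟩

theorem res_smul (c : Fˣ) (hg : g ∈ Cm (pj d)) (h : c • g ∈ Cm (pj d)) :
    hF.res ⟨c • g, h⟩ = c • hF.res ⟨g, hg⟩ :=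
  Units.ext (by simp only [res_val, smul_val, Matrix.mul_smul, Matrix.smul_mul])

theorem img_comm {K₁ K₂ : Subgroup (GL ι F)} (h1 : K₁ ≤ Cm (pj d)) (h2 : K₂ ≤ Cm (pj d)) :
    ⁅hF.img (K₁ ⊔ scalars ι F), hF.img (K₂ ⊔ scalars ι F)⁆ ≤ hF.img ⁅K₁, K₂⁆ := by
  rw [Subgroup.commutator_le]
  rintro _ ⟨⟨a, ha⟩, a1, rfl⟩ _ ⟨⟨b, hb⟩, b1, rfl⟩
  obtain ⟨s, a, a2, rfl⟩ := mem_sup_Z.1 a1
  obtain ⟨t, b, b2, rfl⟩ := mem_sup_Z.1 b1
  rw [← map_commutatorElement]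
  refine Subgroup.mem_map_of_mem _ (Subgroup.mem_subgroupOf.2 ?_)
  rw [← Subgroup.coe_subtype, map_commutatorElement, Subgroup.coe_subtype, comm_smul]
  exact Subgroup.commutator_mem_commutator a2 b2

/-- the passage to dimension three -/
theorem bl [Finite F] (h : Ov ω R G) (hB : BD ω S U₀) (hRes : Res ω R G U₀)
    (hS : Sb ω R d x y y') (hMG : M ≤ G) (hM : M ≤ Cm (pj d))
    (hy : ∀ e ∈ R, e * d = d * e → e * x = x * e → e ∈ M ∧ (e ∉ scalars ι F → hm ω e ∈ M)) :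
    (∀ g ∈ M, ∀ A : G3 F, A.val = W * g.val * U → A ∈ subgroupNormalizer (R6 ω)) ∨
    ((∃ g ∈ M, (g * y * g⁻¹).val * pj d = y.val * pj d ∧
        ∀ e ∈ R, e * d = d * e → (g * y' * g⁻¹).val * pj d ≠ e.val * pj d) ∧
      ∀ K₁ K₂ : Subgroup (GL ι F), K₁ ≤ M → K₂ ≤ M → (∀ g ∈ M, ∀ k ∈ K₁, g * k * g⁻¹ ∈ K₁) →
        (∀ g ∈ M, ∀ k ∈ K₂, g * k * g⁻¹ ∈ K₂) →
        (∀ e ∈ R, e * d = d * e → e * x = x * e → e ∉ scalars ι F →
          (∃ k ∈ K₁, ∃ c : Fˣ, (c • k).val * pj d = e.val * pj d) ∧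
          (∃ k ∈ K₂, ∃ c : Fˣ, (c • k).val * pj d = e.val * pj d)) →
        ∀ A ∈ S, ∃ g ∈ ⁅K₁, K₂⁆, A.val = W * g.val * U) := by
  have hω := h.om
  have hU : ∀ g ∈ M, ∀ A : G3 F, A.val = W * g.val * U → A ∈ U₀ := fun g hg =>
    hRes d x y y' U W hS hF g (hMG hg) (hM hg)
  have hZ : ∀ K : Subgroup (GL ι F), scalars (Fin 3) F ≤ hF.img (K ⊔ scalars ι F) := fun K A hA => by
    obtain ⟨c, rfl⟩ := mem_Z.1 hA
    exact hF.mem_img.2 ⟨c • 1, mem_sup_Z.2 ⟨c, 1, one_mem _, rfl⟩, Z_le_Cm (mem_Z.2 ⟨c, rfl⟩), by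
      simp [smul_val, hF.wu]⟩
  have hnZ : ∀ e : GL ι F, ∀ A : G3 F, A.val = W * e.val * U → A ∉ scalars (Fin 3) F →
      e ∉ scalars ι F := fun e A h1 h2 h3 => h2 (by
    obtain ⟨c, rfl⟩ := mem_Z.1 h3
    exact mem_Z.2 ⟨c, Units.ext (by simp [h1, smul_val, hF.wu])⟩)
  have hN : subgroupNormalizer (R6 ω) ≤ hF.img (M ⊔ scalars ι F) := gen6 ⟨ex6 hω, fun A hA => by
      obtain ⟨e, e1, e2, e3, e4⟩ := hF.lift6 h.toEx hS hA
      exact hF.mem_img.2 ⟨e, Subgroup.mem_sup_left (hy e e1 e2 e3).1, pj_comm' e2, e4⟩,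
    fun A hA hA' => by
      obtain ⟨e, e1, e2, e3, e4⟩ := hF.lift6 h.toEx hS hA
      have e5 := (hy e e1 e2 e3).2 (hnZ e A e4 hA')
      exact hF.mem_img.2 ⟨_, Subgroup.mem_sup_left e5, hM e5,
        hF.res_hm hω (h.cube e e1) (pj_comm' e2) e4⟩⟩ (hZ M)
  have h6 : R6 ω ≤ U₀ := fun A hA => by
    obtain ⟨e, e1, e2, e3, e4⟩ := hF.lift6 h.toEx hS hA
    exact hU e (hy e e1 e2 e3).1 A e4
  refine (hB.dich (hF.img (M ⊔ scalars ι F) ⊓ U₀) (inf_le_inf_right _ hN) inf_le_right).imp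
    (fun h1 g hg A hA => h1 ⟨hF.mem_img.2 ⟨g, Subgroup.mem_sup_left hg, hM hg, hA⟩, hU g hg A hA⟩)
    fun ⟨⟨A, a1, a2, a3⟩, h2⟩ => ⟨?_, fun K₁ K₂ k1 k2 n1 n2 hk A hA => ?_⟩
  · have h3 := h2 _ (le_inf (le_N.trans hN) h6) le_rfl le_N a1
    obtain ⟨⟨g, g1⟩, g2, rfl⟩ := (comm_le_self le_rfl le_rfl h3).1
    obtain ⟨c, g, g3, rfl⟩ := mem_sup_Z.1 g2
    have g4 := hM g3
    rw [hF.res_smul c g4, smul_mem_N] at a3
    rw [hF.res_smul c g4, smul_mul_assoc, mul_smul_comm, smul_left_cancel_iff] at a2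
    have y1 : ω • y ∈ Cm (pj d) := pj_comm' (by rw [smul_mul_assoc, mul_smul_comm, hS.dy])
    have y2 : y' ∈ Cm (pj d) := pj_comm' hS.dy'.symm
    refine ⟨g, g3, ?_, fun e e1 e2 e3 => a3 (mem_N6 ?_ ?_)⟩
    · rw [← mul_inv_eq_iff_eq_mul, ← hF.res_eq y1 hF.res_y, ← map_inv, ← map_mul, ← map_mul] at a2
      have := hF.eq_of_res (mul_mem (mul_mem g4 y1) (inv_mem g4)) y1 (congrArg Units.val a2)
      rw [mul_smul_comm, smul_mul_assoc, smul_val, smul_val, smul_mul_assoc, smul_mul_assoc] at this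
      exact smul_right_injective _ ω.ne_zero this
    · rw [a2, mul_inv_cancel_right]; exact X_mem_R6
    · obtain ⟨B, b1, b2⟩ := hF.down6 h hS e1 e2
      rw [← hF.res_eq y2 hF.res_y', ← map_inv, ← map_mul, ← map_mul]
      exact (hF.res_eq (mul_mem (mul_mem g4 y2) (inv_mem g4)) (b2.trans (hF.res_congr e3).symm)).symm ▸ b1
  · have key : ∀ K ≤ M, (∀ e ∈ R, e * d = d * e → e * x = x * e → e ∉ scalars ι F →
        ∃ k ∈ K, ∃ c : Fˣ, (c • k).val * pj d = e.val * pj d) →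
        R6 ω ≤ hF.img (K ⊔ scalars ι F) := fun K k1 hk A hA => by
      by_cases hA' : A ∈ scalars (Fin 3) F
      · exact hZ K hA'
      obtain ⟨e, e1, e2, e3, e4⟩ := hF.lift6 h.toEx hS hA
      obtain ⟨k, k2, c, k3⟩ := hk e e1 e2 e3 (hnZ e A e4 hA')
      exact hF.mem_img.2 ⟨c • k, mem_sup_Z.2 ⟨c, k, k2, rfl⟩,
        (sup_le hM Z_le_Cm) (mem_sup_Z.2 ⟨c, k, k1 k2, rfl⟩), e4.trans (hF.res_congr k3).symm⟩
    have nm : ∀ K : Subgroup (GL ι F), (∀ g ∈ M, ∀ k ∈ K, g * k * g⁻¹ ∈ K) →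
        ∀ A ∈ hF.img (M ⊔ scalars ι F), ∀ B ∈ hF.img (K ⊔ scalars ι F),
          A * B * A⁻¹ ∈ hF.img (K ⊔ scalars ι F) := by
      rintro K hK _ ⟨⟨a, ha⟩, a1, rfl⟩ _ ⟨⟨b, hb⟩, b1, rfl⟩
      obtain ⟨s, a, a2, rfl⟩ := mem_sup_Z.1 a1
      obtain ⟨t, b, b2, rfl⟩ := mem_sup_Z.1 b1
      refine ⟨⟨_, ha⟩ * ⟨_, hb⟩ * ⟨_, ha⟩⁻¹, mem_sup_Z.2 ⟨t, _, hK a a2 b b2, ?_⟩, by
        rw [map_mul, map_mul, map_inv]⟩
      change s • a * t • b * (s • a)⁻¹ = _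
      simp only [smul_inv, smul_mul_assoc, mul_smul_comm, smul_smul, inv_mul_cancel_comm_assoc,
        inv_mul_cancel_comm, mul_inv_cancel_comm]
    have h3 := h2 (hF.img (K₁ ⊔ scalars ι F) ⊓ hF.img (K₂ ⊔ scalars ι F) ⊓ U₀)
      (le_inf (le_inf (key K₁ k1 fun e a b c d => (hk e a b c d).1)
        (key K₂ k2 fun e a b c d => (hk e a b c d).2)) h6)
      (inf_le_inf_right _ (inf_le_left.trans (Subgroup.map_mono
        (Subgroup.comap_mono (sup_le_sup_right k1 _)))))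
      (fun A hA => mem_N_of fun B hB => ⟨⟨nm K₁ n1 A hA.1 B hB.1.1, nm K₂ n2 A hA.1 B hB.1.2⟩,
        U₀.mul_mem (U₀.mul_mem hA.2 hB.2) (U₀.inv_mem hA.2)⟩) hA
    obtain ⟨g, g1, -, g2⟩ := hF.mem_img.1 (hF.img_comm (k1.trans hM) (k2.trans hM)
      (Subgroup.commutator_mono (inf_le_left.trans inf_le_left) (inf_le_left.trans inf_le_right) h3))
    exact ⟨g, g1, g2⟩

/-- the first alternative of `bl` -/
theorem alt1 [Finite F] (h : Ov ω R G) (hS : Sb ω R d x y y') (hg : g ∈ Cm (pj d))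
    (h1 : ∀ A : G3 F, A.val = W * g.val * U → A ∈ subgroupNormalizer (R6 ω)) (he : e ∈ R)
    (h2 : e * d = d * e) : ∃ e' ∈ R, e' * d = d * e' ∧ e' * x = x * e' ∧
      (g * e * g⁻¹).val * pj d = e'.val * pj d := by
  obtain ⟨B, b1, b2⟩ := hF.down6 h hS he h2
  obtain ⟨e', e1, e2, e3, e4⟩ := hF.lift6 h.toEx hS (mem_N (h1 (hF.res ⟨g, hg⟩) rfl) b1)
  rw [← hF.res_eq (pj_comm' h2) b2, ← map_inv, ← map_mul, ← map_mul] at e4
  exact ⟨e', e1, e2, e3, hF.eq_of_res (mul_mem (mul_mem hg (pj_comm' h2)) (inv_mem hg))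
    (pj_comm' e2) e4⟩

theorem big_of (hg : g ∈ Cm (pj d)) (h1 : g ∈ Fx (1 - pj d)) (h2 : A.val = W * g.val * U) :
    g.val = 1 + U * (A.val - 1) * W := by
  rw [Matrix.mul_sub, Matrix.sub_mul, Matrix.mul_one, h2, hF.up hg, hF.uw, add_sub_left_comm,
    ← mem_Fx.1 h1, ← mul_add, add_sub_cancel, mul_one]

theorem det_hm (hω : Om ω) (hd : d ^ 3 = 1) : hm ω d ∈ specialLinear ι F := by
  rw [mem_specialLinear, hm_val hω hd, ← hF.uw, ← Matrix.smul_mul, det_one_add_mul_comm,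
    Matrix.mul_smul, hF.wu, ← one_smul F (1 : M3 F), smul_smul, ← add_smul, det_smul]
  simpa using congrArg Units.val hω.cube

end Fr

/-- coprime generation under the action of `⟨y, y'⟩` modulo scalars -/
theorem cg [Finite F] (hR : Ex ω R) (hT : TI R G) (hy : y ∈ R) (hy' : y' ∈ R)
    (h : y' * y ≠ y * y') (hK : K ≤ G) (h1 : y ∈ subgroupNormalizer K)
    (h2 : y' ∈ subgroupNormalizer K) (h3 : ¬ 3 ∣ Nat.card K) : K ≤ subgroupNormalizer R := by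
  let Q := R ⊓ subgroupNormalizer K
  let f : Q →* MulAut (GL ι F) := MulAut.conj.comp Q.subtype
  have : Fact (Nat.Prime 3) := ⟨Nat.prime_three⟩
  have : IsMulCommutative f.range := ⟨⟨by
    rintro ⟨_, a, rfl⟩ ⟨_, b, rfl⟩
    obtain ⟨k, hk, -⟩ := hR.ex_pow a.2.1 b.2.1
    refine Subtype.ext (MulEquiv.ext fun g => ?_)
    change (a : GL ι F) * (b * g * (b : GL ι F)⁻¹) * (a : GL ι F)⁻¹ =
      b * (a * g * (a : GL ι F)⁻¹) * (b : GL ι F)⁻¹
    calc _ = (a * b) * g * ((a : GL ι F) * b)⁻¹ := by group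
      _ = _ := by
        rw [hk, smul_inv, smul_mul_assoc, smul_mul_assoc, mul_smul_comm, smul_inv_smul]; group⟩⟩
  refine H1.le_of_noncyclic_fixed (A := f.range) (fun hc => h ?_) f.range.subtype K ?_ ?_ _ ?_
  · refine congrArg Subtype.val (commutative_of_cyclic_center_quotient f.rangeRestrict
      (fun a ha => Subgroup.mem_center_iff.2 fun b => Subtype.ext ?_) ⟨y', hy', h2⟩ ⟨y, hy, h1⟩)
    have := DFunLike.congr_fun (congrArg Subtype.val ha) (b : GL ι F)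
    exact (mul_inv_eq_iff_eq_mul.1 this).symm
  · rintro ⟨_, a, rfl⟩ k hk
    exact mem_N a.2.2 hk
  · obtain ⟨n, hn⟩ := IsPGroup.iff_card.1 (show IsPGroup 3 f.range from fun ⟨_, a, e⟩ => ⟨1, by
      subst e
      exact Subtype.ext ((map_pow f a 3).symm.trans (by
        rw [show a ^ 3 = 1 from Subtype.ext (hR.cube _ a.2.1), map_one]; rfl))⟩)
    exact hn ▸ ((Nat.Prime.coprime_iff_not_dvd Nat.prime_three).2 h3).pow_left n
  · rintro ⟨_, a, rfl⟩ ha k hk (e : (a : GL ι F) * k * (a : GL ι F)⁻¹ = k)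
    refine hT a a.2.1 (fun hz => ha (Subtype.ext (MulEquiv.ext fun g => ?_))) k (hK hk) ?_
    · change (a : GL ι F) * g * (a : GL ι F)⁻¹ = g
      rw [comm_of_mem_scalars hz, mul_inv_cancel_right]
    · rw [← mul_inv_eq_iff_eq_mul.1 e, mul_inv_cancel_right]; exact a.2.1

end H13.T3
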