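import Cfsg.Agent.H13.T3D

/-! The centraliser of a non-scalar element of `3^{1+4}` in an overgroup. -/

set_option autoImplicit false
set_option linter.unusedSectionVars false

namespace H13.T3

open Matrix hiding mul_inv_rev
open Cfsg Cfsg.Geo H25 H60.L3
open scoped MatrixGroups commutatorElement

universe u

variable {F : Type u} [Field F] {ι : Type} [Fintype ι] [DecidableEq ι]
variable {ω : Fˣ} {R G : Subgroup (GL ι F)} {d d' x y y' e e' f g a a' b b' v : GL ι F}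
variable {S U₀ : Subgroup (G3 F)} {p : Matrix ι ι F}

theorem loc_mul (hb : b' ∈ Cm p) (h1 : a.val * p = a'.val * p) (h2 : b.val * p = b'.val * p) :
    (a * b).val * p = (a' * b').val * p := by
  rw [Units.val_mul, Units.val_mul, mul_assoc, h2, mem_Cm.1 hb, ← mul_assoc, h1, mul_assoc,
    mul_assoc, mem_Cm.1 hb]

theorem loc_inv (ha : a' ∈ Cm p) (h : a.val * p = a'.val * p) : a⁻¹.val * p = a'⁻¹.val * p := by
  have := mem_Fx.1 (mul_inv_mem_Fx ha h)
  rw [← this, ← mul_assoc, ← Units.val_mul, inv_mul_cancel_left, this]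

theorem loc_comm (ha : a' ∈ Cm p) (hb : b' ∈ Cm p) (h1 : a.val * p = a'.val * p)
    (h2 : b.val * p = b'.val * p) : ⁅a, b⁆.val * p = ⁅a', b'⁆.val * p :=
  loc_mul (inv_mem hb) (loc_mul (inv_mem ha) (loc_mul hb h1 h2) (loc_inv ha h1)) (loc_inv hb h2)

theorem smul_mem_Cm (c : Fˣ) (h : a ∈ Cm p) : c • a ∈ Cm p :=
  sc_mul c a ▸ mul_mem (Z_le_Cm (sc_mem c)) h

theorem comm_smul_right (c : Fˣ) (h : g * d = d * g) : g * c • d = c • d * g := by
  rw [mul_smul_comm, smul_mul_assoc, h]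

theorem cm0 (h : g * d = d * g) : g ∈ Cm (pj d) := pj_comm' h
theorem cm1 (h : g * d = d * g) : g ∈ Cm (pj (ω • d)) := pj_comm' (comm_smul_right ω h)
theorem cm2 (h : g * d = d * g) : g ∈ Cm (pj (ω • ω • d)) := cm1 (comm_smul_right ω h)

theorem fx_one_sub (hω : Om ω) (h1 : g ∈ Fx (pj (ω • d))) (h2 : g ∈ Fx (pj (ω • ω • d))) :
    g ∈ Fx (1 - pj d) := by
  rw [mem_Fx, ← pj_sum hω d, add_assoc, add_sub_cancel_left, mul_add, mem_Fx.1 h1, mem_Fx.1 h2]

theorem pj_smul_inv (hω : Om ω) (hd : d ^ 3 = 1) : pj (ω • d⁻¹) = pj (ω • ω • d) := by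
  rw [← pj_inv (smul_cube hω (smul_cube hω hd)), smul_inv, smul_inv, hω.inv, pow_two, mul_smul,
    mul_smul, smul3 hω]

theorem hm_shift (hω : Om ω) (hv : v ^ 3 = 1) : hm ω (ω • v) * (hm ω v)⁻¹ = ω • ω • v := by
  rw [hm_smul hω hv, smul_mul_assoc, smul_mul_assoc, mul_inv_cancel_right]

theorem hm_shift2 (hω : Om ω) (hv : v ^ 3 = 1) :
    hm ω (ω • ω • v) * (hm ω v)⁻¹ = ω • ω • (v * v) := by
  rw [hm_smul2 hω hv, smul_mul_assoc, smul_mul_assoc, mul_inv_cancel_right]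

theorem hm_Cm (hω : Om ω) (hv : v ^ 3 = 1) (h : v ∈ Cm p) : hm ω v ∈ Cm p :=
  (hm_comm_of hω hv (pj_comm (mem_Cm.1 h).symm)).symm

/-- the controlled elements -/
noncomputable def kp (ω : Fˣ) (d f : GL ι F) : GL ι F := hm ω (ω • (d * f)) * (hm ω f)⁻¹

section kp

variable (hω : Om ω) (hd : d ^ 3 = 1) (hf : f ^ 3 = 1) (h : f * d = d * f)
include hω hd hf h

theorem kp_cube : (ω • (d * f)) ^ 3 = 1 :=
  smul_cube hω (by rw [(show Commute d f from h.symm).mul_pow, hd, hf, one_mul])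

theorem kp_comm : kp ω d f * d = d * kp ω d f :=
  ((show Commute d _ from hm_comm hω (kp_cube hω hd hf h) (comm_smul_right ω (by
    rw [mul_assoc, h]))).mul_right (Commute.inv_right (hm_comm hω hf h.symm))).symm.eq

theorem kp_loc {c : Fˣ} (hc : c ^ 3 = 1) (h1 : f ∈ Cm p) (h2 : (ω • d).val * p = (c : F) • p) :
    (kp ω d f).val * p = (hm ω (c • f) * (hm ω f)⁻¹).val * p :=
  loc_mul (inv_mem (hm_Cm hω hf h1)) (hm_loc hω (kp_cube hω hd hf h)
    (by rw [smul_pow, hc, hf, one_smul]) (smul_mem_Cm c h1) (by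
      rw [← h, ← mul_smul_comm, Units.val_mul, mul_assoc, h2, smul_val, mul_smul_comm,
        smul_mul_assoc])) rfl

theorem kp0 : (kp ω d f).val * pj d = (ω • ω • f).val * pj d := by
  rw [kp_loc hω hd hf h hω.cube (cm0 h) (by rw [smul_val, smul_mul_assoc, mul_pj hd]), hm_shift hω hf]

theorem kp1 : kp ω d f ∈ Fx (pj (ω • d)) := by
  rw [mem_Fx, kp_loc hω hd hf h (one_pow 3) (cm1 h) (by
    rw [mul_pj (smul_cube hω hd), Units.val_one, one_smul])]; simp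

theorem kp2 : (kp ω d f).val * pj (ω • ω • d) = (ω • ω • (f * f)).val * pj (ω • ω • d) := by
  rw [kp_loc hω hd hf h (c := ω * ω) (by rw [mul_pow, hω.cube, one_mul]) (cm2 h) (by
    rw [smul_val, smul_mul_assoc, mul_pj_smul2 hω hd, smul_smul, Units.val_mul]), mul_smul,
    hm_shift2 hω hf]

theorem kp_conj (hg : g * d = d * g) : g * kp ω d f * g⁻¹ = kp ω d (g * f * g⁻¹) := by
  rw [kp, kp, ← conj_mul, ← conj_inv, hm_conj hω hf, hm_conj hω (kp_cube hω hd hf h), mul_smul_comm,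
    smul_mul_assoc, ← mul_assoc g, hg, mul_assoc d, mul_assoc d]

end kp

theorem Ov0.kp_mem (h : Ov0 ω R G) (hd : d ∈ R) (hx : x * d ≠ d * x) (he : e ∈ R)
    (h1 : e * x = x * e) (h2 : e ∉ scalars ι F) : kp ω d e ∈ G :=
  mul_mem (h.hmem _ (h.toEx.smul_mem (R.mul_mem hd he)) fun h3 => hx (by
    have := (show Commute (d * e) x from comm_of_mem_scalars ((smul_mem_Z ω).1 h3) x).mul_left
      (Commute.inv_left h1)
    rw [mul_inv_cancel_right] at this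
    exact this.symm)) (inv_mem (h.hmem e he h2))

/-- `y` acting on the fixed space of `d` only -/
def Bq (G : Subgroup (GL ι F)) (d y : GL ι F) : Prop := ∃ g ∈ G, g.val = 1 + (y.val - 1) * pj d

theorem Bq.conj (h : Bq G d y) (hg : g ∈ G) : Bq G (g * d * g⁻¹) (g * y * g⁻¹) := by
  obtain ⟨b, b1, b2⟩ := h
  refine ⟨g * b * g⁻¹, mul_mem (mul_mem hg b1) (inv_mem hg), ?_⟩
  rw [pj_conj]
  simp only [Units.val_mul, b2, mul_add, add_mul, sub_mul, mul_sub, mul_assoc, one_mul,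
    Units.mul_inv, Units.inv_mul_cancel_left]

theorem bq_of (hg : g ∈ G) (h1 : g.val * pj d = y.val * pj d) (h2 : g ∈ Fx (1 - pj d)) :
    Bq G d y := ⟨g, hg, by
  rw [sub_mul, one_mul, ← h1, add_sub_left_comm, ← mem_Fx.1 h2, ← mul_add, add_sub_cancel, mul_one]⟩

theorem bq_mul {c : F} (hb : b.val = 1 + (v.val - 1) * pj e) (h1 : v * e = e * v)
    (h2 : v.val * p = c • p) : b.val * p = (1 + (c - 1) • pj e) * p := by
  rw [hb, sub_mul, pj_comm' h1, add_mul, add_mul, sub_mul, mul_assoc, h2, one_mul, one_mul,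
    smul_mul_assoc, mul_smul_comm, sub_smul, one_smul]

theorem bq_comm (hb : b.val = 1 + (v.val - 1) * pj e) (h1 : g * e = e * g) (h2 : g * v = v * g) :
    b * g = g * b := Units.ext (by
  have h3 : Commute g.val v.val := by rw [Commute, SemiconjBy, ← Units.val_mul, h2, Units.val_mul]
  rw [Units.val_mul, Units.val_mul, hb]
  exact ((Commute.one_right _).add_right ((h3.sub_right (Commute.one_right _)).mul_right
    (pj_comm' h1))).symm.eq)

/-- all independent commuting pairs -/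
def AllB (R G : Subgroup (GL ι F)) : Prop := ∀ d ∈ R, d ∉ scalars ι F → ∀ y ∈ R, y * d = d * y →
  (∃ e ∈ R, e * d = d * e ∧ e * y ≠ y * e) → Bq G d y

variable [Finite F]

theorem allB (h : Ov0 ω R G) (hd : d ∈ R) (h1 : d ∉ scalars ι F) (hy : y ∈ R) (h2 : y * d = d * y)
    (h3 : ∃ e ∈ R, e * d = d * e ∧ e * y ≠ y * e) (hB : Bq G d y) : AllB R G :=
  fun d' hd' a1 y' hy' a2 a3 => by
    obtain ⟨n, n1, n2, rfl⟩ := h.move1 hd h1 hd' a1
    obtain ⟨e, e1, e2, e3⟩ := h3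
    obtain ⟨m, m1, -, rfl, m4⟩ := h.move2 (mem_N n2 hy) hy' (by rw [conj_mul, conj_mul, h2]) a2
      ⟨_, mem_N n2 e1, by rw [conj_mul, conj_mul, e2], by simpa [conj_mul] using e3⟩ a3
    simpa only [← m4, mul_inv_cancel_right] using (hB.conj n1).conj m1

theorem Sb.wit (hS : Sb ω R d x y y') (h : Ov ω R G) (h1 : e * d = d * e) (h2 : e * x = x * e)
    (h3 : e ∉ scalars ι F) : ∃ a ∈ R, a * d = d * a ∧ a * e ≠ e * a := by
  by_contra! hc
  exact h3 (hS.Z_of_comm h h1 h2 (hc y hS.my hS.dy.symm).symm (hc y' hS.my' hS.dy'.symm).symm)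

theorem AllB.two (hA : AllB R G) (h : Ov ω R G) (hS : Sb ω R d x y y') (he : e ∈ R)
    (e1 : e * d = d * e) (e2 : e * x = x * e) (e3 : e ∉ scalars ι F) (he' : e' ∈ R)
    (f1 : e' * d = d * e') (f2 : e' * x = x * e') (f3 : e' ∉ scalars ι F) :
    ∃ g ∈ G, g ∈ Cm (pj d) ∧ g ∈ Fx (1 - pj d) ∧ g.val * pj d = ⁅hm ω e, hm ω e'⁆.val * pj d := by
  have := h.ne
  have hω := h.om
  have hd := h.cube d hS.md
  have hx := ne_of_rel hω hS.rel
  have f4 : e' * d⁻¹ = d⁻¹ * e' := (show Commute e' d from f1).inv_right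
  obtain ⟨b, b1, b2⟩ := hA e he e3 _ (h.toEx.smul_mem hS.md) (comm_smul_right ω e1).symm
    ⟨x, hS.mx, e2.symm, by rwa [mul_smul_comm, smul_mul_assoc, Ne, smul_left_cancel_iff]⟩
  obtain ⟨c, c1, c2⟩ := hA e' he' f3 _ (h.toEx.smul_mem (inv_mem hS.md)) (comm_smul_right ω f4).symm
    ⟨x, hS.mx, f2.symm, by
      rw [mul_smul_comm, smul_mul_assoc, Ne, smul_left_cancel_iff]
      exact fun a => hx (Commute.inv_right_iff.1 a)⟩
  have b3 := bq_comm b2 e1.symm (comm_smul_right ω rfl)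
  have c3 := bq_comm c2 f1.symm (comm_smul_right ω (by group))
  have b4 : b ∈ Fx (pj (ω • d)) := by
    rw [mem_Fx, bq_mul (c := 1) b2 (comm_smul_right ω e1).symm (by
      rw [mul_pj (smul_cube hω hd), one_smul])]
    simp
  have c4 : c ∈ Fx (pj (ω • ω • d)) := by
    rw [mem_Fx, bq_mul (c := 1) c2 (comm_smul_right ω f4).symm (by
      rw [← pj_smul_inv hω hd, mul_pj (smul_cube hω (by rw [inv_pow, hd, inv_one])), one_smul])]
    simp
  refine ⟨⁅b, c⁆, comm_le_self le_rfl le_rfl (Subgroup.commutator_mem_commutator b1 c1),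
    comm_le_self le_rfl le_rfl (Subgroup.commutator_mem_commutator (cm0 b3) (cm0 c3)),
    fx_one_sub hω ?_ (mul_mem (conj_mem_Fx (cm2 b3) c4) (inv_mem c4)),
    loc_comm (hm_Cm hω (h.cube e he) (cm0 e1)) (hm_Cm hω (h.cube e' he') (cm0 f1)) ?_ ?_⟩
  · simpa only [commutatorElement_def, mul_assoc] using
      mul_mem b4 (conj_mem_Fx (cm1 c3) (inv_mem b4))
  · rw [bq_mul b2 (comm_smul_right ω e1).symm (by rw [smul_val, smul_mul_assoc, mul_pj hd]),
      hm_val hω (h.cube e he)]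
  · rw [bq_mul c2 (comm_smul_right ω f4).symm (by
      rw [smul_val, smul_mul_assoc, ← pj_inv hd, mul_pj (by rw [inv_pow, hd, inv_one])]),
      hm_val hω (h.cube e' he')]

theorem AllB.one (hA : AllB R G) (h : Ov ω R G) (hS : Sb ω R d x y y') (he : e ∈ R)
    (e1 : e * d = d * e) (e2 : e * x = x * e) (e3 : e ∉ scalars ι F) :
    ∃ g ∈ G ⊓ Cm (pj d) ⊓ Fx (1 - pj d), g.val * pj d = e.val * pj d := by
  have hd := h.cube d hS.md
  obtain ⟨b, b1, b2⟩ := hA d hS.md (hS.dZ h.toEx) e he e1 (hS.wit h e1 e2 e3)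
  refine ⟨b, ⟨⟨b1, cm0 (bq_comm b2 rfl e1.symm)⟩, mem_Fx.2 ?_⟩, ?_⟩
  · rw [b2, add_mul, mul_assoc, mul_sub (pj d), pj_idem h.om hd]; simp
  · rw [b2, add_mul, mul_assoc, pj_idem h.om hd, sub_mul]; simp

theorem AllB.big (hA : AllB R G) (h : Ov ω R G) (hB : BD ω S U₀) (hRes : Res ω R G U₀) :
    HasBig ω S R G := by
  have := h.ne
  have hω := h.om
  obtain ⟨d, x, y, y', hS⟩ := h.exists_sb0
  obtain ⟨U, W, hF⟩ := hS.exists_fr h
  have hd := h.cube d hS.md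
  have hx := h.cube x hS.mx
  suffices S ≤ hF.img (G ⊓ Cm (pj d) ⊓ Fx (1 - pj d)) from ⟨d, x, y, y', U, W, hS, hF, fun A hA => by
    obtain ⟨g, ⟨⟨g1, g2⟩, g3⟩, -, g4⟩ := hF.mem_img.1 (this hA)
    exact ⟨g, g1, hF.big_of g2 g3 g4⟩⟩
  by_cases h2 : (2 : F) = 0
  · refine hB.two h2 _ ((Subgroup.closure_le _).2 ?_) fun A a1 a2 B b1 b2 => ?_
    · rintro _ (rfl | rfl)
      · obtain ⟨g, g1, g2⟩ := hA.one h hS (h.toEx.smul_mem hS.my) (comm_smul_right ω hS.dy).symm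
          (comm_smul_right ω hS.xy).symm (by rw [smul_mem_Z]; exact hS.swap.dZ h.toEx)
        exact hF.mem_img.2 ⟨g, g1, g1.1.2, hF.res_y.trans (hF.res_congr g2).symm⟩
      · obtain ⟨g, g1, g2⟩ := hA.one h hS hS.my' hS.dy'.symm hS.xy'.symm (hS.swap.xZ h.toEx)
        exact hF.mem_img.2 ⟨g, g1, g1.1.2, hF.res_y'.trans (hF.res_congr g2).symm⟩
    · have hnZ : ∀ e : GL ι F, ∀ A : G3 F, A.val = W * e.val * U → A ∉ scalars (Fin 3) F →
          e ∉ scalars ι F := fun e A h1 h2 h3 => h2 (by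
        obtain ⟨c, rfl⟩ := mem_Z.1 h3
        exact mem_Z.2 ⟨c, Units.ext (by simp [h1, smul_val, hF.wu])⟩)
      obtain ⟨e, e1, e2, e3, e4⟩ := hF.lift6 h.toEx hS a1
      obtain ⟨f, f1, f2, f3, f4⟩ := hF.lift6 h.toEx hS b1
      obtain ⟨g, g1, g2, g3, g4⟩ := hA.two h hS e1 e2 e3 (hnZ e A e4 a2) f1 f2 f3 (hnZ f B f4 b2)
      refine hF.mem_img.2 ⟨g, ⟨⟨g1, g2⟩, g3⟩, g2, ?_⟩
      rw [hF.res_congr g4, ← hF.res_eq (hm_Cm hω (h.cube e e1) (cm0 e2))
        (hF.res_hm hω (h.cube e e1) (cm0 e2) e4), ← hF.res_eq (hm_Cm hω (h.cube f f1) (cm0 f2))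
        (hF.res_hm hω (h.cube f f1) (cm0 f2) f4), ← map_commutatorElement]
      rfl
  rcases hF.bl h hB hRes hS (M := G ⊓ Cm (pj d)) inf_le_left inf_le_right (fun e e1 e2 e3 =>
    ⟨⟨h.le e1, cm0 e2⟩, fun e4 => ⟨h.hmem e e1 e4, hm_Cm hω (h.cube e e1) (cm0 e2)⟩⟩) with h1 | ⟨-, h1⟩
  · obtain ⟨g, g1, g2, g3, g4⟩ := hA.two h hS.swap hS.md hS.dy hS.dy' (hS.dZ h.toEx) hS.mx hS.xy
      hS.xy' (hS.xZ h.toEx)
    have r1 : ω • (x * d) * d = ω • (d * ω • (x * d)) := by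
      rw [smul_mul_assoc, mul_smul_comm, rel_mul_comm hS.rel rfl]
    have r2 : (ω • (x * d)) ^ 3 = 1 := h.cube _ (h.toEx.smul_mem (R.mul_mem hS.mx hS.md))
    have r3 : ⁅hm ω d, hm ω x⁆ * ⁅hm ω d, hm ω x⁆ = (-1 : Fˣ) • tt ω d (ω • (x * d)) := by
      rw [← ss_eq, ss, ← hm_conj_rel' hω hx hS.rel, ← hm_conj hω hd, commutatorElement_def, pow_two]
      group
    have r4 := loc_mul (comm_le_self le_rfl le_rfl (Subgroup.commutator_mem_commutator
      (hm_Cm hω hd (cm0 hS.dy)) (hm_Cm hω hx (cm0 hS.xy)))) g4 g4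
    have r5 : (g * g).val = 1 - pj y - (tt ω d (ω • (x * d))).val * pj y := by
      rw [r3, smul_val, smul_mul_assoc, Units.val_neg, Units.val_one, neg_one_smul] at r4
      rw [sub_eq_add_neg (1 - pj y), ← r4, ← mem_Fx.1 (mul_mem g3 g3), ← mul_add, sub_add_cancel,
        mul_one]
    have r6 : (g * g).val * pj d = (1 - (2 : F) • pj y) * pj d := by
      rw [r5, sub_mul, mul_assoc, ← pj_comm_pj hS.dy, ← mul_assoc, tt_mul_pj hω hd r2 r1, sub_mul,
        sub_mul, smul_mul_assoc, ← pj_comm_pj hS.dy, two_smul, sub_sub]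
    have r7 : g * g ∈ Cm (pj d) := by
      rw [mem_Cm, r6, r5, mul_sub, mul_sub, ← mul_assoc, pj_mul_tt hω hd r2 r1, sub_mul,
        smul_mul_assoc, ← pj_comm_pj hS.dy, two_smul, sub_sub, mul_one, one_mul]
    refine absurd (h1 (g * g) ⟨mul_mem g1 g1, r7⟩ _ ?_) (not_mem_N6 hω h2)
    have r8 : (ω • ω • X ω).val = W * y.val * U := by
      rw [smul_val, smul_val, hF.res_y, ← Matrix.smul_mul, ← Matrix.smul_mul, ← Matrix.mul_smul,
        ← Matrix.mul_smul, ← smul_val, ← smul_val, smul3 hω]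
    have r9 : W * pj y * U = !![1, 0, 0; 0, 0, 0; 0, 0, 0] := by
      rw [← pj6 hω]
      simp only [pj, Matrix.mul_add, Matrix.add_mul, Matrix.mul_smul, Matrix.smul_mul, hF.res_one,
        hF.res_mul (cm0 hS.dy.symm), r8]
    rw [hF.res_congr r6, Matrix.mul_sub, Matrix.sub_mul, hF.res_one, Matrix.mul_smul,
      Matrix.smul_mul, r9, D_val, one_fin_three]
    ext i j
    fin_cases i <;> fin_cases j <;> simp
    norm_num
  · have k : ∀ g ∈ G ⊓ Cm (pj d), ∀ k ∈ G ⊓ Cm (pj d) ⊓ Fx (1 - pj d),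
        g * k * g⁻¹ ∈ G ⊓ Cm (pj d) ⊓ Fx (1 - pj d) := fun g hg k hk =>
      ⟨Subgroup.mul_mem _ (Subgroup.mul_mem _ hg hk.1) (inv_mem hg), conj_mem_Fx
        ((Commute.one_right g.val).sub_right hg.2) hk.2⟩
    intro A hA'
    obtain ⟨g, g1, g2⟩ := h1 _ _ inf_le_left inf_le_left k k (fun e e1 e2 e3 e4 => by
      obtain ⟨g, g1, g2⟩ := hA.one h hS e1 e2 e3 e4
      exact and_self_iff.2 ⟨g, g1, 1, by rw [one_smul, g2]⟩) A hA'
    have g3 := comm_le_self le_rfl le_rfl g1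
    exact hF.mem_img.2 ⟨g, g3, g3.1.2, g2⟩

section main

variable (h : Ov ω R G) (hB : BD ω S U₀) (hRes : Res ω R G U₀) (hn : ¬ HasBig ω S R G)
include h hB hRes hn

theorem nb (hS : Sb ω R d x y y') (hv : v ∈ R) (h1 : v * d = d * v) (h2 : v * x = x * v)
    (hg : g ∈ G) (g0 : g ∈ Fx (pj d)) (g1 : g ∈ Fx (pj (ω • d)))
    (g2 : g.val * pj (ω • ω • d) = v.val * pj (ω • ω • d)) : v ∈ scalars ι F := by
  by_contra hc
  have hS' := (hS.shift h.toEx).shift h.toEx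
  have h3 := comm_smul_right ω (comm_smul_right ω h1)
  exact hn ((allB h.toOv0 hS'.md (hS'.dZ h.toEx) hv h3 (hS'.wit h h3 h2 hc) (bq_of hg g2
    (fx_one_sub h.om (by rwa [smul3 h.om]) (by rwa [smul3 h.om])))).big h hB hRes)

theorem blockB (hS : Sb ω R d x y y') (hg : g ∈ G) (h1 : g * d = d * g) (he : e ∈ R)
    (h2 : e * d = d * e) : ∃ e' ∈ R, e' * d = d * e' ∧ e' * x = x * e' ∧
      (g * e * g⁻¹).val * pj d = e'.val * pj d := by
  have := h.ne
  have hω := h.om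
  have hd := h.cube d hS.md
  have hd' : d⁻¹ ^ 3 = 1 := by rw [inv_pow, hd, inv_one]
  have hx := ne_of_rel hω hS.rel
  have m := @Subgroup.mem_centralizer_singleton_iff (GL ι F) _
  obtain ⟨U, W, hF⟩ := hS.exists_fr h
  rcases hF.bl h hB hRes hS (M := G ⊓ Subgroup.centralizer {d}) inf_le_left
    (fun g hg => cm0 (m.1 hg.2)) (fun e e1 e2 e3 => ⟨⟨h.le e1, m.2 e2⟩, fun e4 =>
      ⟨h.hmem e e1 e4, m.2 (hm_comm hω (h.cube e e1) e2.symm).symm⟩⟩) with h3 | ⟨-, h3⟩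
  · exact hF.alt1 h hS (cm0 h1) (h3 g ⟨hg, m.2 h1⟩) he h2
  refine absurd ⟨d, x, y, y', U, W, hS, hF, fun A hA => ?_⟩ hn
  have k1 : ∀ g ∈ G ⊓ Subgroup.centralizer {d}, ∀ k ∈ G ⊓ Subgroup.centralizer {d} ⊓ Fx (pj (ω • d)),
      g * k * g⁻¹ ∈ G ⊓ Subgroup.centralizer {d} ⊓ Fx (pj (ω • d)) := fun g hg k hk =>
    ⟨Subgroup.mul_mem _ (Subgroup.mul_mem _ hg hk.1) (inv_mem hg), conj_mem_Fx (cm1 (m.1 hg.2)) hk.2⟩
  have k2 : ∀ g ∈ G ⊓ Subgroup.centralizer {d},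
      ∀ k ∈ G ⊓ Subgroup.centralizer {d} ⊓ Fx (pj (ω • ω • d)),
      g * k * g⁻¹ ∈ G ⊓ Subgroup.centralizer {d} ⊓ Fx (pj (ω • ω • d)) := fun g hg k hk =>
    ⟨Subgroup.mul_mem _ (Subgroup.mul_mem _ hg hk.1) (inv_mem hg), conj_mem_Fx (cm2 (m.1 hg.2)) hk.2⟩
  obtain ⟨g, g1, g2⟩ := h3 _ _ inf_le_left inf_le_left k1 k2 (fun e e1 e2 e3 e4 => by
    have he := h.cube e e1
    have e5 : e * d⁻¹ = d⁻¹ * e := (show Commute e d from e2).inv_right
    refine ⟨⟨kp ω d e, ⟨⟨h.toOv0.kp_mem hS.md hx e1 e3 e4, m.2 (kp_comm hω hd he e2)⟩,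
      kp1 hω hd he e2⟩, ω, ?_⟩, kp ω d⁻¹ e, ⟨⟨h.toOv0.kp_mem (inv_mem hS.md)
        (fun a => hx (Commute.inv_right_iff.1 a)) e1 e3 e4,
        m.2 (Commute.inv_right_iff.1 (kp_comm hω hd' he e5))⟩,
        pj_smul_inv hω hd ▸ kp1 hω hd' he e5⟩, ω, ?_⟩
    · rw [smul_val, smul_mul_assoc, kp0 hω hd he e2, ← smul_mul_assoc, ← smul_val, smul3 hω]
    · rw [smul_val, smul_mul_assoc, ← pj_inv hd, kp0 hω hd' he e5, ← smul_mul_assoc, ← smul_val,
        smul3 hω]) A hA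
  have g3 := comm_le_self inf_le_left inf_le_left g1
  have g4 : g ∈ Fx (1 - pj d) := by
    refine Subgroup.commutator_le.2 (fun a ha b hb => fx_one_sub hω ?_ ?_) g1
    · simpa only [commutatorElement_def, mul_assoc] using Subgroup.mul_mem _ ha.2
        (conj_mem_Fx (cm1 (m.1 hb.1.2)) (Subgroup.inv_mem _ ha.2))
    · exact Subgroup.mul_mem _ (conj_mem_Fx (cm2 (m.1 ha.1.2)) hb.2) (Subgroup.inv_mem _ hb.2)
  exact ⟨g, g3.1, hF.big_of (cm0 (m.1 g3.2)) g4 g2⟩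

omit hB hRes hn in
theorem not_Z_of_block (hS : Sb ω R d x y y') (h1 : g * d = d * g) (he : e ∈ R) (e1 : e * d = d * e)
    (e2 : e * x = x * e) (e3 : e ∉ scalars ι F) (h2 : (g * e * g⁻¹).val * pj d = a.val * pj d) :
    a ∉ scalars ι F := fun ha => by
  obtain ⟨c, rfl⟩ := mem_Z.1 ha
  obtain ⟨b, b1, b2, b3⟩ := hS.wit h e1 e2 e3
  refine b3 (h.toEx.comm_of_mul_pj hS.md (hS.dZ h.toEx) he (c := c) ?_ b1 b2)
  have := loc_mul (cm0 h1) (loc_mul (a := g⁻¹) (smul_mem_Cm c (one_mem _)) rfl h2) (rfl : g.val * _ = _)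
  simpa [mul_assoc, Units.smul_def] using this

theorem step1 (hS : Sb ω R d x y y') (hg : g ∈ G) (h1 : g * d = d * g) (he : e ∈ R)
    (e1 : e * d = d * e) (e2 : e * x = x * e) (e3 : e ∉ scalars ι F) (ha : a ∈ R)
    (a1 : a * d = d * a) (a2 : a * x = x * a) (a3 : (g * e * g⁻¹).val * pj d = a.val * pj d)
    (hb : b ∈ R) (b1 : b * d = d * b) (b2 : b * x = x * b)
    (b3 : (g * e * g⁻¹).val * pj (ω • ω • d) = b.val * pj (ω • ω • d)) : ∃ k : ℕ, a = ω ^ k • b := by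
  have := h.ne
  have hω := h.om
  have hd := h.cube d hS.md
  have hx := ne_of_rel hω hS.rel
  have a4 := not_Z_of_block h hS h1 he e1 e2 e3 a3
  have a5 := h.cube a ha
  have f1 : (g * e * g⁻¹) ^ 3 = 1 := by rw [conj_pow, h.cube e he, mul_one, mul_inv_cancel]
  have f2 : g * e * g⁻¹ * d = d * (g * e * g⁻¹) :=
    ((Commute.mul_left h1 e1).mul_left (Commute.inv_left h1)).eq
  have f3 : kp ω d (g * e * g⁻¹) ∈ G := kp_conj hω hd (h.cube e he) e1 h1 ▸
    mul_mem (mul_mem hg (h.toOv0.kp_mem hS.md hx he e2 e3)) (inv_mem hg)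
  have a6 := kp_comm hω hd a5 a1
  have c1 : a * a ∈ Cm (pj (ω • ω • d)) := mul_mem (cm2 a1) (cm2 a1)
  have h3 : b * b * (a * a)⁻¹ ∈ scalars ι F := nb h hB hRes hn hS
    (mul_mem (mul_mem hb hb) (inv_mem (mul_mem ha ha)))
    ((Commute.mul_left b1 b1).mul_left (Commute.mul_left a1 a1).inv_left).eq
    ((Commute.mul_left b2 b2).mul_left (Commute.mul_left a2 a2).inv_left).eq
    (mul_mem f3 (inv_mem (h.toOv0.kp_mem hS.md hx ha a2 a4)))
    (mul_inv_mem_Fx (cm0 a6) (by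
      rw [kp0 hω hd f1 f2, kp0 hω hd a5 a1]; simp only [smul_val, smul_mul_assoc, a3]))
    (mul_mem (kp1 hω hd f1 f2) (inv_mem (kp1 hω hd a5 a1))) (by
      have c2 := smul_mem_Cm ω (smul_mem_Cm ω c1)
      rw [loc_mul (a' := ω • ω • (b * b)) (inv_mem c2) (by
        rw [kp2 hω hd f1 f2]; simp only [smul_val, smul_mul_assoc, loc_mul (cm2 b1) b3 b3])
        (loc_inv c2 (kp2 hω hd a5 a1))]
      simp only [smul_inv, smul_mul_assoc, mul_smul_comm, smul_inv_smul, inv_smul_smul])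
  rw [← inv_eq_sq (h.cube b hb), ← inv_eq_sq a5, inv_inv] at h3
  obtain ⟨k, hk⟩ := Z_cube hω h3 (h.cube _ (mul_mem (inv_mem hb) ha))
  exact ⟨k, by rw [← mul_one b, ← mul_smul_comm, ← hk, mul_inv_cancel_left]⟩

theorem step2 (hS : Sb ω R d x y y') (hg : g ∈ G) (h1 : g * d = d * g) (he : e ∈ R)
    (e1 : e * d = d * e) (e2 : e * x = x * e) (e3 : e ∉ scalars ι F) : g * e * g⁻¹ ∈ R := by
  have := h.ne
  have hω := h.om
  have hd := h.cube d hS.md
  have hS1 := hS.shift h.toEx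
  have hS2 := hS1.shift h.toEx
  have un : ∀ a : GL ι F, a * ω • d = ω • d * a → a * d = d * a := fun a ha => by
    rwa [mul_smul_comm, smul_mul_assoc, smul_left_cancel_iff] at ha
  obtain ⟨a, ha, a1, a2, a3⟩ := blockB h hB hRes hn hS hg h1 he e1
  obtain ⟨b, hb, b1, b2, b3⟩ := blockB h hB hRes hn hS1 hg (comm_smul_right ω h1) he
    (comm_smul_right ω e1)
  obtain ⟨c, hc, c1, c2, c3⟩ := blockB h hB hRes hn hS2 hg (comm_smul_right ω (comm_smul_right ω h1))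
    he (comm_smul_right ω (comm_smul_right ω e1))
  replace c1 : c * d = d * c := by
    rwa [mul_smul_comm, smul_mul_assoc, smul_left_cancel_iff, mul_smul_comm, smul_mul_assoc,
      smul_left_cancel_iff] at c1
  obtain ⟨l, hl⟩ := step1 h hB hRes hn hS hg h1 he e1 e2 e3 ha a1 a2 a3 hc c1 c2 c3
  obtain ⟨k, rfl⟩ := step1 h hB hRes hn hS1 hg (comm_smul_right ω h1) he (comm_smul_right ω e1) e2 e3
    hb b1 b2 b3 ha (comm_smul_right ω a1) a2 (by rwa [smul3 hω])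
  have a4 := not_Z_of_block h hS h1 he e1 e2 e3 a3
  have f1 : (g * e * g⁻¹) ^ 3 = 1 := by rw [conj_pow, h.cube e he, mul_one, mul_inv_cancel]
  have f3 : hm ω (g * e * g⁻¹) ∈ G := hm_conj hω (h.cube e he) g ▸
    mul_mem (mul_mem hg (h.hmem e he e3)) (inv_mem hg)
  generalize g * e * g⁻¹ = f at *
  have pw : ∀ {c : F} {p}, d.val * p = c • p → ∀ n : ℕ, (a * d ^ n).val * p = c ^ n • (a.val * p) :=
    fun {c p} hp n => by
      induction n with
      | zero => simp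
      | succ n ih => rw [pow_succ, ← mul_assoc, Units.val_mul, mul_assoc, hp, mul_smul_comm, ih,
          smul_smul, pow_succ']
  have c0 : ∀ n : ℕ, (ω : F) ^ (3 * n) = 1 := fun n => by
    rw [pow_mul, ← Units.val_pow_eq_pow_val, hω.cube, Units.val_one, one_pow]
  have s0 : f.val * pj d = (a * d ^ (2 * k)).val * pj d := by
    rw [a3, pw (c := 1) (by rw [mul_pj hd, one_smul]), one_pow, one_smul]
  have s1 : f.val * pj (ω • d) = (a * d ^ (2 * k)).val * pj (ω • d) := by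
    rw [b3, pw (mul_pj_smul hω hd), ← pow_mul, show 2 * (2 * k) = 3 * k + k by ring, pow_add, c0,
      one_mul, smul_val, smul_mul_assoc, Units.val_pow_eq_pow_val]
  have s2 : (a * d ^ (2 * k)).val * pj (ω • ω • d) = (ω ^ (2 * k) • a).val * pj (ω • ω • d) := by
    rw [pw (mul_pj_smul2 hω hd), smul_val, smul_mul_assoc, Units.val_pow_eq_pow_val]
  have s3 : c = ω ^ (2 * l + k) • ω ^ (2 * k) • a := by
    rw [hl, smul_smul, smul_smul, ← pow_add, ← pow_add, show 2 * l + k + 2 * k + l = 3 * (l + k) by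
      ring, pow_mul, hω.cube, one_pow, one_smul]
  have u1 : a * d ^ (2 * k) ∈ R := R.mul_mem ha (R.pow_mem hS.md _)
  have u2 : a * d ^ (2 * k) * d = d * (a * d ^ (2 * k)) := (Commute.mul_left a1 (Commute.pow_self d _)).eq
  have u3 : a * d ^ (2 * k) ∉ scalars ι F := fun u3 => by
    obtain ⟨b, b1, b2, b3⟩ := hS.wit h a1 a2 a4
    have := (show Commute (a * d ^ (2 * k)) b from comm_of_mem_scalars u3 b).mul_left
      ((show Commute b d from b2).pow_right (2 * k)).inv_right.symm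
    rw [mul_inv_cancel_right] at this
    exact b3 this.symm
  have v1 := h.toEx.pow_smul_mem (2 * k) ha
  have v2 : ω ^ (2 * k) • a * d = d * ω ^ (2 * k) • a := (comm_smul_right _ a1.symm).symm
  have v3 : ω ^ (2 * k) • a * x = x * ω ^ (2 * k) • a := (comm_smul_right _ a2.symm).symm
  have v4 : ω ^ (2 * k) • a ∉ scalars ι F := by rwa [smul_mem_Z]
  generalize ω ^ (2 * k) • a = v, a * d ^ (2 * k) = u at *
  have hu := h.cube u u1
  have hv := h.cube v v1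
  have key : ∀ w ∈ R, w * d = d * w → w * x = x * w → hm ω c * (hm ω v)⁻¹ = w → w ∈ scalars ι F :=
    fun w w1 w2 w3 w4 => nb h hB hRes hn hS w1 w2 w3 (mul_mem f3 (inv_mem (h.hmem u u1 u3)))
      (mul_inv_mem_Fx (hm_Cm hω hu (cm0 u2)) (hm_loc hω f1 hu (cm0 u2) s0))
      (mul_inv_mem_Fx (hm_Cm hω hu (cm1 u2)) (hm_loc hω f1 hu (cm1 u2) s1))
      (w4 ▸ loc_mul (inv_mem (hm_Cm hω hv (cm2 v2))) (hm_loc hω f1 (h.cube c hc) (cm2 c1) c3)
        (loc_inv (hm_Cm hω hv (cm2 v2)) (hm_loc hω hu hv (cm2 v2) s2)))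
  rcases pow_mod3 hω.cube (2 * l + k) with t | t | t <;> rw [t] at s3
  · rw [one_smul] at s3
    exact (Units.ext (ext_pj hω d s0 s1 (by rw [c3, s2, s3])) : f = u) ▸ u1
  · refine absurd (key _ (h.toEx.smul_mem (h.toEx.smul_mem v1)) ?_ ?_ (by rw [s3, hm_shift hω hv])) ?_
    · simp only [smul_mul_assoc, mul_smul_comm, v2]
    · simp only [smul_mul_assoc, mul_smul_comm, v3]
    · simpa only [smul_mem_Z] using v4
  · rw [hω.inv, pow_two, mul_smul] at s3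
    refine absurd (key _ (h.toEx.smul_mem (h.toEx.smul_mem (mul_mem v1 v1))) ?_ ?_
      (by rw [s3, hm_shift2 hω hv])) ?_
    · simp only [smul_mul_assoc, mul_smul_comm, (Commute.mul_left v2 v2).eq]
    · simp only [smul_mul_assoc, mul_smul_comm, (Commute.mul_left v3 v3).eq]
    · simpa only [smul_mem_Z] using fun a => v4 (h.toEx.Z_of_sq v1 a)

theorem ti_of : TI R G := fun d hd hd' g hg h1 => by
  have := h.ne
  obtain ⟨n, n1, n2, n3⟩ := h.toOv0.move1 h1 (by rwa [conj_mem_Z]) hd hd'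
  obtain ⟨x, y, y', hS⟩ := h.exists_sb hd hd'
  rw [← (subgroupNormalizer R).mul_mem_cancel_left n2]
  have g1 := mul_mem n1 hg
  have g2 : n * g * d = d * (n * g) := by rw [← mul_inv_eq_iff_eq_mul, ← n3]; nth_rewrite 2 [← n3]; group
  generalize n * g = g at *
  have y1 := step2 h hB hRes hn hS g1 g2 hS.my hS.dy.symm hS.xy.symm (hS.swap.dZ h.toEx)
  have y2 := step2 h hB hRes hn hS g1 g2 hS.my' hS.dy'.symm hS.xy'.symm (hS.swap.xZ h.toEx)
  have c : ∀ a, a * d = d * a → g * a * g⁻¹ * d = d * (g * a * g⁻¹) := fun a ha =>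
    ((Commute.mul_left g2 ha).mul_left (Commute.inv_left g2)).eq
  obtain ⟨m, m1, m2, m3, m4⟩ := h.toOv0.move2 y1 hS.my (c y hS.dy.symm) hS.dy.symm
    ⟨_, y2, c y' hS.dy'.symm, by simpa [conj_mul] using ne_of_rel h.om hS.rel'⟩
    ⟨y', hS.my', hS.dy'.symm, ne_of_rel h.om hS.rel'⟩
  rw [← (subgroupNormalizer R).mul_mem_cancel_left m2]
  have g3 := mul_mem m1 g1
  have g4 : m * g * d = d * (m * g) := (Commute.mul_left m4.symm g2).eq
  have g5 : m * g * y = y * (m * g) := by rw [← mul_inv_eq_iff_eq_mul, ← m3]; nth_rewrite 2 [← m3]; group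
  exact hS.mem_N_of h (by rw [g4, mul_inv_cancel_right]; exact hd)
    (step2 h hB hRes hn hS.swap g3 g5 hS.mx hS.xy hS.xy' (hS.xZ h.toEx))
    (by rw [g5, mul_inv_cancel_right]; exact hS.my)
    (step2 h hB hRes hn hS g3 g4 hS.my' hS.dy'.symm hS.xy'.symm (hS.swap.xZ h.toEx))

end main

theorem jobC : JobC.{u} := fun _ _ _ _ _ _ _ _ h hB hR =>
  or_iff_not_imp_right.2 (ti_of h hB hR)

end H13.T3
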