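import Cfsg.Agent.H60.L3ClsU
import Cfsg.Agent.H60.PauSp

/-! Specification of the tower for the normaliser of `3^{1+4}` in dimension nine
(blueprint `C6R3.md`). -/

set_option autoImplicit false

namespace H13.T3

open Matrix hiding mul_inv_rev
open Cfsg Cfsg.Geo H25 H60.L3
open scoped MatrixGroups commutatorElement

universe u

section defs

variable {F : Type u} [Field F] {ι : Type} [Fintype ι] [DecidableEq ι]

/-- the projection on the fixed space of an element of order three -/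
def pj (g : GL ι F) : Matrix ι ι F := (3 : F)⁻¹ • (1 + g.val + g.val * g.val)

/-- the homology with eigenvalue `ω` on the fixed space of `g` -/
noncomputable def hm (ω : Fˣ) (g : GL ι F) : GL ι F := H60.Cl.un (1 + ((ω : F) - 1) • pj g)

/-- minus the involution inverting `d` and `x` -/
noncomputable def ss (ω : Fˣ) (d x : GL ι F) : GL ι F := (hm ω d * (hm ω x)⁻¹) ^ 2

/-- the involution inverting `d` and `x` -/
noncomputable def tt (ω : Fˣ) (d x : GL ι F) : GL ι F := sc ι (-1) * ss ω d x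

/-- an absolutely irreducible extraspecial group of exponent three -/
structure Ex (ω : Fˣ) (R : Subgroup (GL ι F)) : Prop where
  om : Om ω
  ne : Nonempty ι
  spans : Spans R
  comm : ∀ x ∈ R, ∀ y ∈ R, ⁅x, y⁆ ∈ scalars ι F
  cube : ∀ x ∈ R, x ^ 3 = 1
  wm : sc ι ω ∈ R

/-- an overgroup of the extraspecial group and of the homologies -/
structure Ov0 (ω : Fˣ) (R G : Subgroup (GL ι F)) : Prop extends Ex ω R where
  le : R ≤ G
  hmem : ∀ d ∈ R, d ∉ scalars ι F → hm ω d ∈ G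

/-- the same for `3^{1+4}` -/
structure Ov (ω : Fˣ) (R G : Subgroup (GL ι F)) : Prop extends Ov0 ω R G where
  nine : Fintype.card ι = 9
  card : Nat.card R = 243

/-- a symplectic basis -/
structure Sb (ω : Fˣ) (R : Subgroup (GL ι F)) (d x y y' : GL ι F) : Prop where
  md : d ∈ R
  mx : x ∈ R
  my : y ∈ R
  my' : y' ∈ R
  xd : x * d = sc ι ω * (d * x)
  yy : y' * y = sc ι ω * (y * y')
  dy : d * y = y * d
  dy' : d * y' = y' * d
  xy : x * y = y * x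
  xy' : x * y' = y' * x

/-- coordinates on the fixed space of `d` in which `y`, `y'` are the standard generators -/
structure Fr (ω : Fˣ) (d y y' : GL ι F) (U : Matrix ι (Fin 3) F) (W : Matrix (Fin 3) ι F) :
    Prop where
  wu : W * U = 1
  uw : U * W = pj d
  yu : (ω : F) • (y.val * U) = U * (X ω).val
  cu : y'.val * U = U * (C : G3 F).val

/-- `G` contains `S` acting on the three-space -/
def Big (S : Subgroup (G3 F)) (G : Subgroup (GL ι F)) (U : Matrix ι (Fin 3) F)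
    (W : Matrix (Fin 3) ι F) : Prop :=
  ∀ A ∈ S, ∃ g ∈ G, g.val = 1 + U * (A.val - 1) * W

/-- `G` induces a subgroup of `U₀` on the three-spaces -/
def Res (ω : Fˣ) (R G : Subgroup (GL ι F)) (U₀ : Subgroup (G3 F)) : Prop :=
  ∀ d x y y' U W, Sb ω R d x y y' → Fr ω d y y' U W → ∀ g ∈ G, g.val * pj d = pj d * g.val →
    ∀ A : G3 F, A.val = W * g.val * U → A ∈ U₀

/-- the overgroups of the Hessian group in dimension three -/
structure BD (ω : Fˣ) (S U₀ : Subgroup (G3 F)) : Prop where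
  dich : ∀ Γ : Subgroup (G3 F), subgroupNormalizer (R6 ω) ⊓ U₀ ≤ Γ → Γ ≤ U₀ →
    Γ ≤ subgroupNormalizer (R6 ω) ∨
      ((∃ A ∈ S, A * X ω = X ω * A ∧ A ∉ subgroupNormalizer (R6 ω)) ∧
        ∀ L : Subgroup (G3 F), R6 ω ≤ L → L ≤ Γ → Γ ≤ subgroupNormalizer L → S ≤ ⁅L, L⁆)
  two : (2 : F) = 0 → ∀ L : Subgroup (G3 F), R6 ω ≤ L →
    (∀ e ∈ R6 ω, e ∉ scalars (Fin 3) F → ∀ e' ∈ R6 ω, e' ∉ scalars (Fin 3) F →
      ⁅hm ω e, hm ω e'⁆ ∈ L) → S ≤ L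

/-- trivial intersection -/
def TI (R G : Subgroup (GL ι F)) : Prop :=
  ∀ d ∈ R, d ∉ scalars ι F → ∀ g ∈ G, g * d * g⁻¹ ∈ R → g ∈ subgroupNormalizer R

/-- the centralisers of the involutions lie in the normaliser -/
def CT (ω : Fˣ) (R G : Subgroup (GL ι F)) : Prop :=
  ∀ d x y y', Sb ω R d x y y' → ∀ g ∈ G, g * tt ω d x = tt ω d x * g → g ∈ subgroupNormalizer R

/-- some three-space carries the whole of `S` -/
def HasBig (ω : Fˣ) (S : Subgroup (G3 F)) (R G : Subgroup (GL ι F)) : Prop :=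
  ∃ d x y y' U W, Sb ω R d x y y' ∧ Fr ω d y y' U W ∧ Big S G U W

end defs

/-- the group theoretic end game, modulo the central subgroup `Z` -/
structure PGHyp {Γ : Type u} [Group Γ] (G Z R : Subgroup Γ) (T : Set Γ) (j : Γ) : Prop where
  cen : ∀ z ∈ Z, ∀ g, z * g = g * z
  le : R ≤ G
  cube : ∀ r ∈ R, r ^ 3 = 1
  comm : ∀ r ∈ R, ∀ s ∈ R, ⁅r, s⁆ ∈ Z
  nc : ∃ a ∈ R, ∃ b ∈ R, a * b ≠ b * a
  zc : ∀ z ∈ Z, z ^ 3 = 1 → z ∈ R
  ti : ∀ d ∈ R, d ∉ Z → ∀ g ∈ G, g * d * g⁻¹ ∈ R → g ∈ Subgroup.normalizer (R : Set Γ)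
  jG : j ∈ G
  jN : j ∈ Subgroup.normalizer (R : Set Γ)
  jj : j * j ∈ Z
  jinv : ∀ r ∈ R, j * r * j⁻¹ * r ∈ Z
  self : ∀ g ∈ G, (∀ r ∈ R, ⁅g, r⁆ ∈ Z) → ∃ r ∈ R, g * r⁻¹ ∈ Z
  inv : ∀ s ∈ G, s ∈ Subgroup.normalizer (R : Set Γ) → s * s ∈ Z → s ∉ Z →
    (∀ r ∈ R, s * r * s⁻¹ * r ∈ Z) ∨ ∃ t ∈ T, s * t⁻¹ ∈ Z
  ut : ∀ t ∈ T, ∀ t' ∈ T, ∀ g ∈ G, g * t * g⁻¹ * t'⁻¹ ∈ Z → g ∈ Subgroup.normalizer (R : Set Γ)
  jt : ∀ t ∈ T, ∀ g ∈ G, g * j * g⁻¹ * t⁻¹ ∉ Z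
  ex : ∃ t ∈ T, t ∈ G ∧ t ∈ Subgroup.normalizer (R : Set Γ) ∧ t * t ∈ Z ∧ t ∉ Z
  odd : ∀ L : Subgroup Γ, L ≤ G → L ≤ Subgroup.normalizer (R : Set Γ) →
    (∀ n ∈ G, n ∈ Subgroup.normalizer (R : Set Γ) → ∀ l ∈ L, n * l * n⁻¹ ∈ L) →
    (∀ l ∈ L, ∃ m, Odd m ∧ l ^ m ∈ Z) → ∀ l ∈ L, ∀ r ∈ R, ⁅l, r⁆ ∈ Z

def JobPG : Prop := ∀ (Γ : Type u) [Group Γ] (G Z R : Subgroup Γ) (T : Set Γ) (j : Γ),
  Finite G → PGHyp G Z R T j → G ≤ Subgroup.normalizer (R : Set Γ)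

def JobBDL : Prop := ∀ (F : Type u) [Field F] [Fintype F] (ω : Fˣ), (Fintype.card F).Prime →
  Fintype.card F % 3 = 1 → Om ω → BD ω (S3 F) ⊤

def JobBDU : Prop := ∀ (F : Type u) [Field F] [Fintype F] (q : ℕ) (ω : Fˣ),
  Fintype.card F = q ^ 2 → q.Prime → q % 3 = 2 → Om ω → BD ω (G0 F q) (GU 3 F q)

def JobC : Prop := ∀ (F : Type u) [Field F] [Finite F] (ω : Fˣ) (R G : Subgroup (GL (Fin 9) F))
  (S U₀ : Subgroup (G3 F)), Ov ω R G → BD ω S U₀ → Res ω R G U₀ → TI R G ∨ HasBig ω S R G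

def JobT : Prop := ∀ (F : Type u) [Field F] [Finite F] (ω : Fˣ) (R G : Subgroup (GL (Fin 9) F))
  (S U₀ : Subgroup (G3 F)), Ov ω R G → BD ω S U₀ → Res ω R G U₀ → TI R G → CT ω R G

def JobEnd : Prop := JobPG.{u} → ∀ (F : Type u) [Field F] [Finite F] (ω : Fˣ)
  (R G : Subgroup (GL (Fin 9) F)), Ov ω R G → TI R G → CT ω R G → G ≤ subgroupNormalizer R

def JobFinL : Prop := ∀ (F : Type u) [Field F] [Finite F] (ω : Fˣ)
  (R G : Subgroup (GL (Fin 9) F)), Ov ω R G → HasBig ω (S3 F) R G → specialLinear (Fin 9) F ≤ G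

def JobFinU : Prop := ∀ (F : Type u) [Field F] [Fintype F] (q : ℕ) (ω : Fˣ)
  (R G : Subgroup (GL (Fin 9) F)), Fintype.card F = q ^ 2 → q % 3 = 2 → Ov ω R G →
    G ≤ GU 9 F q → Res ω R G (GU 3 F q) ∧
      (HasBig ω (G0 F q) R G → GU 9 F q ⊓ specialLinear (Fin 9) F ≤ G)

/-- the dichotomy for the overgroups -/
theorem core (hC : JobC.{u}) (hT : JobT.{u}) (hE : JobEnd.{u}) (hP : JobPG.{u}) {F : Type u}
    [Field F] [Finite F] {ω : Fˣ} {R G : Subgroup (GL (Fin 9) F)} {S U₀ : Subgroup (G3 F)}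
    (h : Ov ω R G) (hB : BD ω S U₀) (hR : Res ω R G U₀) :
    G ≤ subgroupNormalizer R ∨ HasBig ω S R G :=
  (hC F ω R G S U₀ h hB hR).imp_left fun h1 => hE hP F ω R G h h1 (hT F ω R G S U₀ h hB hR h1)

end H13.T3
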